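import Cfsg.Agent.Lib.TF4Mult.Tor

/-!
# The classes of positive roots of `²F₄`: commutators between classes, the action of the torus
-/

set_option autoImplicit false
set_option linter.unusedSectionVars false
set_option maxRecDepth 100000

namespace Cfsg.Agent.Lib.TF4Mult

open Cfsg.Lie Cfsg.Agent.Lib.Twisted
open Cfsg.Agent.Lib.TF4
open Cfsg.Agent.Lib.Chevalley.Tbl.F4 (sys comm)
open Cfsg.Agent.Lib.ChevBN.Elem Cfsg.Agent.Lib.ChevBN.Table Cfsg.Agent.Lib.ChevBN.Rel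
open Cfsg.Agent.Lib.ChevBN.Opp Cfsg.Agent.Lib.ChevBN.Torus Cfsg.Agent.Lib.ChevBN.Monomial
open Cfsg.Agent.Lib.ChevBN.Stmts Cfsg.Agent.Lib.ChevBN.Pair Cfsg.Agent.Lib.ChevBN.Perfect
open Cfsg.Agent.Lib.ChevOrder.Chev
open Cfsg.Agent.Lib.ChevBN.FastData (tbl_chevF4)
open scoped commutatorElement

variable {K : Type*} [Field K]

set_option quotPrecheck false in
/-- The root elements. -/
local notation "Xr" => X (sys (F := _)).toAddRel

/-- The classes. -/
abbrev Cj (l : ℕ) : List ℕ := cl.getD l []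

/-- The classes strictly between two classes. -/
def seg (j k : ℕ) : List (List ℕ) := (cl.drop (j + 1)).take (k - j - 1)

set_option synthInstance.maxSize 100000 in
set_option synthInstance.maxHeartbeats 0 in
/-- The table of the commutators. -/
theorem iv_chk : ∀ j < 8, ∀ k < 8, j < k →
    clB chevF4 ρ0 (seg j k) = true ∧ closedB chevF4 (seg j k).flatten = true ∧
    closedB chevF4 (Cj j) = true ∧ closedB chevF4 (Cj k) = true ∧
    (∀ S ∈ seg j k, ∃ l < 8, j < l ∧ l < k ∧ S = Cj l) ∧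
    ∀ a ∈ Cj j, ∀ b ∈ Cj k, a ≠ b ∧ (∀ c ∈ chevF4.commTerms b a, c.1 ∈ (seg j k).flatten) ∧
      a ∉ (seg j k).flatten ∧ (∀ s ∈ (seg j k).flatten, ∀ c ∈ chevF4.commTerms a s, c.1 ∈ (seg j k).flatten) ∧
      b ∉ (seg j k).flatten ∧ (∀ s ∈ (seg j k).flatten, ∀ c ∈ chevF4.commTerms b s, c.1 ∈ (seg j k).flatten) := by
  decide +kernel

theorem closed_Cj : ∀ l < 8, closedB chevF4 (Cj l) = true := by decide +kernel

/-- The data of the class. -/
def cert (l : ℕ) : List ℕ × List (Fin 2) × Fin 2 := certs.getD l ([], [], 0)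

set_option synthInstance.maxSize 100000 in
set_option synthInstance.maxHeartbeats 0 in
theorem cert_chk : ∀ l < 8, (cert l).1 = Cj l ∧ (∀ r ∈ Cj l, fwl (cert l).2.1 r ∈ triv (cert l).2.2) ∧
    (∀ r ∈ Cj l, fwl (cert l).2.1 r ∈ lr (cert l).2.2) ∧
    (∀ r ∈ lr (cert l).2.2, ∃ s ∈ Cj l, fwl (cert l).2.1 s = r) ∧
    ∀ k < 8, k ≠ l → ∀ r ∈ Cj k, fwl (cert l).2.1 r ∉ triv (cert l).2.2 := by decide +kernel

section Char
variable [CharP K 2] [Finite K]

/-- The word element of a class. -/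
noncomputable def wN (l : ℕ) : GL chevF4.Idx K := prodA sys ((cert l).2.1.map lw).flatten

theorem wN_N (l : ℕ) : wN (K := K) l ∈ chevF4.monomialSubgroup K := prodA_mem_N sys tbl_chevF4 (flat_lt _)

theorem wN_conj (l : ℕ) {r : ℕ} (hr : r < chevF4.nroots) (t : K) :
    wN l * Xr r t * (wN l)⁻¹ = Xr (fwl (cert l).2.1 r) t :=
  prodA_conj2 (flat_lt _) hr t

theorem wN_conj' (l : ℕ) {r : ℕ} (hr : r < chevF4.nroots) (t : K) :
    (wN l)⁻¹ * Xr (fwl (cert l).2.1 r) t * wN l = Xr r t := by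
  rw [← wN_conj l hr t]
  group

theorem Cj_lt {l : ℕ} (hl : l < 8) {r : ℕ} (hr : r ∈ Cj l) : r < chevF4.nroots :=
  ((closedB_sound (closed_Cj l hl)).pos r hr).1

variable {φ : K →+* K} (hφ2 : ∀ t, (φ (φ t)) ^ 2 = t)

/-- The torus element fixing a class. -/
noncomputable def hS (φ : K →+* K) (l : ℕ) (t : K) : GL chevF4.Idx K := (wN l)⁻¹ * hF φ (cert l).2.2 t * wN l

theorem hS_H (l : ℕ) {t : K} (ht : t ≠ 0) : hS φ l t ∈ chevF4.diagonalSubgroup K := by
  have h1 := H_norm_N sys tbl_chevF4 (Subgroup.inv_mem _ (wN_N (K := K) l)) (hF_H (φ := φ) (cert l).2.2 ht)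
  rw [inv_inv] at h1
  exact h1

include hφ2

theorem hS_conj (l : ℕ) {t : K} (ht : t ≠ 0) {r : ℕ} (hr : r < chevF4.nroots) (u : K) :
    hS φ l t * Xr r u * (hS φ l t)⁻¹ = Xr r (sc φ (cert l).2.2 t (fwl (cert l).2.1 r) * u) := by
  have hlt : fwl (cert l).2.1 r < chevF4.nroots := prodA_lt (flat_lt _) hr
  have e : hS φ l t * Xr r u * (hS φ l t)⁻¹ =
      (wN l)⁻¹ * (hF φ (cert l).2.2 t * (wN l * Xr r u * (wN l)⁻¹) * (hF φ (cert l).2.2 t)⁻¹) * wN l := by
    unfold hS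
    group
  rw [e, wN_conj l hr, hF_conj hφ2 _ ht hlt, wN_conj' l hr]

theorem hS_fix {l : ℕ} (hl : l < 8) {t : K} (ht : t ≠ 0) : FixS sys (hS φ l t) {r | r ∈ Cj l} := by
  intro r hr u
  have hlt := Cj_lt hl hr
  have hlt2 : fwl (cert l).2.1 r < chevF4.nroots := prodA_lt (flat_lt _) hlt
  rw [hS_conj hφ2 l ht hlt, sc_triv hφ2 hlt2 ((cert_chk l hl).2.1 r hr), one_mul]

theorem hS_fpf {l k : ℕ} (hl : l < 8) (hk : k < 8) (hne : k ≠ l) {t : K} (ht : t ≠ 0) (ht1 : t ≠ 1) :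
    FpfS sys (hS φ l t) {r | r ∈ Cj k} := by
  intro r hr
  have hlt := Cj_lt hk hr
  have hlt2 : fwl (cert l).2.1 r < chevF4.nroots := prodA_lt (flat_lt _) hlt
  exact ⟨_, sc_ne hφ2 ht ht1 hlt2 ((cert_chk l hl).2.2.2.2 k hk hne r hr), fun u => hS_conj hφ2 l ht hlt u⟩

end Char

section Comm

variable [CharP K 2]

/-- Commutators of the classes fall in the classes between. -/
theorem comm_seg {j k : ℕ} (hj : j < 8) (hk : k < 8) (hjk : j < k) {x y : GL chevF4.Idx K}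
    (hx : x ∈ gen (sys (F := K)).toAddRel {r | r ∈ Cj j}) (hy : y ∈ gen (sys (F := K)).toAddRel {r | r ∈ Cj k}) :
    ⁅x, y⁆ ∈ gen (sys (F := K)).toAddRel {r | r ∈ (seg j k).flatten} := by
  obtain ⟨-, h2, h3, h4, -, h6⟩ := iv_chk j hj k hk hjk
  have hΨ := closedB_sound h2
  have hS1 := closedB_sound h3
  have hS2 := closedB_sound h4
  have hleft : ∀ a ∈ Cj j, a ∉ (seg j k).flatten ∧ ∀ s ∈ (seg j k).flatten, ∀ c ∈ chevF4.commTerms a s, c.1 ∈ (seg j k).flatten := by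
    intro a ha
    have hb : ∃ b, b ∈ Cj k := by
      interval_cases k <;> exact ⟨_, List.mem_cons_self⟩
    obtain ⟨b, hb⟩ := hb
    obtain ⟨-, -, h7, h8, -, -⟩ := h6 a ha b hb
    exact ⟨h7, h8⟩
  have hright : ∀ b ∈ Cj k, b ∉ (seg j k).flatten ∧ ∀ s ∈ (seg j k).flatten, ∀ c ∈ chevF4.commTerms b s, c.1 ∈ (seg j k).flatten := by
    intro b hb
    have ha : ∃ a, a ∈ Cj j := by
      interval_cases j <;> exact ⟨_, List.mem_cons_self⟩
    obtain ⟨a, ha⟩ := ha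
    obtain ⟨-, -, -, -, h7, h8⟩ := h6 a ha b hb
    exact ⟨h7, h8⟩
  have hnj := gen_le_norm (F := K) sys tbl_chevF4 hS1 hΨ (fun a ha => (hleft a ha).1) (fun a ha s hs c hc => (hleft a ha).2 s hs c hc)
  have hnk := gen_le_norm (F := K) sys tbl_chevF4 hS2 hΨ (fun a ha => (hright a ha).1) (fun a ha s hs c hc => (hright a ha).2 s hs c hc)
  refine comm_gen_mem sys tbl_chevF4 (fun x hx k hk => (Subgroup.mem_normalizer_iff.mp (hnj hx) k).mp hk)
    (fun x hx k hk => (Subgroup.mem_normalizer_iff.mp (hnk hx) k).mp hk) ?_ hx hy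
  intro a ha t b hb u
  obtain ⟨h7, h8, -⟩ := h6 a ha b hb
  refine comm_X_mem sys tbl_chevF4 (hS1.pos a ha) (hS2.pos b hb) h7 (Ψ := {r | r ∈ (seg j k).flatten}) h8 le_rfl ?_ ?_ t u
  · intro t k hk
    exact (Subgroup.mem_normalizer_iff.mp (hnj (X_mem_gen _ ha t)) k).mp hk
  · intro t k hk
    exact (Subgroup.mem_normalizer_iff.mp (hnk (X_mem_gen _ hb t)) k).mp hk

/-- Two subgroups generated by commuting root elements commute. -/
theorem commute_gen {S S' : Set ℕ} (h : ∀ a ∈ S, ∀ t : K, ∀ b ∈ S', ∀ u : K, Commute (Xr a t) (Xr b u)) {x y : GL chevF4.Idx K}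
    (hx : x ∈ gen (sys (F := K)).toAddRel S) (hy : y ∈ gen (sys (F := K)).toAddRel S') : x * y = y * x := by
  have h1 : ⁅x, y⁆ ∈ (⊥ : Subgroup (GL chevF4.Idx K)) := by
    refine comm_gen_mem sys tbl_chevF4 (fun x _ k hk => ?_) (fun x _ k hk => ?_) ?_ hx hy
    · rw [Subgroup.mem_bot] at hk ⊢
      rw [hk]
      group
    · rw [Subgroup.mem_bot] at hk ⊢
      rw [hk]
      group
    · intro a ha t b hb u
      rw [Subgroup.mem_bot, commutatorElement_eq_one_iff_mul_comm]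
      exact h a ha t b hb u
  rw [Subgroup.mem_bot, commutatorElement_eq_one_iff_mul_comm] at h1
  exact h1

/-- The pairs of classes whose root elements commute in characteristic two. -/
def evenPair (S S' : List ℕ) : Prop :=
  ∀ r ∈ S, ∀ s ∈ S', r < chevF4.nroots ∧ s < chevF4.nroots ∧ s ≠ r ∧ s ≠ chevF4.neg r ∧
    (chevF4.commTerms r s).all (fun c => c.2.1 % 2 == 0) = true

instance (S S' : List ℕ) : Decidable (evenPair S S') := by
  unfold evenPair
  infer_instance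

theorem commute_even {S S' : List ℕ} (h : evenPair S S') {x y : GL chevF4.Idx K}
    (hx : x ∈ gen (sys (F := K)).toAddRel {r | r ∈ S}) (hy : y ∈ gen (sys (F := K)).toAddRel {r | r ∈ S'}) : x * y = y * x := by
  refine commute_gen (S := {r | r ∈ S}) (S' := {r | r ∈ S'}) ?_ hx hy
  intro a ha t b hb u
  obtain ⟨h1, h2, h3, h4, h5⟩ := h a ha b hb
  exact comm_even h1 h2 h3 h4 h5 t u

theorem even_01 : evenPair (Cj 0) (Cj 1) := by decide +kernel
theorem even_02 : evenPair (Cj 0) (Cj 2) := by decide +kernel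
theorem even_12 : evenPair (Cj 1) (Cj 2) := by decide +kernel

end Comm

section Fx

variable [CharP K 2] [Finite K] {φ : K →+* K} (hφ2 : ∀ t, (φ (φ t)) ^ 2 = t) {T : Tw (sys (F := K)).toAddRel}
  (hρ : T.ρ = ρ0) (hτ : ∀ r t, T.τ r t = lam r (φ t)) {e : ℕ} (hφ : ∀ t, φ t = t ^ e)

/-- The fixed points of a class in the group. -/
noncomputable abbrev XX (T : Tw (sys (F := K)).toAddRel) (e : ℕ) (l : ℕ) : Subgroup ↥(twistedF4 K e) :=
  Xl sys T (twistedF4 K e) cl l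

theorem mem_XX {l : ℕ} {x : ↥(twistedF4 K e)} :
    x ∈ XX T e l ↔ (x : GL chevF4.Idx K) ∈ gen (sys (F := K)).toAddRel {r | r ∈ Cj l} ∧ (x : GL chevF4.Idx K) ∈ T.Fx := by
  rw [XX, Xl, XS, mem_Xg]
  rfl

include hφ2 hρ hτ hφ

theorem class_le {l : ℕ} (hl : l < 8) {x : GL chevF4.Idx K} (hx : x ∈ gen (sys (F := K)).toAddRel {r | r ∈ Cj l})
    (hf : x ∈ T.Fx) : x ∈ twistedF4 K e := by
  apply U_Fx_le hφ2 hρ hτ hφ
  refine ⟨?_, hf⟩
  rw [posUnipotent_eq (sys (F := K)).toAddRel]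
  exact gen_mono _ (fun r hr => (closedB_sound (closed_Cj l hl)).pos r hr) hx

/-- The interval of the classes contains the fixed points in the classes between. -/
theorem fix_seg {j k : ℕ} (hj : j < 8) (hk : k < 8) (hjk : j < k) {g : ↥(twistedF4 K e)}
    (hg : (g : GL chevF4.Idx K) ∈ gen (sys (F := K)).toAddRel {r | r ∈ (seg j k).flatten}) :
    g ∈ Cfsg.Agent.Lib.TF4Mult.Iv (XX T e) (j + 1) k := by
  obtain ⟨h1, -, -, -, h5, -⟩ := iv_chk j hj k hk hjk
  have hok : ClOK chevF4 T.ρ (seg j k) := by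
    rw [hρ]
    exact clB_sound h1
  have hfx : (g : GL chevF4.Idx K) ∈ T.Fx := G1_le_Fx hφ2 hρ hτ hφ g.2
  have h2 := fix_flat_le sys tbl_chevF4 T (seg j k) hok ((Cfsg.Agent.Lib.TF4Mult.Iv (XX T e) (j + 1) k).map (twistedF4 K e).subtype) (by
    intro S hS x hx
    obtain ⟨l, hl, h6, h7, rfl⟩ := h5 S hS
    refine ⟨⟨x, class_le hφ2 hρ hτ hφ hl hx.1 hx.2⟩, mem_Iv (by omega) h7 ?_, rfl⟩
    exact mem_XX.2 hx) ⟨hg, hfx⟩
  obtain ⟨y, hy, e1⟩ := h2
  have : y = g := Subtype.ext e1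
  rwa [← this]

/-- The commutators in the group. -/
theorem XX_comm {j k : ℕ} (hj : j < 8) (hk : k < 8) (hjk : j < k) {x y : ↥(twistedF4 K e)} (hx : x ∈ XX T e j) (hy : y ∈ XX T e k) :
    ⁅x, y⁆ ∈ Cfsg.Agent.Lib.TF4Mult.Iv (XX T e) (j + 1) k := by
  apply fix_seg hφ2 hρ hτ hφ hj hk hjk
  exact comm_seg hj hk hjk (mem_XX.1 hx).1 (mem_XX.1 hy).1

omit hφ2 hρ hτ hφ in
theorem Iv_le_flat (a b : ℕ) {y : ↥(twistedF4 K e)} (hy : y ∈ Cfsg.Agent.Lib.TF4Mult.Iv (XX T e) a b) :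
    (y : GL chevF4.Idx K) ∈ gen (sys (F := K)).toAddRel {r | r ∈ (cl.drop a).flatten} := by
  induction hy using Subgroup.closure_induction with
  | mem x hx =>
    obtain ⟨l, h1, h2, hx⟩ := hx
    refine gen_mono _ ?_ (mem_XX.1 hx).1
    intro r hr
    by_cases hl : l < cl.length
    · have hr' : r ∈ cl.getD l [] := hr
      rw [List.getD_eq_getElem _ _ hl] at hr'
      refine List.mem_flatten.2 ⟨cl[l], ?_, hr'⟩
      have h3 : l - a < (cl.drop a).length := by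
        rw [List.length_drop]
        omega
      have h4 : (cl.drop a)[l - a] = cl[l] := by
        rw [List.getElem_drop]
        congr 1
        omega
      rw [← h4]
      exact List.getElem_mem _
    · have hr' : r ∈ cl.getD l [] := hr
      rw [List.getD_eq_default _ _ (by omega)] at hr'
      simp at hr'
  | one => exact Subgroup.one_mem _
  | mul a b _ _ ha hb => exact Subgroup.mul_mem _ ha hb
  | inv a _ ha => exact Subgroup.inv_mem _ ha

/-- The coordinates along the chain. -/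
theorem XX_coord (b j : ℕ) {x : ↥(twistedF4 K e)} (hx : x ∈ XX T e j)
    (hq : x ∈ Cfsg.Agent.Lib.TF4Mult.Iv (XX T e) (j + 1) b) : x = 1 := by
  apply Subtype.ext
  by_cases hj8 : j < cl.length
  · have hcl : ClOK chevF4 T.ρ cl := by
      rw [hρ]
      exact clB_sound clChk
    have h1 := clok_drop j cl hcl
    rw [List.drop_eq_getElem_cons hj8] at h1
    obtain ⟨h2, h3, h4, h5, h6, -, -⟩ := h1
    have hq2 := Iv_le_flat _ _ hq
    have hx2 := (mem_XX.1 hx).1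
    have e1 : Cj j = cl[j] := List.getD_eq_getElem _ _ hj8
    rw [e1] at hx2
    have hU : ({r | r ∈ cl[j]} ∪ {r | r ∈ (cl.drop (j + 1)).flatten} : Set ℕ) =
        {r | r ∈ cl[j] ∨ r ∈ (cl.drop (j + 1)).flatten} := rfl
    have hbot := gen_inf_eq_bot (F := K) sys tbl_chevF4 h2 h4 (by rw [hU]; exact h3) h5 h6
    have h7 : (x : GL chevF4.Idx K) ∈ gen (sys (F := K)).toAddRel {r | r ∈ cl[j]} ⊓ gen (sys (F := K)).toAddRel {r | r ∈ (cl.drop (j + 1)).flatten} :=
      ⟨hx2, hq2⟩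
    rw [hbot, Subgroup.mem_bot] at h7
    exact h7
  · have hx2 := (mem_XX.1 hx).1
    have e1 : Cj j = [] := List.getD_eq_default _ _ (by omega)
    rw [e1] at hx2
    have h0 : gen (sys (F := K)).toAddRel {r | r ∈ ([] : List ℕ)} ≤ ⊥ := gen_le _ (by simp)
    simpa using h0 hx2

/-- A generator of the whole unipotent group. -/
theorem Iv_top : Cfsg.Agent.Lib.TF4Mult.Iv (XX T e) 0 8 = (chevF4.posUnipotent K ⊓ twistedF4 K e).subgroupOf (twistedF4 K e) := by
  have hU : chevF4.posUnipotent K = gen (sys (F := K)).toAddRel {r | r ∈ cl.flatten} := by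
    rw [posUnipotent_eq (sys (F := K)).toAddRel]
    congr 1
    ext r
    exact ⟨fun h => flatChk.1 r (mem_posRoots h), fun h => flatChk.2 r h⟩
  apply le_antisymm
  · intro y hy
    have h1 := Iv_le_flat _ _ hy
    rw [List.drop_zero, ← hU] at h1
    exact Subgroup.mem_subgroupOf.2 ⟨h1, y.2⟩
  · intro y hy
    have hcl : ClOK chevF4 T.ρ cl := by
      rw [hρ]
      exact clB_sound clChk
    have h1 : (y : GL chevF4.Idx K) ∈ chevF4.posUnipotent K := (Subgroup.mem_subgroupOf.1 hy).1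
    rw [hU] at h1
    have h2 := fix_flat_le sys tbl_chevF4 T cl hcl ((Cfsg.Agent.Lib.TF4Mult.Iv (XX T e) 0 8).map (twistedF4 K e).subtype) (by
      intro S hS x hx
      have hall : ∀ S ∈ cl, ∃ l < 8, S = Cj l := by decide +kernel
      obtain ⟨l, hl, rfl⟩ := hall S hS
      refine ⟨⟨x, class_le hφ2 hρ hτ hφ hl hx.1 hx.2⟩, mem_Iv (by omega) hl ?_, rfl⟩
      exact mem_XX.2 hx) ⟨h1, G1_le_Fx hφ2 hρ hτ hφ y.2⟩
    obtain ⟨z, hz, e1⟩ := h2
    have : z = y := Subtype.ext e1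
    rwa [← this]

end Fx

end Cfsg.Agent.Lib.TF4Mult
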