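import Cfsg.Agent.Lib.TF4Mult.SzSec
import Cfsg.Agent.Lib.Twisted.Mult.Lam
import Cfsg.Agent.Lib.Suzuki.Stem

/-!
# The kernel of a central extension of odd order: the Bruhat form and the monomial elements
-/

set_option autoImplicit false
set_option linter.unusedSectionVars false

namespace Cfsg.Agent.Lib.TF4Mult

open Cfsg.Agent.Lib.Twisted.Mult
open scoped commutatorElement

/-- The data of the group. -/
structure CS {G : Type*} [Group G] (U N : Subgroup G) (X Y Uc : Fin 2 → Subgroup G) : Prop where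
  hU : ∀ u ∈ U, PE 2 u
  hX : ∀ i, X i ≤ U
  hY : ∀ i, ∀ y ∈ Y i, PE 2 y
  Uc_le : ∀ i, Uc i ≤ U
  dec : ∀ i, ∀ u ∈ U, ∃ x ∈ X i, ∃ k ∈ Uc i, u = x * k
  nx : ∀ i, ∀ x ∈ X i, ∀ k ∈ Uc i, x * k * x⁻¹ ∈ Uc i
  ny : ∀ i, ∀ y ∈ Y i, ∀ k ∈ Uc i, y * k * y⁻¹ ∈ Uc i
  gen : Subgroup.closure ((U : Set G) ∪ {g | ∃ i, g ∈ Y i}) = ⊤
  UN : ∀ n ∈ N, n ∈ U → n = 1
  dich : ∀ n ∈ N, ∀ i, (∀ x ∈ X i, n⁻¹ * x * n ∈ U) ∨ (∀ y ∈ Y i, n⁻¹ * y * n ∈ U)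

namespace CS

variable {G : Type*} [Group G] {U N : Subgroup G} {X Y Uc : Fin 2 → Subgroup G} (D : CS U N X Y Uc)
  {Γ : Type*} [Group Γ] [Finite Γ] {σ : Γ →* G} {m : ℕ} (L : PL σ 2 m)

/-- The lifts of the elements of `U`. -/
noncomputable def Uh : Subgroup Γ where
  carrier := {a | ∃ u ∈ U, a = lam L u}
  one_mem' := ⟨1, U.one_mem, (lam_one L).symm⟩
  mul_mem' := by
    rintro _ _ ⟨a, ha, rfl⟩ ⟨b, hb, rfl⟩
    exact ⟨a * b, U.mul_mem ha hb, (lam_mul L Nat.prime_two U D.hU ha hb).symm⟩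
  inv_mem' := by
    rintro _ ⟨a, ha, rfl⟩
    exact ⟨a⁻¹, U.inv_mem ha, (lam_inv L (D.hU a ha)).symm⟩

/-- The group generated by the `2`-elements of the preimage of `N`. -/
def Mh (N : Subgroup G) (σ : Γ →* G) : Subgroup Γ := Subgroup.closure {a | σ a ∈ N ∧ PE 2 a}

theorem σ_Mh {a : Γ} (ha : a ∈ Mh N σ) : σ a ∈ N := by
  induction ha using Subgroup.closure_induction with
  | mem x hx => exact hx.1
  | one => rw [map_one]; exact N.one_mem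
  | mul a b _ _ ha hb =>
    rw [map_mul]
    exact N.mul_mem ha hb
  | inv a _ ha =>
    rw [map_inv]
    exact N.inv_mem ha

/-- The Bruhat form. -/
def Br (g : Γ) : Prop := ∃ u ∈ D.Uh L, ∃ a ∈ Mh N σ, ∃ u' ∈ D.Uh L, g = u * a * u'

theorem lam_mem {u : G} (hu : u ∈ U) : lam L u ∈ D.Uh L := ⟨u, hu, rfl⟩

include D in
theorem σ_lamU {u : G} (hu : u ∈ U) : σ (lam L u) = u := σ_lam L (D.hU u hu)

include D in
theorem PEX {i : Fin 2} {x : G} (hx : x ∈ X i) : PE 2 x := D.hU x (D.hX i hx)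

theorem conj_U {a : Γ} {x : G} (hx : PE 2 x) (h : (σ a)⁻¹ * x * σ a ∈ U) : a⁻¹ * lam L x * a ∈ D.Uh L := by
  have h1 := lam_conj L hx a⁻¹
  rw [inv_inv] at h1
  rw [h1, map_inv, inv_inv]
  exact ⟨_, h, rfl⟩

/-- The rank one hypothesis for the negative part. -/
def R1 (L : PL σ 2 m) (N : Subgroup G) (X Y : Fin 2 → Subgroup G) : Prop :=
  ∀ i, ∀ y ∈ Y i, y ≠ 1 → ∃ x₁ ∈ X i, ∃ x₂ ∈ X i, lam L x₁ * lam L y * lam L x₂ ∈ Mh N σ

/-- The rank one hypothesis for the positive part. -/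
def R2 (L : PL σ 2 m) (N : Subgroup G) (X Y : Fin 2 → Subgroup G) : Prop :=
  ∀ i, ∀ x ∈ X i, x ≠ 1 → ∃ y₁ ∈ Y i, ∃ y₂ ∈ Y i, lam L y₁ * lam L x * lam L y₂ ∈ Mh N σ ∧
    ∀ x' ∈ X i, (σ (lam L y₁ * lam L x * lam L y₂))⁻¹ * x' * σ (lam L y₁ * lam L x * lam L y₂) ∈ Y i

variable (hR1 : R1 L N X Y) (hR2 : R2 L N X Y)

include hR1 in
/-- The first case: `X i` stays positive. -/
theorem br_case1 {i : Fin 2} {a u' : Γ} (ha : a ∈ Mh N σ) (hu' : u' ∈ D.Uh L)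
    (h : ∀ x ∈ X i, (σ a)⁻¹ * x * σ a ∈ U) {y s : G} (hy : y ∈ Y i) (hs : s ∈ X i) :
    D.Br L (lam L y * lam L s * a * u') := by
  by_cases hy1 : y = 1
  · subst hy1
    rw [lam_one, one_mul]
    exact ⟨_, D.lam_mem L (D.hX i hs), a, ha, u', hu', rfl⟩
  obtain ⟨x₁, h1, x₂, h2, h0⟩ := hR1 i y hy hy1
  set a₀ := lam L x₁ * lam L y * lam L x₂ with ha₀
  have hx₂s : x₂⁻¹ * s ∈ X i := (X i).mul_mem ((X i).inv_mem h2) hs
  have e1 : (lam L x₂)⁻¹ * lam L s = lam L (x₂⁻¹ * s) := by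
    rw [lam_mul L Nat.prime_two U D.hU (U.inv_mem (D.hX i h2)) (D.hX i hs), lam_inv L (D.PEX h2)]
  refine ⟨(lam L x₁)⁻¹, Subgroup.inv_mem _ (D.lam_mem L (D.hX i h1)), a₀ * a, Subgroup.mul_mem _ h0 ha,
    (a⁻¹ * lam L (x₂⁻¹ * s) * a) * u', Subgroup.mul_mem _ (D.conj_U L (D.PEX hx₂s) (h _ hx₂s)) hu', ?_⟩
  rw [← e1, ha₀]
  group

include hR1 hR2 in
/-- The second case: `Y i` stays positive. -/
theorem br_case2 {i : Fin 2} {a u' : Γ} (ha : a ∈ Mh N σ) (hu' : u' ∈ D.Uh L)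
    (h : ∀ y ∈ Y i, (σ a)⁻¹ * y * σ a ∈ U) {y s : G} (hy : y ∈ Y i) (hs : s ∈ X i) :
    D.Br L (lam L y * lam L s * a * u') := by
  by_cases hs1 : s = 1
  · subst hs1
    rw [lam_one, mul_one]
    refine ⟨1, Subgroup.one_mem _, a, ha, (a⁻¹ * lam L y * a) * u',
      Subgroup.mul_mem _ (D.conj_U L (D.hY i y hy) (h y hy)) hu', ?_⟩
    group
  obtain ⟨y₁, h1, y₂, h2, h0, hsw⟩ := hR2 i s hs hs1
  set b₀ := lam L y₁ * lam L s * lam L y₂ with hb₀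
  have hPY : ∀ g ∈ Y i, PE 2 g := D.hY i
  have e1 : lam L y * (lam L y₁)⁻¹ = lam L (y * y₁⁻¹) := by
    rw [lam_mul L Nat.prime_two (Y i) hPY hy ((Y i).inv_mem h1), lam_inv L (hPY _ h1)]
  have h3 : ∀ x ∈ X i, (σ (b₀ * a))⁻¹ * x * σ (b₀ * a) ∈ U := by
    intro x hx
    have e : (σ (b₀ * a))⁻¹ * x * σ (b₀ * a) = (σ a)⁻¹ * ((σ b₀)⁻¹ * x * σ b₀) * σ a := by
      rw [map_mul]
      group
    rw [e]
    exact h _ (hsw x hx)
  have h4 := D.br_case1 L hR1 (a := b₀ * a) (u' := (a⁻¹ * (lam L y₂)⁻¹ * a) * u') (i := i) (Subgroup.mul_mem _ h0 ha) (by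
      refine Subgroup.mul_mem _ ?_ hu'
      have h5 := D.conj_U L (a := a) (hPY _ ((Y i).inv_mem h2)) (h _ ((Y i).inv_mem h2))
      rwa [lam_inv L (hPY _ h2)] at h5) h3 (y := y * y₁⁻¹) (s := 1) ((Y i).mul_mem hy ((Y i).inv_mem h1)) (X i).one_mem
  rw [lam_one, mul_one, ← e1] at h4
  have e2 : lam L y * lam L s * a * u' = lam L y * (lam L y₁)⁻¹ * (b₀ * a) * (a⁻¹ * (lam L y₂)⁻¹ * a * u') := by
    rw [hb₀]
    group
  rw [e2]
  exact h4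

include hR1 hR2 in
/-- Multiplication by `ŷ`. -/
theorem br_y {i : Fin 2} {y : G} (hy : y ∈ Y i) {g : Γ} (h : D.Br L g) : D.Br L (lam L y * g) := by
  obtain ⟨u, ⟨v, hv, rfl⟩, a, ha, u', hu', rfl⟩ := h
  obtain ⟨s, hs, k, hk, rfl⟩ := D.dec i v hv
  have hkU := D.Uc_le i hk
  have hsU := D.hX i hs
  have e1 : lam L (s * k) = lam L s * lam L k := lam_mul L Nat.prime_two U D.hU hsU hkU
  set b := lam L y * lam L s with hb
  have hσb : σ b = y * s := by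
    rw [hb, map_mul, σ_lam L (D.hY i y hy), D.σ_lamU L hsU]
  have h2 : b * lam L k * b⁻¹ ∈ D.Uh L := by
    rw [lam_conj L (D.hU k hkU), hσb]
    refine ⟨_, D.Uc_le i ?_, rfl⟩
    have e : y * s * k * (y * s)⁻¹ = y * (s * k * s⁻¹) * y⁻¹ := by group
    rw [e]
    exact D.ny i y hy _ (D.nx i s hs _ hk)
  have h3 : D.Br L (b * a * u') := by
    rcases D.dich _ (σ_Mh ha) i with h4 | h4
    · exact D.br_case1 L hR1 ha hu' h4 hy hs
    · exact D.br_case2 L hR1 hR2 ha hu' h4 hy hs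
  obtain ⟨w₁, hw₁, a₁, ha₁, w₂, hw₂, e3⟩ := h3
  refine ⟨(b * lam L k * b⁻¹) * w₁, Subgroup.mul_mem _ h2 hw₁, a₁, ha₁, w₂, hw₂, ?_⟩
  have e4 : lam L y * (lam L (s * k) * a * u') = (b * lam L k * b⁻¹) * (b * a * u') := by
    rw [e1, hb]
    group
  rw [e4, e3]
  group

/-- The generators of the group. -/
noncomputable def Gh : Subgroup Γ :=
  Subgroup.closure ((D.Uh L : Set Γ) ∪ {a | ∃ i, ∃ y ∈ Y i, a = lam L y})

include hR1 hR2 in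
theorem br_Gh {g : Γ} (hg : g ∈ D.Gh L) : D.Br L g := by
  have hone : D.Br L 1 :=
    ⟨1, Subgroup.one_mem _, 1, Subgroup.one_mem _, 1, Subgroup.one_mem _, by simp⟩
  have hU : ∀ a ∈ D.Uh L, ∀ b, D.Br L b → D.Br L (a * b) := by
    rintro a ha b ⟨u, hu, c, hc, u', hu', rfl⟩
    exact ⟨a * u, Subgroup.mul_mem _ ha hu, c, hc, u', hu', by group⟩
  have hstep : ∀ a ∈ ((D.Uh L : Set Γ) ∪ {a | ∃ i, ∃ y ∈ Y i, a = lam L y}), ∀ b, D.Br L b →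
      D.Br L (a * b) ∧ D.Br L (a⁻¹ * b) := by
    rintro a (ha | ⟨i, y, hy, rfl⟩) b hb
    · exact ⟨hU a ha b hb, hU _ (Subgroup.inv_mem _ ha) b hb⟩
    · refine ⟨D.br_y L hR1 hR2 hy hb, ?_⟩
      rw [← lam_inv L (D.hY i y hy)]
      exact D.br_y L hR1 hR2 ((Y i).inv_mem hy) hb
  exact Subgroup.closure_induction_left (p := fun g _ => D.Br L g) hone
    (fun x hx y _ hy => (hstep x hx y hy).1) (fun x hx y _ hy => (hstep x hx y hy).2) hg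

/-- The lifts generate the group up to the kernel. -/
theorem exists_Gh (γ : Γ) : ∃ g ∈ D.Gh L, σ g = σ γ := by
  have h1 : σ γ ∈ (D.Gh L).map σ := by
    have h2 : Subgroup.closure ((U : Set G) ∪ {g | ∃ i, g ∈ Y i}) ≤ (D.Gh L).map σ := by
      rw [Subgroup.closure_le]
      rintro g (hg | ⟨i, hg⟩)
      · exact ⟨lam L g, Subgroup.subset_closure (Or.inl ⟨g, hg, rfl⟩), D.σ_lamU L hg⟩
      · exact ⟨lam L g, Subgroup.subset_closure (Or.inr ⟨i, g, hg, rfl⟩), σ_lam L (D.hY i g hg)⟩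
    rw [D.gen] at h2
    exact h2 (Subgroup.mem_top _)
  obtain ⟨g, hg, e⟩ := h1
  exact ⟨g, hg, e⟩

theorem comm_le : commutator Γ ≤ D.Gh L := by
  rw [commutator_def, Subgroup.commutator_le]
  intro a _ b _
  obtain ⟨g, hg, e⟩ := D.exists_Gh L a
  obtain ⟨g', hg', e'⟩ := D.exists_Gh L b
  rw [comm_eq_of_eq L.cent e e']
  rw [commutatorElement_def]
  exact Subgroup.mul_mem _ (Subgroup.mul_mem _ (Subgroup.mul_mem _ hg hg') (Subgroup.inv_mem _ hg))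
    (Subgroup.inv_mem _ hg')

include D hR1 hR2 in
/-- The kernel lies in the group generated by the `2`-elements of the preimage of `N`. -/
theorem ker_le_Mh (hk : σ.ker ≤ commutator Γ) : σ.ker ≤ Mh N σ := by
  intro z hz
  obtain ⟨u, ⟨a, ha, rfl⟩, c, hc, u', ⟨b, hb, rfl⟩, e⟩ := D.br_Gh L hR1 hR2 (D.comm_le L (hk hz))
  have hza : σ z = 1 := hz
  have h1 : σ (lam L a * c * lam L b) = 1 := by rw [← e, hza]
  rw [map_mul, map_mul, D.σ_lamU L ha, D.σ_lamU L hb] at h1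
  have h2 : σ c = a⁻¹ * b⁻¹ := by
    have h3 : a * σ c = b⁻¹ := eq_inv_of_mul_eq_one_left h1
    rw [← h3]
    group
  have h3 : σ c = 1 := D.UN _ (σ_Mh hc) (by
    rw [h2]
    exact U.mul_mem (U.inv_mem ha) (U.inv_mem hb))
  rw [h3, mul_one] at h1
  have h4 : b = a⁻¹ := eq_inv_of_mul_eq_one_right h1
  rw [h4, lam_inv L (D.hU a ha)] at e
  have h5 : c = (lam L a)⁻¹ * z * lam L a := by
    rw [e]
    group
  have hzc := Subgroup.mem_center_iff.mp (L.cent hz)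
  have h6 : c = z := by
    rw [h5, mul_assoc, ← hzc, ← mul_assoc, inv_mul_cancel, one_mul]
  rw [← h6]
  exact hc

end CS

/-! ### The transfers -/

section Transfers

variable {G : Type*} [Group G] {Γ : Type*} [Group Γ] [Finite Γ] {σ : Γ →* G} {m : ℕ} (L : PL σ 2 m)

include L

omit [Finite Γ] in
/-- Elements of the kernel killed by a power of two are trivial. -/
theorem ker_eq_one_of_pow {z : Γ} (hz : z ∈ σ.ker) {n : ℕ} (h : z ^ (2 ^ n) = 1) : z = 1 := by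
  have e2 := L.pow _ hz
  have e3 := (pow_gcd_eq_one).2 ⟨e2, h⟩
  have hcop : Nat.gcd m (2 ^ n) = 1 := Nat.Coprime.pow_right _ L.cop
  rw [hcop, pow_one] at e3
  exact e3

/-- The transfer from the preimage of `N` to the preimage of `H`. -/
theorem pow_e {N H : Subgroup G} (hab : ∀ a b, σ a ∈ H → σ b ∈ H → a * b = b * a) {e₁ : ℕ} (hH : ∀ h ∈ H, h ^ e₁ = 1)
    (hidx : ∃ n, (H.subgroupOf N).index = 2 ^ n) (hker : σ.ker ≤ CS.Mh N σ) {z : Γ} (hz : z ∈ σ.ker) :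
    z ^ e₁ = 1 := by
  classical
  let Nh : Subgroup Γ := N.comap σ
  let Hh : Subgroup ↥Nh := (H.comap σ).subgroupOf Nh
  let hA : CommGroup ↥σ.ker :=
    { (σ.ker).toGroup with
      mul_comm := fun a b => Subtype.ext (Subgroup.mem_center_iff.mp (L.cent a.2) (b : Γ)).symm }
  have hmem : ∀ x : ↥Hh, ((x : ↥Nh) : Γ) ^ e₁ ∈ σ.ker := by
    intro x
    have h1 : σ ((x : ↥Nh) : Γ) ∈ H := Subgroup.mem_subgroupOf.1 x.2
    rw [MonoidHom.mem_ker, map_pow, hH _ h1]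
  let φ : ↥Hh →* ↥σ.ker :=
    { toFun := fun x => ⟨((x : ↥Nh) : Γ) ^ e₁, hmem x⟩
      map_one' := by
        apply Subtype.ext
        show (((1 : ↥Hh) : ↥Nh) : Γ) ^ e₁ = 1
        simp
      map_mul' := by
        intro x y
        apply Subtype.ext
        show (((x * y : ↥Hh) : ↥Nh) : Γ) ^ e₁ = ((x : ↥Nh) : Γ) ^ e₁ * ((y : ↥Nh) : Γ) ^ e₁
        have hc : Commute ((x : ↥Nh) : Γ) ((y : ↥Nh) : Γ) :=
          hab _ _ (Subgroup.mem_subgroupOf.1 x.2) (Subgroup.mem_subgroupOf.1 y.2)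
        rw [← hc.mul_pow]
        rfl }
  have hfi : Hh.FiniteIndex := inferInstance
  let T : ↥Nh →* ↥σ.ker := φ.transfer
  have hT1 : ∀ a : ↥Nh, PE 2 (a : Γ) → T a = 1 := by
    rintro a ⟨k, hk⟩
    apply Subtype.ext
    have h1 : (T a) ^ (2 ^ k) = 1 := by
      rw [← map_pow]
      have : a ^ (2 ^ k) = 1 := Subtype.ext (by rw [Subgroup.coe_pow]; exact hk)
      rw [this, map_one]
    have h2 : ((T a : ↥σ.ker) : Γ) ^ (2 ^ k) = 1 := by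
      have := congrArg Subtype.val h1
      simpa using this
    exact ker_eq_one_of_pow L (T a).2 h2
  have hle : CS.Mh N σ ≤ (T.ker).map Nh.subtype := by
    rw [CS.Mh, Subgroup.closure_le]
    rintro a ⟨h1, h2⟩
    exact ⟨⟨a, h1⟩, hT1 ⟨a, h1⟩ h2, rfl⟩
  obtain ⟨x, hx, e⟩ := hle (hker hz)
  have hxz : (x : Γ) = z := e
  have hxc : (x : Γ) ∈ Subgroup.center Γ := by
    rw [hxz]
    exact L.cent hz
  have hkey : ∀ (k : ℕ) (g₀ : ↥Nh), g₀⁻¹ * x ^ k * g₀ ∈ Hh → g₀⁻¹ * x ^ k * g₀ = x ^ k := by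
    intro k g₀ _
    apply Subtype.ext
    have h1 : (x : Γ) ^ k ∈ Subgroup.center Γ := pow_mem hxc k
    show (g₀ : Γ)⁻¹ * (x : Γ) ^ k * (g₀ : Γ) = (x : Γ) ^ k
    rw [mul_assoc, ← Subgroup.mem_center_iff.mp h1 (g₀ : Γ), ← mul_assoc, inv_mul_cancel, one_mul]
  have h1 := MonoidHom.transfer_eq_pow φ x hkey
  have h2 : φ.transfer x = 1 := hx
  rw [h2] at h1
  have h3 := congrArg Subtype.val h1
  have h4 : ((x : Γ) ^ Hh.index) ^ e₁ = 1 := h3.symm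
  -- the index
  have hidx2 : Hh.index = (H.subgroupOf N).index := by
    let f : ↥Nh →* ↥N := (σ.comp Nh.subtype).codRestrict N (fun y => y.2)
    have hf : Function.Surjective f := by
      rintro ⟨g, hg⟩
      obtain ⟨a, rfl⟩ := L.surj g
      exact ⟨⟨a, hg⟩, rfl⟩
    have e5 : Hh = (H.subgroupOf N).comap f := by
      ext y
      simp only [Hh, f, Subgroup.mem_subgroupOf, Subgroup.mem_comap]
      rfl
    rw [e5]
    exact Subgroup.index_comap_of_surjective _ hf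
  obtain ⟨n, hn⟩ := hidx
  rw [hidx2, hn, hxz, ← pow_mul, mul_comm, pow_mul] at h4
  exact ker_eq_one_of_pow L (Subgroup.pow_mem _ hz _) h4

/-- The transfer to the preimage of the Borel subgroup. -/
theorem pow_B {U H B : Subgroup G} (hPU : ∀ u ∈ U, PE 2 u) (hab : ∀ a b, σ a ∈ H → σ b ∈ H → a * b = b * a)
    (hB : ∀ b ∈ B, ∃ u ∈ U, ∃ h ∈ H, b = u * h) (hUB : ∀ b ∈ B, ∀ u ∈ U, b * u * b⁻¹ ∈ U) (hHB : H ≤ B)
    (hk : σ.ker ≤ commutator Γ) {z : Γ} (hz : z ∈ σ.ker) : z ^ B.index = 1 := by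
  classical
  let Uh : Subgroup Γ :=
    { carrier := {a | ∃ u ∈ U, a = lam L u}
      one_mem' := ⟨1, U.one_mem, (lam_one L).symm⟩
      mul_mem' := by
        rintro _ _ ⟨a, ha, rfl⟩ ⟨b, hb, rfl⟩
        exact ⟨a * b, U.mul_mem ha hb, (lam_mul L Nat.prime_two U hPU ha hb).symm⟩
      inv_mem' := by
        rintro _ ⟨a, ha, rfl⟩
        exact ⟨a⁻¹, U.inv_mem ha, (lam_inv L (hPU a ha)).symm⟩ }
  let W : Subgroup Γ := B.comap σ
  have hnorm : ∀ a, σ a ∈ B → ∀ u ∈ Uh, a * u * a⁻¹ ∈ Uh := by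
    rintro a ha _ ⟨u, hu, rfl⟩
    rw [lam_conj L (hPU u hu)]
    exact ⟨_, hUB _ ha _ hu, rfl⟩
  have hdecomp : ∀ a ∈ W, ∃ u ∈ Uh, ∃ c, σ c ∈ H ∧ a = u * c := by
    intro a ha
    obtain ⟨u, hu, h, hh, e⟩ := hB _ ha
    refine ⟨lam L u, ⟨u, hu, rfl⟩, (lam L u)⁻¹ * a, ?_, by group⟩
    rw [map_mul, map_inv, σ_lam L (hPU u hu), e]
    simpa using hh
  have hcomm : ∀ a ∈ W, ∀ b ∈ W, ⁅a, b⁆ ∈ Uh := by
    intro a ha b hb
    obtain ⟨u₁, h1, c₁, h2, rfl⟩ := hdecomp a ha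
    obtain ⟨u₂, h3, c₂, h4, rfl⟩ := hdecomp b hb
    have e1 : c₁ * c₂ = c₂ * c₁ := hab _ _ h2 h4
    have e2 : ⁅u₁ * c₁, u₂ * c₂⁆ = u₁ * (c₁ * u₂ * c₁⁻¹) * (c₂ * u₁ * c₂⁻¹)⁻¹ * u₂⁻¹ := by
      rw [commutatorElement_def]
      calc u₁ * c₁ * (u₂ * c₂) * (u₁ * c₁)⁻¹ * (u₂ * c₂)⁻¹
          = u₁ * (c₁ * u₂ * c₁⁻¹) * (c₁ * c₂) * c₁⁻¹ * u₁⁻¹ * c₂⁻¹ * u₂⁻¹ := by group
        _ = u₁ * (c₁ * u₂ * c₁⁻¹) * (c₂ * c₁) * c₁⁻¹ * u₁⁻¹ * c₂⁻¹ * u₂⁻¹ := by rw [e1]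
        _ = _ := by group
    rw [e2]
    exact Subgroup.mul_mem _ (Subgroup.mul_mem _ (Subgroup.mul_mem _ h1 (hnorm _ (hHB h2) _ h3))
      (Subgroup.inv_mem _ (hnorm _ (hHB h4) _ h1))) (Subgroup.inv_mem _ h3)
  obtain ⟨w, hw1, hw2⟩ := Cfsg.Agent.Lib.Suzuki.Stem.exists_mem_commutator W (L.cent hz) (hk hz)
  have hle : (commutator W).map W.subtype ≤ Uh := by
    rw [Subgroup.map_subtype_commutator, Subgroup.commutator_le]
    exact hcomm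
  have hw3 : (w : Γ) ∈ Uh := hle ⟨w, hw1, rfl⟩
  have hidx : W.index = B.index := Subgroup.index_comap_of_surjective B L.surj
  rw [hidx] at hw2
  obtain ⟨u, hu, e⟩ := hw3
  have h5 : σ (w : Γ) = 1 := by
    rw [hw2, map_pow, MonoidHom.mem_ker.mp hz, one_pow]
  have h6 : u = 1 := by
    rw [e, σ_lam L (hPU u hu)] at h5
    exact h5
  rw [e, h6, lam_one] at hw2
  exact hw2.symm

omit [Finite Γ] in
/-- The preimage of a commutative group with a reflection is commutative. -/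
theorem hab_of_refl {H H₀ H₁ : Subgroup G} {n : G} (hHab : ∀ a ∈ H, ∀ b ∈ H, a * b = b * a) (h0 : H₀ ≤ H) (h1 : H₁ ≤ H)
    (hc0 : ∀ a b, σ a ∈ H₀ → σ b ∈ H₀ → a * b = b * a) (hc1 : ∀ a b, σ a ∈ H₁ → σ b ∈ H₁ → a * b = b * a)
    (hn0 : ∀ x ∈ H₀, n * x * n⁻¹ = x⁻¹) (hn1 : ∀ y ∈ H₁, n * y * n⁻¹ * y⁻¹ ∈ H₀)
    (hdec : ∀ h ∈ H, ∃ x ∈ H₀, ∃ y ∈ H₁, h = x * y) {a b : Γ} (ha : σ a ∈ H) (hb : σ b ∈ H) : a * b = b * a := by
  have hc := L.cent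
  have key : ∀ a₀ a₁, σ a₀ ∈ H₀ → σ a₁ ∈ H₁ → a₀ * a₁ = a₁ * a₀ := by
    intro a₀ a₁ ha₀ ha₁
    obtain ⟨ν, rfl⟩ := L.surj n
    set c := ⁅a₀, a₁⁆ with hc'
    have hck : c ∈ σ.ker := by
      rw [MonoidHom.mem_ker, hc', map_commutatorElement, commutatorElement_eq_one_iff_mul_comm]
      exact hHab _ (h0 ha₀) _ (h1 ha₁)
    have hcc := Subgroup.mem_center_iff.mp (hc hck)
    set w := ν * a₁ * ν⁻¹ * a₁⁻¹ with hw
    have hwσ : σ w ∈ H₀ := by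
      rw [hw, map_mul, map_mul, map_mul, map_inv, map_inv]
      exact hn1 _ ha₁
    have e1 : σ (ν * a₀ * ν⁻¹) = σ a₀⁻¹ := by
      rw [map_mul, map_mul, map_inv, hn0 _ ha₀, map_inv]
    have e2 : ν * c * ν⁻¹ = c := by
      rw [hcc ν]
      group
    have e3 : ν * c * ν⁻¹ = ⁅ν * a₀ * ν⁻¹, ν * a₁ * ν⁻¹⁆ := by
      rw [hc']
      simp only [commutatorElement_def]
      group
    have e4 : ν * a₁ * ν⁻¹ = w * a₁ := by
      rw [hw]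
      group
    have e5 : ⁅ν * a₀ * ν⁻¹, w * a₁⁆ = ⁅a₀⁻¹, w * a₁⁆ := comm_eq_of_eq hc e1.symm rfl
    have hia : σ a₀⁻¹ ∈ H₀ := by
      rw [map_inv]
      exact H₀.inv_mem ha₀
    have e6 : a₀⁻¹ * w = w * a₀⁻¹ := hc0 _ _ hia hwσ
    have e7 : ⁅a₀⁻¹, w * a₁⁆ = w * ⁅a₀⁻¹, a₁⁆ * w⁻¹ := by
      simp only [commutatorElement_def]
      calc a₀⁻¹ * (w * a₁) * a₀⁻¹⁻¹ * (w * a₁)⁻¹ = (a₀⁻¹ * w) * a₁ * a₀ * a₁⁻¹ * w⁻¹ := by group
        _ = (w * a₀⁻¹) * a₁ * a₀ * a₁⁻¹ * w⁻¹ := by rw [e6]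
        _ = _ := by group
    have e8 : ⁅a₀⁻¹, a₁⁆ = c⁻¹ := by
      have e9 : a₀⁻¹ * c * a₀ = c := by
        rw [mul_assoc, ← hcc a₀]
        group
      have e10 : a₀⁻¹ * c * a₀ = (⁅a₀⁻¹, a₁⁆)⁻¹ := by
        rw [hc']
        simp only [commutatorElement_def]
        group
      rw [e9] at e10
      rw [e10]
      group
    have e11 : c = c⁻¹ := by
      calc c = ν * c * ν⁻¹ := e2.symm
        _ = ⁅ν * a₀ * ν⁻¹, w * a₁⁆ := by rw [e3, e4]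
        _ = ⁅a₀⁻¹, w * a₁⁆ := e5
        _ = w * c⁻¹ * w⁻¹ := by rw [e7, e8]
        _ = c⁻¹ := by
          have h3 : w * c⁻¹ = c⁻¹ * w := by
            have := hcc w
            calc w * c⁻¹ = c⁻¹ * (c * w) * c⁻¹ := by group
              _ = c⁻¹ * (w * c) * c⁻¹ := by rw [this]
              _ = _ := by group
          rw [h3]
          group
    have e12 : c ^ (2 ^ 1) = 1 := by
      rw [pow_one, pow_two]
      nth_rewrite 1 [e11]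
      group
    have e13 := ker_eq_one_of_pow L hck e12
    rw [hc', commutatorElement_eq_one_iff_mul_comm] at e13
    exact e13
  obtain ⟨x, hx, y, hy, e⟩ := hdec _ ha
  obtain ⟨x', hx', y', hy', e'⟩ := hdec _ hb
  obtain ⟨a₀, rfl⟩ := L.surj x
  obtain ⟨b₀, rfl⟩ := L.surj x'
  have h2 : σ (a₀⁻¹ * a) ∈ H₁ := by
    rw [map_mul, map_inv, e]
    simpa using hy
  have h3 : σ (b₀⁻¹ * b) ∈ H₁ := by
    rw [map_mul, map_inv, e']
    simpa using hy'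
  have e2 : a = a₀ * (a₀⁻¹ * a) := by group
  have e3 : b = b₀ * (b₀⁻¹ * b) := by group
  set a₁ := a₀⁻¹ * a
  set b₁ := b₀⁻¹ * b
  rw [e2, e3]
  have c1 := hc0 _ _ hx hx'
  have c2 := key a₀ b₁ hx h3
  have c3 := key b₀ a₁ hx' h2
  have c4 := hc1 _ _ h2 h3
  calc a₀ * a₁ * (b₀ * b₁) = a₀ * (a₁ * b₀) * b₁ := by group
    _ = a₀ * (b₀ * a₁) * b₁ := by rw [c3]
    _ = (a₀ * b₀) * (a₁ * b₁) := by group
    _ = (b₀ * a₀) * (b₁ * a₁) := by rw [c1, c4]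
    _ = b₀ * (a₀ * b₁) * a₁ := by group
    _ = b₀ * (b₁ * a₀) * a₁ := by rw [c2]
    _ = _ := by group

end Transfers

end Cfsg.Agent.Lib.TF4Mult
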