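import Cfsg.Agent.Lib.Twisted.Mult.Ab

/-!
# Sections over a chain whose commutators fall between the groups of the chain
-/

set_option autoImplicit false
set_option linter.unusedSectionVars false

namespace Cfsg.Agent.Lib.TF4Mult

open Cfsg.Agent.Lib.Twisted.Mult
open scoped commutatorElement

section Iv

variable {Γ G : Type*} [Group Γ] [Group G]

/-- The subgroup generated by the groups of the chain between two points. -/
def Iv (Y : ℕ → Subgroup Γ) (a b : ℕ) : Subgroup Γ := Subgroup.closure {g | ∃ l, a ≤ l ∧ l < b ∧ g ∈ Y l}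

variable {Y : ℕ → Subgroup Γ}

theorem mem_Iv {a b l : ℕ} (h1 : a ≤ l) (h2 : l < b) {g : Γ} (hg : g ∈ Y l) : g ∈ Iv Y a b :=
  Subgroup.subset_closure ⟨l, h1, h2, hg⟩

theorem Iv_mono {a b a' b' : ℕ} (h1 : a' ≤ a) (h2 : b ≤ b') : Iv Y a b ≤ Iv Y a' b' := by
  apply Subgroup.closure_mono
  rintro g ⟨l, h3, h4, hg⟩
  exact ⟨l, by omega, by omega, hg⟩

/-- The relation of the commutators. -/
def GoodI (Y : ℕ → Subgroup Γ) (j k : ℕ) : Prop := ∀ x ∈ Y j, ∀ y ∈ Y k, ⁅x, y⁆ ∈ Iv Y (j + 1) k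

/-- Conjugation preserves the interval if it preserves the groups. -/
theorem conj_Iv {γ : Γ} (h : ∀ l, ∀ a ∈ Y l, γ * a * γ⁻¹ ∈ Y l) {a b : ℕ} {g : Γ} (hg : g ∈ Iv Y a b) :
    γ * g * γ⁻¹ ∈ Iv Y a b := by
  induction hg using Subgroup.closure_induction with
  | mem x hx =>
    obtain ⟨k, h1, h2, hx⟩ := hx
    exact mem_Iv h1 h2 (h k x hx)
  | one => simp
  | mul x y _ _ hx hy =>
    have e : γ * (x * y) * γ⁻¹ = (γ * x * γ⁻¹) * (γ * y * γ⁻¹) := by group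
    rw [e]
    exact Subgroup.mul_mem _ hx hy
  | inv x _ hx =>
    have e : γ * x⁻¹ * γ⁻¹ = (γ * x * γ⁻¹)⁻¹ := by group
    rw [e]
    exact Subgroup.inv_mem _ hx

/-- An element normalising each generator of a subgroup up to the subgroup. -/
theorem conj_closure_mem {S : Set Γ} {Q : Subgroup Γ} {γ : Γ} (h : ∀ a ∈ S, γ * a * γ⁻¹ ∈ Q) {g : Γ}
    (hg : g ∈ Subgroup.closure S) : γ * g * γ⁻¹ ∈ Q := by
  induction hg using Subgroup.closure_induction with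
  | mem x hx => exact h x hx
  | one => simp
  | mul x y _ _ hx hy =>
    have e : γ * (x * y) * γ⁻¹ = (γ * x * γ⁻¹) * (γ * y * γ⁻¹) := by group
    rw [e]
    exact Subgroup.mul_mem _ hx hy
  | inv x _ hx =>
    have e : γ * x⁻¹ * γ⁻¹ = (γ * x * γ⁻¹)⁻¹ := by group
    rw [e]
    exact Subgroup.inv_mem _ hx

/-- The element of the first group of an interval normalises the rest of the interval. -/
theorem norm_first {j b : ℕ} (h : ∀ l, j < l → l < b → GoodI Y j l) {x : Γ} (hx : x ∈ Y j) {g : Γ}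
    (hg : g ∈ Iv Y (j + 1) b) : x * g * x⁻¹ ∈ Iv Y (j + 1) b := by
  refine conj_closure_mem (S := {g | ∃ l, j + 1 ≤ l ∧ l < b ∧ g ∈ Y l}) (Q := Iv Y (j + 1) b)
    ?_ hg
  rintro a ⟨l, h1, h2, ha⟩
  have e : x * a * x⁻¹ = ⁅x, a⁆ * a := by
    rw [commutatorElement_def]
    group
  rw [e]
  exact Subgroup.mul_mem _ (Iv_mono le_rfl (by omega) (h l (by omega) h2 x hx a ha)) (mem_Iv h1 h2 ha)

/-- The factorisation of the elements of an interval. -/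
theorem Iv_decomp {j b : ℕ} (hjb : j < b) (h : ∀ l, j < l → l < b → GoodI Y j l) {g : Γ} (hg : g ∈ Iv Y j b) :
    ∃ x ∈ Y j, ∃ g' ∈ Iv Y (j + 1) b, g = x * g' := by
  refine Subgroup.closure_induction_left (p := fun g _ => ∃ x ∈ Y j, ∃ g' ∈ Iv Y (j + 1) b, g = x * g')
    ⟨1, Subgroup.one_mem _, 1, Subgroup.one_mem _, by simp⟩ ?_ ?_ hg
  · rintro a ⟨k, h1, h2, ha⟩ _ _ ⟨x, hx, g', hg', rfl⟩
    rcases Nat.lt_or_ge j k with h3 | h3
    · have h4 : x⁻¹ * a * x ∈ Iv Y (j + 1) b := by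
        have := norm_first h (Subgroup.inv_mem _ hx) (mem_Iv (a := j + 1) (b := b) h3 h2 ha)
        simpa using this
      exact ⟨x, hx, (x⁻¹ * a * x) * g', Subgroup.mul_mem _ h4 hg', by group⟩
    · have hkj : k = j := by omega
      subst hkj
      exact ⟨a * x, Subgroup.mul_mem _ ha hx, g', hg', by group⟩
  · rintro a ⟨k, h1, h2, ha⟩ _ _ ⟨x, hx, g', hg', rfl⟩
    have ha' := Subgroup.inv_mem _ ha
    rcases Nat.lt_or_ge j k with h3 | h3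
    · have h4 : x⁻¹ * a⁻¹ * x ∈ Iv Y (j + 1) b := by
        have := norm_first h (Subgroup.inv_mem _ hx) (mem_Iv (a := j + 1) (b := b) h3 h2 ha')
        simpa using this
      exact ⟨x, hx, (x⁻¹ * a⁻¹ * x) * g', Subgroup.mul_mem _ h4 hg', by group⟩
    · have hkj : k = j := by omega
      subst hkj
      exact ⟨a⁻¹ * x, Subgroup.mul_mem _ ha' hx, g', hg', by group⟩

variable (σ : Γ →* G)

/-- Injectivity on the intervals. -/
theorem inj_Iv (b : ℕ) (hco : ∀ j, j < b → ∀ x ∈ Y j, ∀ g ∈ Iv Y (j + 1) b, σ x = σ g → x = 1) :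
    ∀ (d j : ℕ), b - j = d → (∀ k l, j ≤ k → k < l → l < b → GoodI Y k l) →
      ∀ g ∈ Iv Y j b, σ g = 1 → g = 1 := by
  intro d
  induction d with
  | zero =>
    intro j hd _ g hg _
    have hb : Iv Y j b = ⊥ := by
      rw [Iv, Subgroup.closure_eq_bot_iff]
      rintro a ⟨k, h1, h2, _⟩
      omega
    rw [hb, Subgroup.mem_bot] at hg
    exact hg
  | succ d ih =>
    intro j hd hgood g hg h1
    have hj : j < b := by omega
    obtain ⟨x, hx, g', hg', rfl⟩ := Iv_decomp hj (fun l h3 h4 => hgood j l le_rfl h3 h4) hg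
    rw [map_mul] at h1
    have h2 : σ x = σ g'⁻¹ := by
      rw [map_inv]
      exact eq_inv_of_mul_eq_one_left h1
    have h3 := hco j hj x hx _ (Subgroup.inv_mem _ hg') h2
    subst h3
    rw [map_one, one_mul] at h1
    rw [one_mul]
    exact ih (j + 1) (by omega) (fun k l hk => hgood k l (by omega)) g' hg' h1

/-- The main step for a subgroup containing the commutators. -/
theorem good_stepQ (hc : σ.ker ≤ Subgroup.center Γ) {A B Q : Subgroup Γ}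
    (hQ : ∀ g ∈ Q, σ g = 1 → g = 1)
    (hnx : ∀ x ∈ A, ∀ g ∈ Q, x * g * x⁻¹ ∈ Q)
    (hny : ∀ y ∈ B, ∀ g ∈ Q, y * g * y⁻¹ ∈ Q)
    (hcomm : ∀ x ∈ A, ∀ y ∈ B, ∃ w ∈ Q, σ ⁅x, y⁆ = σ w)
    (hsep : ∃ γ : Γ, (∀ a ∈ A, γ * a * γ⁻¹ ∈ A) ∧ (∀ a ∈ B, γ * a * γ⁻¹ ∈ B) ∧
      (∀ g ∈ Q, γ * g * γ⁻¹ ∈ Q) ∧
      (((∀ a ∈ A, γ * a * γ⁻¹ = a) ∧ ∀ a ∈ B, ∃ b ∈ B, a = γ * b * γ⁻¹ * b⁻¹) ∨
       ((∀ a ∈ B, γ * a * γ⁻¹ = a) ∧ ∀ a ∈ A, ∃ b ∈ A, a = γ * b * γ⁻¹ * b⁻¹))) :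
    ∀ x ∈ A, ∀ y ∈ B, ⁅x, y⁆ ∈ Q := by
  -- the relation
  let R : Γ → Γ → Γ → Prop := fun x y e => e ∈ σ.ker ∧ ∃ w ∈ Q, ⁅x, y⁆ = w * e
  have hex : ∀ x ∈ A, ∀ y ∈ B, ∃ e, R x y e := by
    intro x hx y hy
    obtain ⟨w, hw, e⟩ := hcomm x hx y hy
    refine ⟨w⁻¹ * ⁅x, y⁆, ?_, w, hw, by group⟩
    rw [MonoidHom.mem_ker, map_mul, map_inv, e, inv_mul_cancel]
  have huniq : ∀ x y e e', R x y e → R x y e' → e = e' := by
    rintro x y e e' ⟨h1, w, hw, h2⟩ ⟨h1', w', hw', h2'⟩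
    have h3 : w'⁻¹ * w = e' * e⁻¹ := by
      have : w * e = w' * e' := h2.symm.trans h2'
      calc w'⁻¹ * w = w'⁻¹ * (w * e) * e⁻¹ := by group
        _ = w'⁻¹ * (w' * e') * e⁻¹ := by rw [this]
        _ = _ := by group
    have h4 : σ (w'⁻¹ * w) = 1 := by
      rw [h3, map_mul, map_inv, MonoidHom.mem_ker.mp h1, MonoidHom.mem_ker.mp h1', one_mul, inv_one]
    have h5 := hQ _ (Subgroup.mul_mem _ (Subgroup.inv_mem _ hw') hw) h4
    rw [h3] at h5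
    exact (mul_inv_eq_one.mp h5).symm
  have hcen : ∀ e ∈ σ.ker, ∀ g, g * e = e * g := fun e he g => Subgroup.mem_center_iff.mp (hc he) g
  have hleft : ∀ x ∈ A, ∀ x' ∈ A, ∀ y e e', R x y e → R x' y e' → R (x * x') y (e' * e) := by
    rintro x hx x' hx' y e e' ⟨h1, w, hw, h2⟩ ⟨h1', w', hw', h2'⟩
    refine ⟨Subgroup.mul_mem _ h1' h1, (x * w' * x⁻¹) * w, Subgroup.mul_mem _ (hnx x hx w' hw') hw, ?_⟩
    have e1 : ⁅x * x', y⁆ = x * ⁅x', y⁆ * x⁻¹ * ⁅x, y⁆ := by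
      simp only [commutatorElement_def]
      group
    rw [e1, h2, h2']
    have e2 := hcen e' h1' x⁻¹
    have e3 := hcen e' h1' w
    calc x * (w' * e') * x⁻¹ * (w * e) = x * w' * (e' * x⁻¹) * (w * e) := by group
      _ = x * w' * (x⁻¹ * e') * (w * e) := by rw [e2]
      _ = x * w' * x⁻¹ * (e' * w) * e := by group
      _ = x * w' * x⁻¹ * (w * e') * e := by rw [e3]
      _ = _ := by group
  have hright : ∀ y ∈ B, ∀ y' ∈ B, ∀ x e e', R x y e → R x y' e' → R x (y * y') (e * e') := by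
    rintro y hy y' hy' x e e' ⟨h1, w, hw, h2⟩ ⟨h1', w', hw', h2'⟩
    refine ⟨Subgroup.mul_mem _ h1 h1', w * (y * w' * y⁻¹), Subgroup.mul_mem _ hw (hny y hy w' hw'), ?_⟩
    have e1 : ⁅x, y * y'⁆ = ⁅x, y⁆ * (y * ⁅x, y'⁆ * y⁻¹) := by
      simp only [commutatorElement_def]
      group
    rw [e1, h2, h2']
    have e2 := hcen e h1 (y * w' * y⁻¹)
    have e3 := hcen e' h1' y⁻¹
    calc w * e * (y * (w' * e') * y⁻¹) = w * e * (y * w' * (e' * y⁻¹)) := by group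
      _ = w * e * (y * w' * (y⁻¹ * e')) := by rw [e3]
      _ = w * (e * (y * w' * y⁻¹)) * e' := by group
      _ = w * ((y * w' * y⁻¹) * e) * e' := by rw [e2]
      _ = _ := by group
  obtain ⟨γ, hγj, hγk, hγQ, hγ⟩ := hsep
  have hinv : ∀ x y e, R x y e → R (γ * x * γ⁻¹) (γ * y * γ⁻¹) e := by
    rintro x y e ⟨h1, w, hw, h2⟩
    refine ⟨h1, γ * w * γ⁻¹, hγQ w hw, ?_⟩
    have e1 : ⁅γ * x * γ⁻¹, γ * y * γ⁻¹⁆ = γ * ⁅x, y⁆ * γ⁻¹ := by
      simp only [commutatorElement_def]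
      group
    rw [e1, h2]
    have e2 := hcen e h1 γ⁻¹
    calc γ * (w * e) * γ⁻¹ = γ * w * (e * γ⁻¹) := by group
      _ = γ * w * (γ⁻¹ * e) := by rw [e2]
      _ = _ := by group
  have hone : ∀ x ∈ A, ∀ y ∈ B, R x y 1 := by
    rcases hγ with ⟨h1, h2⟩ | ⟨h1, h2⟩
    · intro x hx y hy
      obtain ⟨b, hb, rfl⟩ := h2 y hy
      obtain ⟨e, he⟩ := hex x hx b hb
      obtain ⟨e', he'⟩ := hex x hx b⁻¹ (Subgroup.inv_mem _ hb)
      have h3 : R x (b * b⁻¹) (e * e') := hright b hb b⁻¹ (Subgroup.inv_mem _ hb) x e e' he he'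
      have h4 : R x (b * b⁻¹) 1 := by
        refine ⟨Subgroup.one_mem _, 1, Subgroup.one_mem _, ?_⟩
        rw [mul_inv_cancel, commutatorElement_one_right, one_mul]
      have h5 := huniq _ _ _ _ h3 h4
      have h6 := hinv x b e he
      rw [h1 x hx] at h6
      have h7 := hright _ (hγk b hb) b⁻¹ (Subgroup.inv_mem _ hb) x e e' h6 he'
      rwa [h5] at h7
    · intro x hx y hy
      obtain ⟨b, hb, rfl⟩ := h2 x hx
      obtain ⟨e, he⟩ := hex b hb y hy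
      obtain ⟨e', he'⟩ := hex b⁻¹ (Subgroup.inv_mem _ hb) y hy
      have h3 : R (b * b⁻¹) y (e' * e) := hleft b hb b⁻¹ (Subgroup.inv_mem _ hb) y e e' he he'
      have h4 : R (b * b⁻¹) y 1 := by
        refine ⟨Subgroup.one_mem _, 1, Subgroup.one_mem _, ?_⟩
        rw [mul_inv_cancel, commutatorElement_one_left, one_mul]
      have h5 := huniq _ _ _ _ h3 h4
      have h6 := hinv b y e he
      rw [h1 y hy] at h6
      have h7 := hleft _ (hγj b hb) b⁻¹ (Subgroup.inv_mem _ hb) y e e' h6 he'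
      rwa [h5] at h7
  intro x hx y hy
  obtain ⟨-, w, hw, e⟩ := hone x hx y hy
  rw [e, mul_one]
  exact hw

/-- All the pairs of the chain. -/
theorem good_allI {m : ℕ} (hc : σ.ker ≤ Subgroup.center Γ)
    (hco : ∀ b, b ≤ m → ∀ j, j < b → ∀ x ∈ Y j, ∀ g ∈ Iv Y (j + 1) b, σ x = σ g → x = 1)
    (hcomm : ∀ j k, j < k → k < m → ∀ x ∈ Y j, ∀ y ∈ Y k, ∃ w ∈ Iv Y (j + 1) k, σ ⁅x, y⁆ = σ w)
    (hsep : ∀ j k, j < k → k < m → SepC Y j k) :
    ∀ j k, j < k → k < m → GoodI Y j k := by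
  have main : ∀ d j k, k - j = d → j < k → k < m → GoodI Y j k := by
    intro d
    induction d using Nat.strong_induction_on with
    | _ d ih =>
      intro j k hd hjk hkm
      have hin : ∀ a b, j + 1 ≤ a → a < b → b < k → GoodI Y a b := fun a b ha hab hb =>
        ih (b - a) (by omega) a b rfl hab (by omega)
      have hinj : ∀ g ∈ Iv Y (j + 1) k, σ g = 1 → g = 1 :=
        inj_Iv σ k (hco k (by omega)) _ (j + 1) rfl hin
      obtain ⟨γ, h1, h2⟩ := hsep j k hjk hkm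
      refine good_stepQ σ hc hinj ?_ ?_ (hcomm j k hjk hkm) ⟨γ, h1 j, h1 k, fun g hg => conj_Iv h1 hg, h2⟩
      · intro x hx g hg
        exact norm_first (fun l h3 h4 => ih (l - j) (by omega) j l rfl h3 (by omega)) hx hg
      · intro y hy g hg
        refine conj_closure_mem (S := {g | ∃ l, j + 1 ≤ l ∧ l < k ∧ g ∈ Y l}) (Q := Iv Y (j + 1) k)
          ?_ hg
        rintro a ⟨l, h3, h4, ha⟩
        have e : y * a * y⁻¹ = ⁅a, y⁆⁻¹ * a := by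
          rw [commutatorElement_def]
          group
        rw [e]
        have h5 : GoodI Y l k := ih (k - l) (by omega) l k rfl h4 hkm
        exact Subgroup.mul_mem _ (Subgroup.inv_mem _ (Iv_mono (by omega) le_rfl (h5 a ha y hy))) (mem_Iv h3 h4 ha)
  exact fun j k hjk hkm => main _ j k rfl hjk hkm

end Iv

/-! ### Sections and the action of a commutative group -/

section Sec

variable {Γ G : Type*} [Group Γ] [Group G] {σ : Γ →* G}

/-- A section of the extension over a subgroup. -/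
structure Sec (σ : Γ →* G) (X : Subgroup G) (Y : Subgroup Γ) : Prop where
  le : ∀ y ∈ Y, σ y ∈ X
  surj : ∀ x ∈ X, ∃ y ∈ Y, σ y = x
  inj : ∀ y ∈ Y, σ y = 1 → y = 1

/-- The map `x ↦ h x h⁻¹ x⁻¹` is onto on a finite group without fixed points. -/
theorem comm_onto' [Finite G] {X : Subgroup G} {h : G} (hn' : ∀ x ∈ X, h * x * h⁻¹ ∈ X)
    (hf : ∀ x ∈ X, h * x * h⁻¹ = x → x = 1) : ∀ y ∈ X, ∃ x ∈ X, y = h * x * h⁻¹ * x⁻¹ := by
  let f : ↥X → ↥X := fun x => ⟨h * x.1 * h⁻¹ * x.1⁻¹, X.mul_mem (hn' _ x.2) (X.inv_mem x.2)⟩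
  have hinj : Function.Injective f := by
    rintro ⟨a, ha⟩ ⟨b, hb⟩ e
    have e1 : h * a * h⁻¹ * a⁻¹ = h * b * h⁻¹ * b⁻¹ := congrArg Subtype.val e
    have h1 : h * (b⁻¹ * a) * h⁻¹ = b⁻¹ * a := by
      calc h * (b⁻¹ * a) * h⁻¹ = (h * b * h⁻¹)⁻¹ * ((h * a * h⁻¹ * a⁻¹) * a) := by group
        _ = (h * b * h⁻¹)⁻¹ * ((h * b * h⁻¹ * b⁻¹) * a) := by rw [e1]
        _ = _ := by group
    have h2 := hf _ (X.mul_mem (X.inv_mem hb) ha) h1
    exact Subtype.ext (inv_mul_eq_one.mp h2).symm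
  have hsurj := Finite.injective_iff_surjective.mp hinj
  intro y hy
  obtain ⟨x, hx⟩ := hsurj ⟨y, hy⟩
  exact ⟨x.1, x.2, (congrArg Subtype.val hx).symm⟩

/-- An element acting trivially on the image acts trivially on the section. -/
theorem Sec.cen {X : Subgroup G} {Y : Subgroup Γ} (S : Sec σ X Y) {δ : Γ} (hδ : ∀ a ∈ Y, δ * a * δ⁻¹ ∈ Y)
    (h1 : ∀ x ∈ X, σ δ * x * (σ δ)⁻¹ = x) : ∀ a ∈ Y, δ * a * δ⁻¹ = a := by
  intro a ha
  have h3 : δ * a * δ⁻¹ * a⁻¹ ∈ Y := Subgroup.mul_mem _ (hδ a ha) (Subgroup.inv_mem _ ha)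
  have h4 := S.inj _ h3 (by
    rw [map_mul, map_mul, map_mul, map_inv, map_inv, h1 _ (S.le a ha), mul_inv_cancel])
  exact mul_inv_eq_one.mp h4

/-- An element without fixed points on the image is onto on the section. -/
theorem Sec.fpf [Finite G] {X : Subgroup G} {Y : Subgroup Γ} (S : Sec σ X Y) {δ : Γ}
    (hδ : ∀ a ∈ Y, δ * a * δ⁻¹ ∈ Y) (hX : ∀ x ∈ X, σ δ * x * (σ δ)⁻¹ ∈ X)
    (h1 : ∀ x ∈ X, σ δ * x * (σ δ)⁻¹ = x → x = 1) : ∀ a ∈ Y, ∃ b ∈ Y, a = δ * b * δ⁻¹ * b⁻¹ := by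
  intro a ha
  obtain ⟨x, hx, e⟩ := comm_onto' hX h1 _ (S.le a ha)
  obtain ⟨b, hb, rfl⟩ := S.surj x hx
  refine ⟨b, hb, ?_⟩
  have h3 : δ * b * δ⁻¹ * b⁻¹ ∈ Y := Subgroup.mul_mem _ (hδ b hb) (Subgroup.inv_mem _ hb)
  have h4 := S.inj _ (Subgroup.mul_mem _ ha (Subgroup.inv_mem _ h3)) (by
    rw [map_mul, map_inv, e, map_mul, map_mul, map_mul, map_inv, map_inv, mul_inv_cancel])
  exact mul_inv_eq_one.mp h4

/-- A conjugate of a section. -/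
def conjS (ν : Γ) (Y : Subgroup Γ) : Subgroup Γ := Y.comap (MulAut.conj ν).toMonoidHom

theorem mem_conjS {ν a : Γ} {Y : Subgroup Γ} : a ∈ conjS ν Y ↔ ν * a * ν⁻¹ ∈ Y := Iff.rfl

theorem Sec.conj {X X' : Subgroup G} {Y : Subgroup Γ} (S : Sec σ X Y) {ν : Γ}
    (hX : ∀ x, x ∈ X' ↔ σ ν * x * (σ ν)⁻¹ ∈ X) : Sec σ X' (conjS ν Y) where
  le y hy := by
    rw [hX, ← map_inv, ← map_mul, ← map_mul]
    exact S.le _ hy
  surj x hx := by
    obtain ⟨y, hy, e⟩ := S.surj _ ((hX x).1 hx)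
    refine ⟨ν⁻¹ * y * ν, ?_, ?_⟩
    · rw [mem_conjS]
      have e2 : ν * (ν⁻¹ * y * ν) * ν⁻¹ = y := by group
      rw [e2]
      exact hy
    · rw [map_mul, map_mul, map_inv, e]
      group
  inj y hy h1 := by
    have h2 := S.inj (ν * y * ν⁻¹) (mem_conjS.1 hy) (by rw [map_mul, map_mul, map_inv, h1]; group)
    have h3 : y = ν⁻¹ * (ν * y * ν⁻¹) * ν := by group
    rw [h3, h2]
    group

/-- A conjugate of a section is normalised by the elements normalising the section after conjugation. -/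
theorem conjS_norm {Y : Subgroup Γ} {ν δ : Γ} (h : ∀ a ∈ Y, (ν * δ * ν⁻¹) * a * (ν * δ * ν⁻¹)⁻¹ ∈ Y) {a : Γ}
    (ha : a ∈ conjS ν Y) : δ * a * δ⁻¹ ∈ conjS ν Y := by
  rw [mem_conjS] at ha ⊢
  have e : ν * (δ * a * δ⁻¹) * ν⁻¹ = (ν * δ * ν⁻¹) * (ν * a * ν⁻¹) * (ν * δ * ν⁻¹)⁻¹ := by group
  rw [e]
  exact h _ ha

/-- The chain gives a section over the group generated by a chain. -/
theorem exists_section_Iv [Finite G] {m : ℕ} {X : ℕ → Subgroup G} {Y : ℕ → Subgroup Γ} {H : Subgroup G}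
    (hs : Function.Surjective σ) (hc : σ.ker ≤ Subgroup.center Γ)
    (hSec : ∀ l, Sec σ (X l) (Y l))
    (hnX : ∀ h ∈ H, ∀ l, ∀ x ∈ X l, h * x * h⁻¹ ∈ X l)
    (hnY : ∀ δ : Γ, σ δ ∈ H → ∀ l, ∀ a ∈ Y l, δ * a * δ⁻¹ ∈ Y l)
    (coord : ∀ b j, j < b → ∀ x ∈ X j, x ∈ Iv X (j + 1) b → x = 1)
    (comm : ∀ j k, j < k → k < m → ∀ x ∈ X j, ∀ y ∈ X k, ⁅x, y⁆ ∈ Iv X (j + 1) k)
    (sep : ∀ j k, j < k → k < m → ∃ h ∈ H,
      ((∀ x ∈ X j, h * x * h⁻¹ = x) ∧ ∀ x ∈ X k, h * x * h⁻¹ = x → x = 1) ∨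
      ((∀ x ∈ X k, h * x * h⁻¹ = x) ∧ ∀ x ∈ X j, h * x * h⁻¹ = x → x = 1)) :
    ∃ V : Subgroup Γ, (∀ g ∈ V, σ g = 1 → g = 1) ∧ (∀ u ∈ Iv X 0 m, ∃ g ∈ V, σ g = u) ∧
      ∀ g ∈ V, σ g ∈ Iv X 0 m := by
  have hσ : ∀ a b, ∀ g ∈ Iv Y a b, σ g ∈ Iv X a b := by
    intro a b g hg
    induction hg using Subgroup.closure_induction with
    | mem x hx =>
      obtain ⟨k, h1, h2, hx⟩ := hx
      exact mem_Iv h1 h2 ((hSec k).le x hx)
    | one => rw [map_one]; exact Subgroup.one_mem _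
    | mul x y _ _ hx hy => rw [map_mul]; exact Subgroup.mul_mem _ hx hy
    | inv x _ hx => rw [map_inv]; exact Subgroup.inv_mem _ hx
  have hsurj : ∀ a b, ∀ u ∈ Iv X a b, ∃ g ∈ Iv Y a b, σ g = u := by
    intro a b u hu
    induction hu using Subgroup.closure_induction with
    | mem x hx =>
      obtain ⟨k, h1, h2, hx⟩ := hx
      obtain ⟨g, hg, e⟩ := (hSec k).surj x hx
      exact ⟨g, mem_Iv h1 h2 hg, e⟩
    | one => exact ⟨1, Subgroup.one_mem _, map_one _⟩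
    | mul x y _ _ hx hy =>
      obtain ⟨g, hg, rfl⟩ := hx
      obtain ⟨g', hg', rfl⟩ := hy
      exact ⟨g * g', Subgroup.mul_mem _ hg hg', map_mul _ _ _⟩
    | inv x _ hx =>
      obtain ⟨g, hg, rfl⟩ := hx
      exact ⟨g⁻¹, Subgroup.inv_mem _ hg, map_inv _ _⟩
  have hco : ∀ b, b ≤ m → ∀ j, j < b → ∀ x ∈ Y j, ∀ g ∈ Iv Y (j + 1) b, σ x = σ g → x = 1 := by
    intro b _ j hj x hx g hg e
    apply (hSec j).inj x hx
    exact coord b j hj _ ((hSec j).le x hx) (by rw [e]; exact hσ _ _ g hg)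
  have hco' : ∀ j, j < m → ∀ x ∈ Y j, ∀ g ∈ Iv Y (j + 1) m, σ x = σ g → x = 1 := hco m le_rfl
  have hcomm' : ∀ j k, j < k → k < m → ∀ x ∈ Y j, ∀ y ∈ Y k, ∃ w ∈ Iv Y (j + 1) k, σ ⁅x, y⁆ = σ w := by
    intro j k hjk hk x hx y hy
    have h1 : σ ⁅x, y⁆ = ⁅σ x, σ y⁆ := map_commutatorElement σ x y
    obtain ⟨w, hw, e⟩ := hsurj _ _ _ (comm j k hjk hk _ ((hSec j).le x hx) _ ((hSec k).le y hy))
    exact ⟨w, hw, by rw [h1, e]⟩
  have hsep' : ∀ j k, j < k → k < m → SepC Y j k := by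
    intro j k hjk hk
    obtain ⟨h, hh, hh2⟩ := sep j k hjk hk
    obtain ⟨δ, rfl⟩ := hs h
    refine ⟨δ, hnY δ hh, ?_⟩
    rcases hh2 with ⟨h1, h2⟩ | ⟨h1, h2⟩
    · exact Or.inl ⟨(hSec j).cen (hnY δ hh j) h1, (hSec k).fpf (hnY δ hh k) (hnX _ hh k) h2⟩
    · exact Or.inr ⟨(hSec k).cen (hnY δ hh k) h1, (hSec j).fpf (hnY δ hh j) (hnX _ hh j) h2⟩
  have hgood := good_allI σ hc hco hcomm' hsep'
  have hinj := inj_Iv σ m hco' (m - 0) 0 rfl (fun k l _ hkl hl => hgood k l hkl hl)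
  exact ⟨Iv Y 0 m, hinj, hsurj 0 m, hσ 0 m⟩

end Sec

end Cfsg.Agent.Lib.TF4Mult
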