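import Cfsg.Agent.Lib.TF4Mult.Cls

/-!
# `²F₄`: a section over the Sylow `2`-subgroup in a central extension
-/

set_option autoImplicit false
set_option linter.unusedSectionVars false
set_option maxRecDepth 100000

namespace Cfsg.Agent.Lib.TF4Mult

open Cfsg.Lie Cfsg.Agent.Lib.Twisted Cfsg.Agent.Lib.Twisted.Mult
open Cfsg.Agent.Lib.TF4 hiding lam
open Cfsg.Agent.Lib.Chevalley.Tbl.F4 (sys comm)
open Cfsg.Agent.Lib.ChevBN.Elem Cfsg.Agent.Lib.ChevBN.Table Cfsg.Agent.Lib.ChevBN.Rel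
open Cfsg.Agent.Lib.ChevBN.Opp Cfsg.Agent.Lib.ChevBN.Torus Cfsg.Agent.Lib.ChevBN.Monomial
open Cfsg.Agent.Lib.ChevBN.Stmts Cfsg.Agent.Lib.ChevBN.Pair Cfsg.Agent.Lib.ChevBN.Perfect
open Cfsg.Agent.Lib.ChevOrder.Chev
open Cfsg.Agent.Lib.ChevBN.FastData (tbl_chevF4)
open scoped commutatorElement

section Abstract

variable {Γ G : Type*} [Group Γ] [Group G] {σ : Γ →* G}

/-- Commuting of preimages from an element separating two commuting groups. -/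
theorem comm_of_sep' [Finite G] {X X' : Subgroup G} (hs : Function.Surjective σ) (hc : σ.ker ≤ Subgroup.center Γ)
    (hcomm : ∀ x ∈ X, ∀ y ∈ X', x * y = y * x) {h : G}
    (hn' : ∀ x ∈ X', h * x * h⁻¹ ∈ X') (h1 : ∀ x ∈ X, h * x * h⁻¹ = x) (h2 : ∀ x ∈ X', h * x * h⁻¹ = x → x = 1)
    {a b : Γ} (ha : σ a ∈ X) (hb : σ b ∈ X') : a * b = b * a := by
  obtain ⟨γ, rfl⟩ := hs h
  obtain ⟨x, hx, e⟩ := comm_onto' hn' h2 _ hb
  obtain ⟨b₀, rfl⟩ := hs x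
  set z := (γ * b₀ * γ⁻¹ * b₀⁻¹)⁻¹ * b with hz
  have hz1 : z ∈ σ.ker := by
    rw [MonoidHom.mem_ker, hz, map_mul, map_inv, map_mul, map_mul, map_mul, map_inv, map_inv, ← e, inv_mul_cancel]
  have hzc := Subgroup.mem_center_iff.mp (hc hz1)
  have eb : b = γ * b₀ * γ⁻¹ * b₀⁻¹ * z := by rw [hz]; group
  have hb₀ : ⁅a, b₀⁆ ∈ σ.ker := by
    rw [MonoidHom.mem_ker, map_commutatorElement, commutatorElement_eq_one_iff_mul_comm]
    exact hcomm _ ha _ hx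
  have hc1 := Subgroup.mem_center_iff.mp (hc hb₀)
  have h3 : σ (γ⁻¹ * a * γ) = σ a := by
    rw [map_mul, map_mul, map_inv]
    have h4 := h1 _ ha
    calc (σ γ)⁻¹ * σ a * σ γ = (σ γ)⁻¹ * (σ γ * σ a * (σ γ)⁻¹) * σ γ := by rw [h4]
      _ = σ a := by group
  have ea' : ⁅γ⁻¹ * a * γ, b₀⁆ = ⁅a, b₀⁆ := comm_eq_of_eq hc h3.symm rfl
  have e5 : a * (γ * b₀ * γ⁻¹) * a⁻¹ * (γ * b₀ * γ⁻¹)⁻¹ = ⁅a, b₀⁆ := by
    have e6 : a * (γ * b₀ * γ⁻¹) * a⁻¹ * (γ * b₀ * γ⁻¹)⁻¹ = γ * ⁅γ⁻¹ * a * γ, b₀⁆ * γ⁻¹ := by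
      rw [commutatorElement_def]
      group
    rw [e6, ea', mul_assoc, ← hc1 γ⁻¹]
    group
  have hb2 : a * b * a⁻¹ = b := by
    set c := ⁅a, b₀⁆ with hcdef
    have e7 : a * (γ * b₀ * γ⁻¹) * a⁻¹ = c * (γ * b₀ * γ⁻¹) := by
      rw [← e5]
      group
    have e8 : a * b₀⁻¹ * a⁻¹ = c⁻¹ * b₀⁻¹ := by
      have e9 : a * b₀ * a⁻¹ = c * b₀ := by
        rw [hcdef, commutatorElement_def]
        group
      have e10 : a * b₀⁻¹ * a⁻¹ = (a * b₀ * a⁻¹)⁻¹ := by group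
      have h5 := hc1 b₀⁻¹
      calc a * b₀⁻¹ * a⁻¹ = (c * b₀)⁻¹ := by rw [e10, e9]
        _ = c⁻¹ * (c * b₀⁻¹) * c⁻¹ := by group
        _ = c⁻¹ * (b₀⁻¹ * c) * c⁻¹ := by rw [h5]
        _ = _ := by group
    have e11 : a * z * a⁻¹ = z := by
      rw [mul_assoc, ← hzc a⁻¹]
      group
    calc a * b * a⁻¹ = (a * (γ * b₀ * γ⁻¹) * a⁻¹) * (a * b₀⁻¹ * a⁻¹) * (a * z * a⁻¹) := by
          rw [eb]
          group
      _ = c * (γ * b₀ * γ⁻¹) * (c⁻¹ * b₀⁻¹) * z := by rw [e7, e8, e11]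
      _ = (c * (γ * b₀ * γ⁻¹) * c⁻¹) * b₀⁻¹ * z := by group
      _ = γ * b₀ * γ⁻¹ * b₀⁻¹ * z := by
        have := hc1 (γ * b₀ * γ⁻¹)
        rw [← this]
        group
      _ = b := eb.symm
  calc a * b = a * b * a⁻¹ * a := by group
    _ = b * a := by rw [hb2]

/-- The Hall-Witt argument. -/
theorem hall_witt (hc : σ.ker ≤ Subgroup.center Γ) {a B C : Γ} (hAB : σ a * σ B = σ B * σ a)
    (hBE : B * ⁅a, C⁆ = ⁅a, C⁆ * B) (hEZ : ⁅a, C⁆ * ⁅B, C⁆ = ⁅B, C⁆ * ⁅a, C⁆) : a * ⁅B, C⁆ = ⁅B, C⁆ * a := by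
  set F := ⁅a, C⁆ with hF
  have e1 : a * C * a⁻¹ = F * C := by
    rw [hF, commutatorElement_def]
    group
  have e2 : σ (a * B * a⁻¹) = σ B := by
    rw [map_mul, map_mul, map_inv, hAB]
    group
  have e3 : a * ⁅B, C⁆ * a⁻¹ = ⁅a * B * a⁻¹, F * C⁆ := by
    rw [← e1]
    simp only [commutatorElement_def]
    group
  have e4 : ⁅a * B * a⁻¹, F * C⁆ = ⁅B, F * C⁆ := comm_eq_of_eq hc e2.symm rfl
  have e5 : ⁅B, F * C⁆ = ⁅B, C⁆ := by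
    have e6 : ⁅B, F * C⁆ = (B * F * B⁻¹ * F⁻¹) * (F * ⁅B, C⁆ * F⁻¹) := by
      simp only [commutatorElement_def]
      group
    have e7 : B * F * B⁻¹ * F⁻¹ = 1 := by
      rw [hBE]
      group
    rw [e6, e7, one_mul, hEZ]
    group
  rw [e4, e5] at e3
  calc a * ⁅B, C⁆ = (a * ⁅B, C⁆ * a⁻¹) * a := by group
    _ = _ := by rw [e3]

end Abstract

variable {K : Type*} [Field K]

set_option quotPrecheck false in
/-- The root elements. -/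
local notation "Xr" => X (sys (F := _)).toAddRel

section Main

variable [CharP K 2] [Fintype K] {φ : K →+* K} (hφ2 : ∀ t, (φ (φ t)) ^ 2 = t) {T : Tw (sys (F := K)).toAddRel}
  (hρ : T.ρ = ρ0) (hτ : ∀ r t, T.τ r t = Cfsg.Agent.Lib.TF4.lam r (φ t)) {e : ℕ} (hφ : ∀ t, φ t = t ^ e)

/-- The torus of the group. -/
noncomputable abbrev HH (K : Type*) [Field K] (e : ℕ) : Subgroup ↥(twistedF4 K e) :=
  (chevF4.diagonalSubgroup K ⊓ twistedF4 K e).subgroupOf (twistedF4 K e)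

omit [CharP K 2] [Fintype K] in
theorem HH_comm {a b : ↥(twistedF4 K e)} (ha : a ∈ HH K e) (hb : b ∈ HH K e) : a * b = b * a :=
  Subtype.ext (H_comm' (Subgroup.mem_subgroupOf.1 ha).1 (Subgroup.mem_subgroupOf.1 hb).1)

include hφ2 hρ hτ hφ

theorem HH_Fx {a : ↥(twistedF4 K e)} (ha : a ∈ HH K e) :
    (a : GL chevF4.Idx K) ∈ chevF4.diagonalSubgroup K ⊓ T.Fx :=
  ⟨(Subgroup.mem_subgroupOf.1 ha).1, G1_le_Fx hφ2 hρ hτ hφ a.2⟩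

/-- The torus normalises the classes. -/
theorem HH_XX {a x : ↥(twistedF4 K e)} {l : ℕ} (ha : a ∈ HH K e) (hx : x ∈ XX T e l) : a * x * a⁻¹ ∈ XX T e l := by
  refine mem_XX.2 ⟨?_, ?_⟩
  · by_cases hl : l < 8
    · exact H_conj_gen sys tbl_chevF4 (Subgroup.mem_subgroupOf.1 ha).1 (fun r hr => Cj_lt hl hr) (mem_XX.1 hx).1
    · have hb : Cj l = [] := List.getD_eq_default _ _ (by
        have : cl.length = 8 := by decide +kernel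
        omega)
      have h1 := (mem_XX.1 hx).1
      rw [hb] at h1 ⊢
      have h0 : gen (sys (F := K)).toAddRel {r | r ∈ ([] : List ℕ)} ≤ ⊥ := gen_le _ (by simp)
      have h2 : (x : GL chevF4.Idx K) = 1 := by simpa using h0 h1
      show (a : GL chevF4.Idx K) * (x : GL chevF4.Idx K) * (a : GL chevF4.Idx K)⁻¹ ∈ _
      rw [h2]
      simp
  · exact (G1_le_Fx hφ2 hρ hτ hφ (a * x * a⁻¹).2)

/-- The word element in the group. -/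
theorem wN_G (l : ℕ) : wN (K := K) l ∈ twistedF4 K e := prodA_flat_mem hφ2 hρ hτ hφ _

/-- The word element in the group. -/
noncomputable def wNg (hφ2 : ∀ t, (φ (φ t)) ^ 2 = t) {T : Tw (sys (F := K)).toAddRel}
    (hρ : T.ρ = ρ0) (hτ : ∀ r t, T.τ r t = Cfsg.Agent.Lib.TF4.lam r (φ t)) {e : ℕ} (hφ : ∀ t, φ t = t ^ e) (l : ℕ) :
    ↥(twistedF4 K e) := ⟨wN l, wN_G hφ2 hρ hτ hφ l⟩

/-- The fundamental class of an index. -/
def fc : Fin 2 → ℕ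
  | 0 => 0
  | 1 => 7

omit hφ2 hρ hτ hφ in
theorem Cj_fc : ∀ j, Cj (fc j) = lr j := by decide +kernel

/-- The characterisation of a class by its fundamental class. -/
theorem XX_iff {l : ℕ} (hl : l < 8) {x : ↥(twistedF4 K e)} :
    x ∈ XX T e l ↔ wNg hφ2 hρ hτ hφ l * x * (wNg hφ2 hρ hτ hφ l)⁻¹ ∈ XX T e (fc (cert l).2.2) := by
  obtain ⟨-, -, h3, h4, -⟩ := cert_chk l hl
  have hn := wN_N (K := K) l
  have hf : wN (K := K) l ∈ T.Fx := G1_le_Fx hφ2 hρ hτ hφ (wN_G hφ2 hρ hτ hφ l)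
  constructor
  · intro hx
    refine mem_XX.2 ⟨?_, ?_⟩
    · rw [Cj_fc]
      refine conj_gen sys tbl_chevF4 hn (fun r hr => Cj_lt hl hr) ?_ (mem_XX.1 hx).1
      intro r hr
      have e1 : (pn sys tbl_chevF4 hn r).val = fwl (cert l).2.1 r.val := pn_prodA sys tbl_chevF4 (flat_lt _) r
      rw [e1]
      exact h3 r.val hr
    · exact G1_le_Fx hφ2 hρ hτ hφ (wNg hφ2 hρ hτ hφ l * x * (wNg hφ2 hρ hτ hφ l)⁻¹).2
  · intro hx
    refine mem_XX.2 ⟨?_, G1_le_Fx hφ2 hρ hτ hφ x.2⟩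
    have h5 := (mem_XX.1 hx).1
    rw [Cj_fc] at h5
    have h6 := conj_gen sys tbl_chevF4 (Subgroup.inv_mem _ hn) (Ψ := {r | r ∈ lr (cert l).2.2}) (Ψ' := {r | r ∈ Cj l})
      (fun r hr => ((closed_lr _).pos r hr).1) ?_ h5
    · have e2 : (wN (K := K) l)⁻¹ * ((wNg hφ2 hρ hτ hφ l * x * (wNg hφ2 hρ hτ hφ l)⁻¹ : ↥(twistedF4 K e)) : GL chevF4.Idx K) *
          (wN (K := K) l)⁻¹⁻¹ = (x : GL chevF4.Idx K) := by
        show (wN (K := K) l)⁻¹ * (wN l * (x : GL chevF4.Idx K) * (wN l)⁻¹) * (wN (K := K) l)⁻¹⁻¹ = _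
        group
      rw [e2] at h6
      exact h6
    · intro r hr
      obtain ⟨s, hs, e3⟩ := h4 r.val hr
      have hslt := Cj_lt hl hs
      have e4 : pn sys tbl_chevF4 hn ⟨s, hslt⟩ = r := by
        apply Fin.ext
        have e1 : (pn sys tbl_chevF4 hn ⟨s, hslt⟩).val = fwl (cert l).2.1 s := pn_prodA sys tbl_chevF4 (flat_lt _) ⟨s, hslt⟩
        rw [e1, e3]
      rw [pn_inv sys tbl_chevF4 hn, ← e4]
      simpa using hs

/-- The torus element in the group. -/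
theorem hS_G (l : ℕ) {t : K} (ht : t ≠ 0) : hS φ l t ∈ twistedF4 K e :=
  Subgroup.mul_mem _ (Subgroup.mul_mem _ (Subgroup.inv_mem _ (wN_G hφ2 hρ hτ hφ l)) (hF_G hφ2 hρ hτ hφ _ ht))
    (wN_G hφ2 hρ hτ hφ l)

/-- The torus element in the group. -/
noncomputable def hSg (hφ2 : ∀ t, (φ (φ t)) ^ 2 = t) {T : Tw (sys (F := K)).toAddRel}
    (hρ : T.ρ = ρ0) (hτ : ∀ r t, T.τ r t = Cfsg.Agent.Lib.TF4.lam r (φ t)) {e : ℕ} (hφ : ∀ t, φ t = t ^ e) (l : ℕ) {t : K}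
    (ht : t ≠ 0) : ↥(twistedF4 K e) := ⟨hS φ l t, hS_G hφ2 hρ hτ hφ l ht⟩

theorem hSg_HH (l : ℕ) {t : K} (ht : t ≠ 0) : hSg hφ2 hρ hτ hφ l ht ∈ HH K e :=
  Subgroup.mem_subgroupOf.2 ⟨hS_H l ht, hS_G hφ2 hρ hτ hφ l ht⟩

theorem hSg_fix {l : ℕ} (hl : l < 8) {t : K} (ht : t ≠ 0) {x : ↥(twistedF4 K e)} (hx : x ∈ XX T e l) :
    hSg hφ2 hρ hτ hφ l ht * x * (hSg hφ2 hρ hτ hφ l ht)⁻¹ = x :=
  Subtype.ext ((hS_fix hφ2 hl ht).conj_eq (mem_XX.1 hx).1)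

theorem hSg_fpf {l k : ℕ} (hl : l < 8) (hk : k < 8) (hne : k ≠ l) {t : K} (ht : t ≠ 0) (ht1 : t ≠ 1) {x : ↥(twistedF4 K e)}
    (hx : x ∈ XX T e k) (h : hSg hφ2 hρ hτ hφ l ht * x * (hSg hφ2 hρ hτ hφ l ht)⁻¹ = x) : x = 1 :=
  Subtype.ext ((hS_fpf hφ2 hl hk hne ht ht1).eq_one tbl_chevF4 (closedB_sound (closed_Cj k hk)) (mem_XX.1 hx).1
    (congrArg Subtype.val h))

/-- The action of the torus on the fixed points of the first fundamental class. -/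
theorem H_Pw {d : GL chevF4.Idx K} (hd : d ∈ chevF4.diagonalSubgroup K ⊓ T.Fx) {κ : ℕ → K}
    (hκ : ∀ s < chevF4.nroots, ∀ t : K, d * Xr s t * d⁻¹ = Xr s (κ s * t)) (t : K) : d * Pw φ t * d⁻¹ = Pw φ (κ 24 * t) := by
  obtain ⟨t', e1⟩ := Pw_of_fix hφ2 hρ hτ (H_conj_YY hρ hτ 0 hd ⟨Pc_mem _ _, Pw_fix hφ2 hρ hτ t⟩)
  have h1 := e1
  rw [Pw, Pc_conj hκ] at h1
  have h2 := (Pc_inj h1).2
  rw [h2]
  exact e1

/-- The action of the torus on the fixed points of the second fundamental class. -/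
theorem H_Ew {d : GL chevF4.Idx K} (hd : d ∈ chevF4.diagonalSubgroup K ⊓ T.Fx) {κ : ℕ → K}
    (hκ : ∀ s < chevF4.nroots, ∀ t : K, d * Xr s t * d⁻¹ = Xr s (κ s * t)) (t u : K) :
    ∃ u', d * Ew φ t u * d⁻¹ = Ew φ (κ 25 * t) u' := by
  obtain ⟨t', u', e1⟩ := Ew_of_fix hφ2 hρ hτ (H_conj_YY hρ hτ 1 hd ⟨Ec_mem _ _ _ _, Ew_fix hφ2 hρ hτ t u⟩)
  have h1 := e1
  rw [Ew, Ec_conj hκ] at h1
  have h2 := (Ec_inj h1).2.1
  rw [← h2] at e1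
  exact ⟨u', e1⟩

end Main

end Cfsg.Agent.Lib.TF4Mult
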