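import Cfsg.Agent.Lib.TF4Mult.Part1

/-!
# `²F₄`: the sections over the fundamental classes
-/

set_option autoImplicit false
set_option linter.unusedSectionVars false
set_option maxRecDepth 100000

namespace Cfsg.Agent.Lib.TF4Mult

open Cfsg.Lie Cfsg.Agent.Lib.Twisted Cfsg.Agent.Lib.Twisted.Mult
open Cfsg.Agent.Lib.TF4 hiding lam
open Cfsg.Agent.Lib.Chevalley.Tbl.F4 (sys comm)
open Cfsg.Agent.Lib.ChevBN.Elem Cfsg.Agent.Lib.ChevBN.Table Cfsg.Agent.Lib.ChevBN.Rel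
open Cfsg.Agent.Lib.ChevBN.Opp Cfsg.Agent.Lib.ChevBN.Torus Cfsg.Agent.Lib.ChevBN.Monomial
open Cfsg.Agent.Lib.ChevBN.Stmts Cfsg.Agent.Lib.ChevBN.Pair Cfsg.Agent.Lib.ChevBN.Perfect
open Cfsg.Agent.Lib.ChevOrder.Chev
open Cfsg.Agent.Lib.ChevBN.FastData (tbl_chevF4)
open scoped commutatorElement

variable {K : Type*} [Field K]

set_option quotPrecheck false in
/-- The root elements. -/
local notation "Xr" => X (sys (F := _)).toAddRel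

section Main

variable [CharP K 2] [Fintype K] {φ : K →+* K} (hφ2 : ∀ t, (φ (φ t)) ^ 2 = t) {T : Tw (sys (F := K)).toAddRel}
  (hρ : T.ρ = ρ0) (hτ : ∀ r t, T.τ r t = Cfsg.Agent.Lib.TF4.lam r (φ t)) {e : ℕ} (hφ : ∀ t, φ t = t ^ e)
  {Γ : Type*} [Group Γ] [Finite Γ] {σ : Γ →* ↥(twistedF4 K e)} (hs : Function.Surjective σ)
  (hc : σ.ker ≤ Subgroup.center Γ) (hK : 5 ≤ Fintype.card K) {β₀ : K} (hβ0 : β₀ ≠ 0) (hβ1 : β₀ ≠ 1)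

/-- The scalars of a torus element. -/
theorem exists_kappa {d : GL chevF4.Idx K} (hd : d ∈ chevF4.diagonalSubgroup K) :
    ∃ κ : ℕ → K, ∀ s < chevF4.nroots, ∀ t : K, d * Xr s t * d⁻¹ = Xr s (κ s * t) := by
  obtain ⟨κ, -, -, h1⟩ := exists_of_mem_H sys tbl_chevF4 hd
  exact ⟨κ, h1⟩

include hφ2 hρ hτ hφ hs hc hK hβ0 hβ1

/-- The preimage of the first fundamental class is commutative. -/
theorem hab0 {a b : Γ} (ha : σ a ∈ XX T e 0) (hb : σ b ∈ XX T e 0) : a * b = b * a := by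
  let f : K → ↥(twistedF4 K e) := fun t => ⟨Pw φ t, Pw_mem hφ t⟩
  have hform : ∀ x ∈ XX T e 0, ∃ t, x = f t := by
    intro x hx
    obtain ⟨t, ht⟩ := Pw_of_fix hφ2 hρ hτ (x := (x : GL chevF4.Idx K)) ⟨(mem_XX.1 hx).1, (mem_XX.1 hx).2⟩
    exact ⟨t, Subtype.ext ht⟩
  obtain ⟨s, hs1⟩ := hform _ ha
  obtain ⟨t, ht1⟩ := hform _ hb
  refine ab_of_scal hK hs hc f (fun s t => Subtype.ext (Pw_mul s t).symm) ?_ ?_ hs1 ht1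
  · intro s t
    apply Subtype.ext
    show Pw φ s * Pw φ t = Pw φ t * Pw φ s
    rw [Pw_mul, Pw_mul, add_comm]
  · intro κ hκ
    obtain ⟨u, hu0, hu⟩ := exists_scal hφ2 (j := 1) (s := 24) (by decide +kernel) (by decide +kernel) hκ
    refine ⟨⟨hF φ 1 u, hF_G hφ2 hρ hτ hφ 1 hu0⟩, fun t => Subtype.ext ?_⟩
    show hF φ 1 u * Pw φ t * (hF φ 1 u)⁻¹ = Pw φ (κ * t)
    have h1 := H_Pw hφ2 hρ hτ hφ (d := hF φ 1 u) ⟨hF_H 1 hu0, G1_le_Fx hφ2 hρ hτ hφ (hF_G hφ2 hρ hτ hφ 1 hu0)⟩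
      (κ := sc φ 1 u) (fun s hs t => hF_conj hφ2 1 hu0 hs t) t
    rw [h1, hu]

/-- The section over the first fundamental class. -/
theorem sec0 : ∃ Y : Subgroup Γ, Sec σ (XX T e 0) Y ∧ ∀ δ : Γ, σ δ ∈ HH K e → ∀ a ∈ Y, δ * a * δ⁻¹ ∈ Y := by
  have hab : ∀ a b, σ a ∈ XX T e 0 → σ b ∈ XX T e 0 → a * b = b * a := fun a b ha hb =>
    hab0 hφ2 hρ hτ hφ hs hc hK hβ0 hβ1 ha hb
  obtain ⟨γ, hγ⟩ := hs (hSg hφ2 hρ hτ hφ 7 hβ0)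
  have hγH : σ γ ∈ HH K e := by
    rw [hγ]
    exact hSg_HH hφ2 hρ hτ hφ 7 hβ0
  have hn : ∀ x ∈ XX T e 0, σ γ * x * (σ γ)⁻¹ ∈ XX T e 0 := fun x hx => HH_XX hφ2 hρ hτ hφ hγH hx
  have hf : ∀ x ∈ XX T e 0, σ γ * x * (σ γ)⁻¹ = x → x = 1 := by
    intro x hx h
    rw [hγ] at h
    exact hSg_fpf hφ2 hρ hτ hφ (l := 7) (k := 0) (by omega) (by omega) (by omega) hβ0 hβ1 hx h
  refine ⟨Yg σ (XX T e 0) γ hab hn, ⟨fun y hy => Yg_le hab hn hy, ?_, fun y hy h1 => Yg_inj hc hab hn hf hy h1⟩, ?_⟩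
  · intro x hx
    obtain ⟨b, hb, e1⟩ := comm_onto' hn hf x hx
    obtain ⟨a, rfl⟩ := hs b
    refine ⟨_, ⟨a, hb, rfl⟩, ?_⟩
    rw [e1, map_mul, map_mul, map_mul, map_inv, map_inv]
  · intro δ hδ a ha
    exact Yg_conj σ hc hab hn (fun x hx => HH_XX hφ2 hρ hτ hφ hδ hx) (HH_comm hδ hγH) ha

end Main

section Ze

variable [CharP K 2] [Fintype K] {φ : K →+* K} (hφ2 : ∀ t, (φ (φ t)) ^ 2 = t) {T : Tw (sys (F := K)).toAddRel}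
  (hρ : T.ρ = ρ0) (hτ : ∀ r t, T.τ r t = Cfsg.Agent.Lib.TF4.lam r (φ t)) {e : ℕ} (hφ : ∀ t, φ t = t ^ e)

/-- An element of the second fundamental class. -/
noncomputable def EE (hφ : ∀ t, φ t = t ^ e) (t u : K) : ↥(twistedF4 K e) := ⟨Ew φ t u, Ew_mem hφ t u⟩

include hφ2 in
theorem EE_mul (t u t' u' : K) : EE hφ t u * EE hφ t' u' = EE hφ (t + t') (u + u' + φ t * t') :=
  Subtype.ext (Ew_mul hφ2 t u t' u')

include hφ2 in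
theorem EE_inv (t u : K) : (EE hφ t u)⁻¹ = EE hφ t (u + φ t * t) :=
  Subtype.ext (Ew_inv hφ2 t u)

theorem EE_zero : EE hφ (0 : K) 0 = 1 := Subtype.ext Ew_zero

/-- The center of the second fundamental class. -/
noncomputable def ZZ (hφ2 : ∀ t, (φ (φ t)) ^ 2 = t) (hφ : ∀ t, φ t = t ^ e) : Subgroup ↥(twistedF4 K e) where
  carrier := {x | ∃ u, x = EE hφ 0 u}
  one_mem' := ⟨0, (EE_zero hφ).symm⟩
  mul_mem' := by
    rintro _ _ ⟨u, rfl⟩ ⟨u', rfl⟩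
    exact ⟨u + u', by rw [EE_mul hφ2]; simp⟩
  inv_mem' := by
    rintro _ ⟨u, rfl⟩
    exact ⟨u, by rw [EE_inv hφ2]; simp⟩

theorem EE_inj {t u t' u' : K} (h : EE hφ t u = EE hφ t' u') : t = t' ∧ u = u' := by
  have h1 : Ew φ t u = Ew φ t' u' := congrArg Subtype.val h
  obtain ⟨-, h2, h3, -⟩ := Ec_inj h1
  subst h2
  have h4 : u = u' := by linear_combination h3
  exact ⟨rfl, h4⟩

include hφ2 hρ hτ in
theorem EE_mem (t u : K) : EE hφ t u ∈ XX T e 7 :=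
  mem_XX.2 ⟨Ec_mem _ _ _ _, Ew_fix hφ2 hρ hτ t u⟩

include hφ2 hρ hτ in
theorem ZZ_le : ZZ hφ2 hφ ≤ XX T e 7 := by
  rintro _ ⟨u, rfl⟩
  exact EE_mem hφ2 hρ hτ hφ 0 u

include hφ2 hρ hτ in
theorem XX7_form {x : ↥(twistedF4 K e)} (hx : x ∈ XX T e 7) : ∃ t u, x = EE hφ t u := by
  obtain ⟨t, u, h⟩ := Ew_of_fix hφ2 hρ hτ (x := (x : GL chevF4.Idx K)) ⟨(mem_XX.1 hx).1, (mem_XX.1 hx).2⟩
  exact ⟨t, u, Subtype.ext h⟩

include hφ2 hρ hτ in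
/-- The action of the torus on the second fundamental class. -/
theorem H_EE {d : ↥(twistedF4 K e)} (hd : (d : GL chevF4.Idx K) ∈ chevF4.diagonalSubgroup K ⊓ T.Fx) {κ : ℕ → K}
    (hκ : ∀ s < chevF4.nroots, ∀ t : K, (d : GL chevF4.Idx K) * Xr s t * (d : GL chevF4.Idx K)⁻¹ = Xr s (κ s * t)) (t u : K) :
    ∃ u', d * EE hφ t u * d⁻¹ = EE hφ (κ 25 * t) u' := by
  obtain ⟨u', h⟩ := H_Ew hφ2 hρ hτ hφ hd hκ t u
  exact ⟨u', Subtype.ext h⟩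

include hφ2 hρ hτ

theorem H_ZZ {d z : ↥(twistedF4 K e)} (hd : d ∈ HH K e) (hz : z ∈ ZZ hφ2 hφ) : d * z * d⁻¹ ∈ ZZ hφ2 hφ := by
  obtain ⟨u, rfl⟩ := hz
  obtain ⟨κ, hκ⟩ := exists_kappa (Subgroup.mem_subgroupOf.1 hd).1
  obtain ⟨u', h⟩ := H_EE hφ2 hρ hτ hφ (HH_Fx hφ2 hρ hτ hφ hd) hκ 0 u
  rw [h, mul_zero]
  exact ⟨u', rfl⟩

theorem comm_XX7 {x y : ↥(twistedF4 K e)} (hx : x ∈ XX T e 7) (hy : y ∈ XX T e 7) : ⁅x, y⁆ ∈ ZZ hφ2 hφ := by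
  obtain ⟨t, u, rfl⟩ := XX7_form hφ2 hρ hτ hφ hx
  obtain ⟨t', u', rfl⟩ := XX7_form hφ2 hρ hτ hφ hy
  have h2 := two_zero (K := K)
  rw [commutatorElement_def, EE_mul hφ2, EE_inv hφ2, EE_inv hφ2, EE_mul hφ2, EE_mul hφ2]
  have e1 : t + t' + t + t' = 0 := by linear_combination (t + t') * h2
  rw [e1]
  exact ⟨_, rfl⟩

omit hρ hτ in
theorem EE_split (t u : K) : EE hφ t u = EE hφ t 0 * EE hφ 0 u := Subtype.ext (Ew_split hφ2 t u)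

end Ze

end Cfsg.Agent.Lib.TF4Mult
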