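import Cfsg.Agent.Lib.TF4Mult.Part1b
import Cfsg.Agent.Lib.TF4.I2Final

/-!
# `²F₄`: the section over the second fundamental class, assembling the section over the Sylow subgroup
-/

set_option autoImplicit false
set_option linter.unusedSectionVars false
set_option maxRecDepth 100000

namespace Cfsg.Agent.Lib.TF4Mult

open Cfsg.Lie Cfsg.Agent.Lib.Twisted Cfsg.Agent.Lib.Twisted.Mult
open Cfsg.Agent.Lib.TF4 hiding lam
open Cfsg.Agent.Lib.Chevalley.Tbl.F4 (sys comm)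
open Cfsg.Agent.Lib.ChevBN.Elem Cfsg.Agent.Lib.ChevBN.Table Cfsg.Agent.Lib.ChevBN.Rel
open Cfsg.Agent.Lib.ChevBN.Opp Cfsg.Agent.Lib.ChevBN.Torus Cfsg.Agent.Lib.ChevBN.Monomial
open Cfsg.Agent.Lib.ChevBN.Stmts Cfsg.Agent.Lib.ChevBN.Pair Cfsg.Agent.Lib.ChevBN.Perfect
open Cfsg.Agent.Lib.ChevOrder.Chev
open Cfsg.Agent.Lib.ChevBN.FastData (tbl_chevF4)
open scoped commutatorElement

variable {K : Type*} [Field K]

set_option quotPrecheck false in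
/-- The root elements. -/
local notation "Xr" => X (sys (F := _)).toAddRel

section Rel

variable [CharP K 2]

theorem rel_29_33 (a t : K) : Xr 29 a * Xr 33 t = Xr 33 t * Xr 29 a * Xr 36 (t * a) := by
  rw [commX (by decide +kernel) (by decide +kernel) (by decide +kernel) (by decide +kernel), ChevalleyDatum.commWord,
    show chevF4.commTerms 33 29 = [(36, -1, 1, 1)] from by decide +kernel]
  simp only [List.map_cons, List.map_nil, W_cons, W_nil, mul_one, pow_one]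
  congr 2
  have h1 : ((-1 : ℤ) : K) = -1 := by push_cast; rfl
  rw [h1]
  ring

theorem rel_41_24 (b t : K) : Xr 41 b * Xr 24 t = Xr 24 t * Xr 41 b * Xr 42 (t * b) := by
  rw [commX (by decide +kernel) (by decide +kernel) (by decide +kernel) (by decide +kernel), ChevalleyDatum.commWord,
    show chevF4.commTerms 24 41 = [(42, 1, 1, 1)] from by decide +kernel]
  simp only [List.map_cons, List.map_nil, W_cons, W_nil, mul_one, pow_one]
  congr 2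
  have h1 : ((1 : ℤ) : K) = 1 := by push_cast; rfl
  rw [h1, CharTwo.neg_eq]
  ring

theorem com_even {r s : ℕ} (hr : r < chevF4.nroots) (hs : s < chevF4.nroots) (h1 : s ≠ r) (h2 : s ≠ chevF4.neg r)
    (h : (chevF4.commTerms r s).all (fun c => c.2.1 % 2 == 0) = true) (a b : K) :
    Xr r a * Xr s b = Xr s b * Xr r a := (comm_even hr hs h1 h2 h a b).eq

/-- The commutator of an element of the first class with an element of the fourth one. -/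
theorem y_mul (a b c : K) :
    (Xr 29 a * Xr 41 b * Xr 44 c) * (Xr 33 (1 : K) * Xr 24 (1 : K)) =
      (Xr 33 (1 : K) * Xr 24 (1 : K)) * (Xr 36 a * Xr 42 b) * (Xr 29 a * Xr 41 b * Xr 44 c) := by
  have e1 : Xr 29 a * Xr 33 (1 : K) = Xr 33 (1 : K) * Xr 29 a * Xr 36 a := by rw [rel_29_33, one_mul]
  have e2 : Xr 41 b * Xr 24 (1 : K) = Xr 24 (1 : K) * Xr 41 b * Xr 42 b := by rw [rel_41_24, one_mul]
  have c1 : Xr 41 b * Xr 33 (1 : K) = Xr 33 (1 : K) * Xr 41 b :=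
    com_even (by decide +kernel) (by decide +kernel) (by decide +kernel) (by decide +kernel) (by decide +kernel) _ _
  have c2 : Xr 44 c * Xr 33 (1 : K) = Xr 33 (1 : K) * Xr 44 c :=
    com_even (by decide +kernel) (by decide +kernel) (by decide +kernel) (by decide +kernel) (by decide +kernel) _ _
  have c3 : Xr 29 a * Xr 24 (1 : K) = Xr 24 (1 : K) * Xr 29 a :=
    com_even (by decide +kernel) (by decide +kernel) (by decide +kernel) (by decide +kernel) (by decide +kernel) _ _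
  have c4 : Xr 44 c * Xr 24 (1 : K) = Xr 24 (1 : K) * Xr 44 c :=
    com_even (by decide +kernel) (by decide +kernel) (by decide +kernel) (by decide +kernel) (by decide +kernel) _ _
  have c5 : Xr 36 a * Xr 24 (1 : K) = Xr 24 (1 : K) * Xr 36 a :=
    com_even (by decide +kernel) (by decide +kernel) (by decide +kernel) (by decide +kernel) (by decide +kernel) _ _
  have c9 : Xr 29 a * Xr 36 a = Xr 36 a * Xr 29 a :=
    com_even (by decide +kernel) (by decide +kernel) (by decide +kernel) (by decide +kernel) (by decide +kernel) _ _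
  have c10 : Xr 29 a * Xr 42 b = Xr 42 b * Xr 29 a :=
    com_even (by decide +kernel) (by decide +kernel) (by decide +kernel) (by decide +kernel) (by decide +kernel) _ _
  have c11 : Xr 41 b * Xr 42 b = Xr 42 b * Xr 41 b :=
    com_even (by decide +kernel) (by decide +kernel) (by decide +kernel) (by decide +kernel) (by decide +kernel) _ _
  calc Xr 29 a * Xr 41 b * Xr 44 c * (Xr 33 (1 : K) * Xr 24 (1 : K))
      = Xr 29 a * Xr 41 b * (Xr 44 c * Xr 33 (1 : K)) * Xr 24 (1 : K) := by group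
    _ = Xr 29 a * (Xr 41 b * Xr 33 (1 : K)) * (Xr 44 c * Xr 24 (1 : K)) := by rw [c2]; group
    _ = (Xr 29 a * Xr 33 (1 : K)) * (Xr 41 b * Xr 24 (1 : K)) * Xr 44 c := by rw [c1, c4]; group
    _ = Xr 33 (1 : K) * Xr 29 a * (Xr 36 a * Xr 24 (1 : K)) * Xr 41 b * Xr 42 b * Xr 44 c := by rw [e1, e2]; group
    _ = Xr 33 (1 : K) * (Xr 29 a * Xr 24 (1 : K)) * Xr 36 a * Xr 41 b * Xr 42 b * Xr 44 c := by rw [c5]; group
    _ = Xr 33 (1 : K) * Xr 24 (1 : K) * (Xr 29 a * Xr 36 a) * (Xr 41 b * Xr 42 b) * Xr 44 c := by rw [c3]; group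
    _ = Xr 33 (1 : K) * Xr 24 (1 : K) * Xr 36 a * (Xr 29 a * Xr 42 b) * Xr 41 b * Xr 44 c := by rw [c9, c11]; group
    _ = _ := by rw [c10]; group

variable [Finite K] {φ : K →+* K} (hφ2 : ∀ t, (φ (φ t)) ^ 2 = t)

/-- The element of the fourth class. -/
theorem y_form (s : K) : (wN 3)⁻¹ * Ew φ s 0 * wN 3 = Xr 29 (φ s) * Xr 41 s * Xr 44 (φ s * s) := by
  have e1 : (wN (K := K) 3)⁻¹ * Xr 27 (φ s) * wN 3 = Xr 29 (φ s) := by
    have := wN_conj' (K := K) 3 (r := 29) (by decide +kernel) (φ s)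
    rwa [show fwl (cert 3).2.1 29 = 27 from by decide +kernel] at this
  have e2 : (wN (K := K) 3)⁻¹ * Xr 25 s * wN 3 = Xr 41 s := by
    have := wN_conj' (K := K) 3 (r := 41) (by decide +kernel) s
    rwa [show fwl (cert 3).2.1 41 = 25 from by decide +kernel] at this
  have e3 : (wN (K := K) 3)⁻¹ * Xr 28 (φ s * s) * wN 3 = Xr 44 (φ s * s) := by
    have := wN_conj' (K := K) 3 (r := 44) (by decide +kernel) (φ s * s)
    rwa [show fwl (cert 3).2.1 44 = 28 from by decide +kernel] at this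
  rw [← e1, ← e2, ← e3, Ew, Ec, map_zero, add_zero]
  rw [show (0 : K) ^ 2 = 0 from by ring, X_zero, mul_one]
  group

/-- The element of the second class. -/
theorem z_form (u : K) : (wN 1)⁻¹ * Ew φ 0 u * wN 1 = Xr 36 u * Xr 42 ((φ u) ^ 2) := by
  have e1 : (wN (K := K) 1)⁻¹ * Xr 28 u * wN 1 = Xr 36 u := by
    have := wN_conj' (K := K) 1 (r := 36) (by decide +kernel) u
    rwa [show fwl (cert 1).2.1 36 = 28 from by decide +kernel] at this
  have e2 : (wN (K := K) 1)⁻¹ * Xr 30 ((φ u) ^ 2) * wN 1 = Xr 42 ((φ u) ^ 2) := by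
    have := wN_conj' (K := K) 1 (r := 42) (by decide +kernel) ((φ u) ^ 2)
    rwa [show fwl (cert 1).2.1 42 = 30 from by decide +kernel] at this
  rw [← e1, ← e2, Ew, Ec, map_zero, zero_mul, zero_add, X_zero, X_zero, one_mul, one_mul]
  group

include hφ2

/-- The commutator of the elements of the first and the fourth class. -/
theorem comm_Pw_y (u : K) :
    ⁅Pw φ (1 : K), (wN 3)⁻¹ * Ew φ ((φ u) ^ 2) 0 * wN 3⁆ = (wN 1)⁻¹ * Ew φ 0 u * wN 1 := by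
  have hs : φ ((φ u) ^ 2) = u := by rw [map_pow, hφ2]
  have hP : Pw φ (1 : K) = Xr 33 (1 : K) * Xr 24 (1 : K) := by rw [Pw, Pc, map_one]
  have hB : Pw φ (1 : K) * Pw φ (1 : K) = 1 := by
    have := Pw_inv (φ := φ) (1 : K)
    calc Pw φ (1 : K) * Pw φ (1 : K) = (Pw φ (1 : K))⁻¹ * Pw φ (1 : K) := by rw [this]
      _ = 1 := inv_mul_cancel _
  rw [y_form, z_form, hs, commutatorElement_def, Pw_inv]
  have hy := y_mul (K := K) u ((φ u) ^ 2) (u * (φ u) ^ 2)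
  rw [← hP] at hy
  set y := Xr 29 u * Xr 41 ((φ u) ^ 2) * Xr 44 (u * (φ u) ^ 2) with hyd
  calc Pw φ (1 : K) * y * Pw φ (1 : K) * y⁻¹ = Pw φ (1 : K) * (y * Pw φ (1 : K)) * y⁻¹ := by group
    _ = (Pw φ (1 : K) * Pw φ (1 : K)) * (Xr 36 u * Xr 42 ((φ u) ^ 2)) := by rw [hy]; group
    _ = _ := by rw [hB, one_mul]

end Rel

section Abs

variable {Γ G : Type*} [Group Γ] [Group G] {σ : Γ →* G}

theorem Iv_single {X : ℕ → Subgroup G} (a : ℕ) : Iv X a (a + 1) ≤ X a := by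
  refine (Subgroup.closure_le _).2 ?_
  rintro g ⟨l, h1, h2, hg⟩
  have : l = a := by omega
  subst this
  exact hg

end Abs

section Main

variable [CharP K 2] [Fintype K] {φ : K →+* K} (hφ2 : ∀ t, (φ (φ t)) ^ 2 = t) {T : Tw (sys (F := K)).toAddRel}
  (hρ : T.ρ = ρ0) (hτ : ∀ r t, T.τ r t = Cfsg.Agent.Lib.TF4.lam r (φ t)) {e : ℕ} (hφ : ∀ t, φ t = t ^ e)
  {Γ : Type*} [Group Γ] [Finite Γ] {σ : Γ →* ↥(twistedF4 K e)} (hs : Function.Surjective σ)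
  (hc : σ.ker ≤ Subgroup.center Γ) (hK : 5 ≤ Fintype.card K) {β₀ : K} (hβ0 : β₀ ≠ 0) (hβ1 : β₀ ≠ 1)

include hφ2 hρ hτ hφ hs hc hβ0 hβ1

/-- Preimages of a pair of commuting classes commute, by a torus element. -/
theorem lift_comm_02 {a b : Γ} (ha : σ a ∈ XX T e 0) (hb : σ b ∈ XX T e 2) : a * b = b * a := by
  refine comm_of_sep' hs hc (X := XX T e 0) (X' := XX T e 2) ?_ (h := hSg hφ2 hρ hτ hφ 0 hβ0) ?_ ?_ ?_ ha hb
  · intro x hx y hy
    exact Subtype.ext (commute_even even_02 (mem_XX.1 hx).1 (mem_XX.1 hy).1)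
  · intro x hx
    exact HH_XX hφ2 hρ hτ hφ (hSg_HH hφ2 hρ hτ hφ 0 hβ0) hx
  · intro x hx
    exact hSg_fix hφ2 hρ hτ hφ (by norm_num) hβ0 hx
  · intro x hx h
    exact hSg_fpf hφ2 hρ hτ hφ (l := 0) (k := 2) (by norm_num) (by norm_num) (by norm_num) hβ0 hβ1 hx h

/-- Preimages of a pair of commuting classes commute, by a torus element. -/
theorem lift_comm_21 {a b : Γ} (ha : σ a ∈ XX T e 2) (hb : σ b ∈ XX T e 1) : a * b = b * a := by
  refine comm_of_sep' hs hc (X := XX T e 2) (X' := XX T e 1) ?_ (h := hSg hφ2 hρ hτ hφ 2 hβ0) ?_ ?_ ?_ ha hb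
  · intro x hx y hy
    exact Subtype.ext (commute_even even_12 (mem_XX.1 hy).1 (mem_XX.1 hx).1).symm
  · intro x hx
    exact HH_XX hφ2 hρ hτ hφ (hSg_HH hφ2 hρ hτ hφ 2 hβ0) hx
  · intro x hx
    exact hSg_fix hφ2 hρ hτ hφ (by norm_num) hβ0 hx
  · intro x hx h
    exact hSg_fpf hφ2 hρ hτ hφ (l := 2) (k := 1) (by norm_num) (by norm_num) (by norm_num) hβ0 hβ1 hx h

/-- The preimages of the center of the second fundamental class commute with the preimages of the class. -/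
theorem hZc7 {a b : Γ} (ha : σ a ∈ ZZ hφ2 hφ) (hb : σ b ∈ XX T e 7) : a * b = b * a := by
  obtain ⟨u, hu⟩ := ha
  obtain ⟨ν, hν⟩ := hs (wNg hφ2 hρ hτ hφ 1)
  set a₁ := ν⁻¹ * a * ν with ha₁
  set b₁ := ν⁻¹ * b * ν with hb₁
  have hb1 : σ b₁ ∈ XX T e 1 := by
    refine (XX_iff hφ2 hρ hτ hφ (l := 1) (by norm_num)).2 ?_
    rw [show fc (cert 1).2.2 = 7 from by decide +kernel]
    have : wNg hφ2 hρ hτ hφ 1 * σ b₁ * (wNg hφ2 hρ hτ hφ 1)⁻¹ = σ b := by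
      rw [hb₁, map_mul, map_mul, map_inv, hν]
      group
    rw [this]
    exact hb
  obtain ⟨B, hB⟩ := hs ⟨Pw φ (1 : K), Pw_mem hφ 1⟩
  obtain ⟨C, hC⟩ := hs ((wNg hφ2 hρ hτ hφ 3)⁻¹ * EE hφ ((φ u) ^ 2) 0 * wNg hφ2 hρ hτ hφ 3)
  have hB0 : σ B ∈ XX T e 0 := by
    rw [hB]
    exact mem_XX.2 ⟨Pc_mem _ _, Pw_fix hφ2 hρ hτ 1⟩
  have hC3 : σ C ∈ XX T e 3 := by
    refine (XX_iff hφ2 hρ hτ hφ (l := 3) (by norm_num)).2 ?_
    rw [show fc (cert 3).2.2 = 7 from by decide +kernel, hC]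
    have : wNg hφ2 hρ hτ hφ 3 * ((wNg hφ2 hρ hτ hφ 3)⁻¹ * EE hφ ((φ u) ^ 2) 0 * wNg hφ2 hρ hτ hφ 3) *
        (wNg hφ2 hρ hτ hφ 3)⁻¹ = EE hφ ((φ u) ^ 2) 0 := by group
    rw [this]
    exact EE_mem hφ2 hρ hτ hφ _ _
  have hF2 : σ ⁅b₁, C⁆ ∈ XX T e 2 := by
    rw [map_commutatorElement]
    exact Iv_single _ (XX_comm hφ2 hρ hτ hφ (j := 1) (k := 3) (by norm_num) (by norm_num) (by norm_num) hb1 hC3)
  have hBC : σ ⁅B, C⁆ = σ a₁ := by
    rw [map_commutatorElement, hB, hC, ha₁, map_mul, map_mul, map_inv, hν, hu]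
    apply Subtype.ext
    exact comm_Pw_y hφ2 u
  have ha1 : σ a₁ ∈ XX T e 1 := by
    refine (XX_iff hφ2 hρ hτ hφ (l := 1) (by norm_num)).2 ?_
    rw [show fc (cert 1).2.2 = 7 from by decide +kernel]
    have : wNg hφ2 hρ hτ hφ 1 * σ a₁ * (wNg hφ2 hρ hτ hφ 1)⁻¹ = EE hφ 0 u := by
      rw [ha₁, map_mul, map_mul, map_inv, hν, hu]
      group
    rw [this]
    exact EE_mem hφ2 hρ hτ hφ _ _
  have hbc1 : σ ⁅B, C⁆ ∈ XX T e 1 := by
    rw [hBC]
    exact ha1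
  have h1 := hall_witt (a := b₁) (B := B) (C := C) hc
    (Subtype.ext (commute_even even_01 (mem_XX.1 hB0).1 (mem_XX.1 hb1).1).symm)
    (lift_comm_02 hφ2 hρ hτ hφ hs hc hβ0 hβ1 hB0 hF2)
    (lift_comm_21 hφ2 hρ hτ hφ hs hc hβ0 hβ1 hF2 hbc1)
  -- the preimage of the element differs from the commutator by a central element
  have hk : ⁅B, C⁆⁻¹ * a₁ ∈ σ.ker := by
    rw [MonoidHom.mem_ker, map_mul, map_inv, hBC, inv_mul_cancel]
  have hk1 := Subgroup.mem_center_iff.mp (hc hk)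
  have ea : a₁ = ⁅B, C⁆ * (⁅B, C⁆⁻¹ * a₁) := by group
  have h2 : b₁ * a₁ = a₁ * b₁ := by
    rw [ea]
    set k := ⁅B, C⁆⁻¹ * a₁
    calc b₁ * (⁅B, C⁆ * k) = (b₁ * ⁅B, C⁆) * k := by group
      _ = ⁅B, C⁆ * (b₁ * k) := by rw [h1]; group
      _ = ⁅B, C⁆ * (k * b₁) := by rw [hk1 b₁]
      _ = _ := by group
  have e1 : a * b = ν * (a₁ * b₁) * ν⁻¹ := by rw [ha₁, hb₁]; group
  have e2 : b * a = ν * (b₁ * a₁) * ν⁻¹ := by rw [ha₁, hb₁]; group
  rw [e1, e2, h2]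

include hK in
/-- The section over the second fundamental class. -/
theorem sec7 : ∃ Y : Subgroup Γ, Sec σ (XX T e 7) Y ∧ ∀ δ : Γ, σ δ ∈ HH K e → ∀ a ∈ Y, δ * a * δ⁻¹ ∈ Y := by
  obtain ⟨γ, hγ⟩ := hs (hSg hφ2 hρ hτ hφ 0 hβ0)
  have hγH : σ γ ∈ HH K e := by
    rw [hγ]
    exact hSg_HH hφ2 hρ hτ hφ 0 hβ0
  have hfp : ∀ x ∈ XX T e 7, σ γ * x * (σ γ)⁻¹ = x → x = 1 := by
    intro x hx h
    rw [hγ] at h
    exact hSg_fpf hφ2 hρ hτ hφ (l := 0) (k := 7) (by norm_num) (by norm_num) (by norm_num) hβ0 hβ1 hx h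
  set κ : ℕ → K := fun r => sc φ (cert 0).2.2 β₀ (fwl (cert 0).2.1 r) with hκd
  have hκ : ∀ s < chevF4.nroots, ∀ t : K, ((σ γ : ↥(twistedF4 K e)) : GL chevF4.Idx K) * Xr s t *
      ((σ γ : ↥(twistedF4 K e)) : GL chevF4.Idx K)⁻¹ = Xr s (κ s * t) := by
    intro s hs t
    rw [hγ]
    exact hS_conj hφ2 0 hβ0 hs t
  have hκ25 : κ 25 ≠ 1 :=
    sc_ne hφ2 hβ0 hβ1 (prodA_lt (flat_lt _) (by decide +kernel))
      ((cert_chk 0 (by norm_num)).2.2.2.2 7 (by norm_num) (by norm_num) 25 (by decide +kernel))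
  have h2 := two_zero (K := K)
  have hS : SzH σ (XX T e 7) (ZZ hφ2 hφ) γ := by
    refine ⟨ZZ_le hφ2 hρ hτ hφ, ?_, ?_, ?_, hfp, ?_⟩
    · exact fun x hx => HH_XX hφ2 hρ hτ hφ hγH hx
    · exact fun z hz => H_ZZ hφ2 hρ hτ hφ hγH hz
    · exact fun a b ha hb => hZc7 hφ2 hρ hτ hφ hs hc hβ0 hβ1 ha hb
    · intro x hx hz
      obtain ⟨t, u, rfl⟩ := XX7_form hφ2 hρ hτ hφ hx
      obtain ⟨u', e1⟩ := H_EE hφ2 hρ hτ hφ (HH_Fx hφ2 hρ hτ hφ hγH) hκ t u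
      rw [e1, EE_inv hφ2, EE_mul hφ2] at hz
      obtain ⟨v, hv⟩ := hz
      have h3 := (EE_inj hφ hv).1
      have h4 : (κ 25 - 1) * t = 0 := by linear_combination h3 - t * h2
      have h5 : t = 0 := by
        rcases mul_eq_zero.1 h4 with h6 | h6
        · exact absurd (sub_eq_zero.1 h6) hκ25
        · exact h6
      subst h5
      exact ⟨u, rfl⟩
  have hD : ∀ a b, σ a ∈ XX T e 7 → σ b ∈ XX T e 7 → ⁅a, b⁆ ∈ hS.Dd := by
    refine SzH.hD_of_form hS hK hs hc (fun s => EE hφ s 0) (fun s => EE_mem hφ2 hρ hτ hφ s 0) ?_ ?_ ?_ ?_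
    · intro x hx
      obtain ⟨t, u, rfl⟩ := XX7_form hφ2 hρ hτ hφ hx
      exact ⟨t, EE hφ 0 u, ⟨u, rfl⟩, EE_split hφ2 hφ t u⟩
    · intro s s'
      refine ⟨EE hφ 0 (φ s * s'), ⟨_, rfl⟩, ?_⟩
      show EE hφ (s + s') 0 = EE hφ s 0 * EE hφ s' 0 * EE hφ 0 (φ s * s')
      rw [EE_mul hφ2, EE_mul hφ2]
      have e1 : s + s' + 0 = s + s' := add_zero _
      have e2 : (0 : K) + 0 + φ s * s' + φ s * s' + φ (s + s') * 0 = 0 := by linear_combination (φ s * s') * h2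
      rw [e1, e2]
    · exact fun x hx y hy => comm_XX7 hφ2 hρ hτ hφ hx hy
    · intro κ' hκ'
      obtain ⟨α, hα, hα2⟩ := exists_scal hφ2 (j := 0) (s := 25) (by decide +kernel) (by decide +kernel) hκ'
      have hαH : (⟨hF φ 0 α, hF_G hφ2 hρ hτ hφ 0 hα⟩ : ↥(twistedF4 K e)) ∈ HH K e :=
        Subgroup.mem_subgroupOf.2 ⟨hF_H 0 hα, hF_G hφ2 hρ hτ hφ 0 hα⟩
      refine ⟨⟨hF φ 0 α, hF_G hφ2 hρ hτ hφ 0 hα⟩, fun x hx => HH_XX hφ2 hρ hτ hφ hαH hx, fun z hz => H_ZZ hφ2 hρ hτ hφ hαH hz,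
        HH_comm hαH hγH, ?_⟩
      intro s
      obtain ⟨u', e1⟩ := H_EE hφ2 hρ hτ hφ (HH_Fx hφ2 hρ hτ hφ hαH) (κ := sc φ 0 α) (fun s hs t => hF_conj hφ2 0 hα hs t) s 0
      refine ⟨EE hφ 0 u', ⟨_, rfl⟩, ?_⟩
      rw [e1, hα2]
      exact EE_split hφ2 hφ _ _
  refine ⟨hS.Ys hD, SzH.Ys_sec hS hs hc hD, ?_⟩
  intro δ hδ a ha
  exact SzH.Ys_conj hS hc hD (fun x hx => HH_XX hφ2 hρ hτ hφ hδ hx) (fun z hz => H_ZZ hφ2 hρ hτ hφ hδ hz) (HH_comm hδ hγH) ha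

include hK

/-- The section over the unipotent group. -/
theorem exists_U_section : ∃ V : Subgroup Γ, (∀ g ∈ V, σ g = 1 → g = 1) ∧
    (∀ u ∈ (chevF4.posUnipotent K ⊓ twistedF4 K e).subgroupOf (twistedF4 K e), ∃ g ∈ V, σ g = u) ∧
    ∀ g ∈ V, σ g ∈ (chevF4.posUnipotent K ⊓ twistedF4 K e).subgroupOf (twistedF4 K e) := by
  obtain ⟨Y0, hY0, hn0⟩ := sec0 hφ2 hρ hτ hφ hs hc hK hβ0 hβ1
  obtain ⟨Y7, hY7, hn7⟩ := sec7 hφ2 hρ hτ hφ hs hc hK hβ0 hβ1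
  let Yf : Fin 2 → Subgroup Γ := fun j => if j = 0 then Y0 else Y7
  have hYf : ∀ j : Fin 2, Sec σ (XX T e (fc j)) (Yf j) ∧ ∀ δ : Γ, σ δ ∈ HH K e → ∀ a ∈ Yf j, δ * a * δ⁻¹ ∈ Yf j := by
    intro j
    match j with
    | 0 => exact ⟨hY0, hn0⟩
    | 1 => exact ⟨hY7, hn7⟩
  choose ν hν using fun l => hs (wNg hφ2 hρ hτ hφ l)
  let Y : ℕ → Subgroup Γ := fun l => if l < 8 then conjS (ν l) (Yf (cert l).2.2) else ⊥
  have hYlt : ∀ l, l < 8 → Y l = conjS (ν l) (Yf (cert l).2.2) := fun l hl => if_pos hl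
  have hYge : ∀ l, ¬ l < 8 → Y l = ⊥ := fun l hl => if_neg hl
  have hXge : ∀ l, ¬ l < 8 → ∀ x ∈ XX T e l, x = 1 := by
    intro l hl x hx
    have hb : Cj l = [] := List.getD_eq_default _ _ (by
      have : cl.length = 8 := by decide +kernel
      omega)
    have h1 := (mem_XX.1 hx).1
    rw [hb] at h1
    have h0 : gen (sys (F := K)).toAddRel {r | r ∈ ([] : List ℕ)} ≤ ⊥ := gen_le _ (by simp)
    exact Subtype.ext (by simpa using h0 h1)
  have hSec : ∀ l, Sec σ (XX T e l) (Y l) := by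
    intro l
    by_cases hl : l < 8
    · rw [hYlt l hl]
      refine Sec.conj (hYf _).1 ?_
      intro x
      rw [hν]
      exact XX_iff hφ2 hρ hτ hφ hl
    · rw [hYge l hl]
      refine ⟨?_, ?_, ?_⟩
      · intro y hy
        rw [Subgroup.mem_bot] at hy
        rw [hy, map_one]
        exact Subgroup.one_mem _
      · intro x hx
        exact ⟨1, Subgroup.one_mem _, by rw [map_one, hXge l hl x hx]⟩
      · intro y hy _
        exact Subgroup.mem_bot.1 hy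
  have hnY : ∀ δ : Γ, σ δ ∈ HH K e → ∀ l, ∀ a ∈ Y l, δ * a * δ⁻¹ ∈ Y l := by
    intro δ hδ l a ha
    by_cases hl : l < 8
    · rw [hYlt l hl] at ha ⊢
      refine conjS_norm ?_ ha
      intro b hb
      refine (hYf _).2 _ ?_ b hb
      rw [map_mul, map_mul, map_inv, hν]
      refine Subgroup.mem_subgroupOf.2 ⟨?_, (wNg hφ2 hρ hτ hφ l * σ δ * (wNg hφ2 hρ hτ hφ l)⁻¹).2⟩
      exact H_norm_N sys tbl_chevF4 (wN_N (K := K) l) (Subgroup.mem_subgroupOf.1 hδ).1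
    · rw [hYge l hl] at ha ⊢
      rw [Subgroup.mem_bot] at ha ⊢
      rw [ha]
      group
  obtain ⟨V, h1, h2, h3⟩ := exists_section_Iv (m := 8) (X := XX T e) (Y := Y) (H := HH K e) hs hc hSec
    (fun h hh l x hx => HH_XX hφ2 hρ hτ hφ hh hx) hnY
    (fun b j _ x hx hq => XX_coord hφ2 hρ hτ hφ b j hx hq)
    (fun j k hjk hk x hx y hy => XX_comm hφ2 hρ hτ hφ (by omega) hk hjk hx hy)
    (fun j k hjk hk => ⟨hSg hφ2 hρ hτ hφ j hβ0, hSg_HH hφ2 hρ hτ hφ j hβ0, Or.inl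
      ⟨fun x hx => hSg_fix hφ2 hρ hτ hφ (by omega) hβ0 hx,
        fun x hx h => hSg_fpf hφ2 hρ hτ hφ (by omega) hk (by omega) hβ0 hβ1 hx h⟩⟩)
  rw [Iv_top hφ2 hρ hτ hφ] at h2 h3
  exact ⟨V, h1, h2, h3⟩

/-- The extension has kernel of odd exponent. -/
theorem pl_U (hk : σ.ker ≤ commutator Γ) (hq : Even (Nat.card K)) :
    PL σ 2 ((chevF4.posUnipotent K ⊓ twistedF4 K e).subgroupOf (twistedF4 K e)).index := by
  obtain ⟨V, h1, h2, h3⟩ := exists_U_section hφ2 hρ hτ hφ hs hc hK hβ0 hβ1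
  refine ⟨hs, hc, ?_, fun a ha => pow_index_of_section hs hc hk h1 h2 h3 ha⟩
  have h4 := Cfsg.Agent.Lib.TF4.I2.idx_odd hφ2 hρ hτ hφ hq
  rw [Nat.coprime_comm]
  exact (Nat.Prime.coprime_iff_not_dvd Nat.prime_two).2 h4

end Main

end Cfsg.Agent.Lib.TF4Mult
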