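import Cfsg.Agent.Lib.TF4Mult.Part1c
import Cfsg.Agent.Lib.TF4.I2Aut4

/-!
# `²F₄`: the Bruhat data of the group
-/

set_option autoImplicit false
set_option linter.unusedSectionVars false
set_option maxRecDepth 100000

namespace Cfsg.Agent.Lib.TF4Mult

open Cfsg.Lie Cfsg.Agent.Lib.Twisted Cfsg.Agent.Lib.Twisted.Mult
open Cfsg.Agent.Lib.TF4 hiding lam
open Cfsg.Agent.Lib.Chevalley.Tbl.F4 (sys comm)
open Cfsg.Agent.Lib.ChevBN.Elem Cfsg.Agent.Lib.ChevBN.Table Cfsg.Agent.Lib.ChevBN.Rel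
open Cfsg.Agent.Lib.ChevBN.Opp Cfsg.Agent.Lib.ChevBN.Torus Cfsg.Agent.Lib.ChevBN.Monomial
open Cfsg.Agent.Lib.ChevBN.Stmts Cfsg.Agent.Lib.ChevBN.Pair Cfsg.Agent.Lib.ChevBN.Perfect
open Cfsg.Agent.Lib.ChevOrder.Chev
open Cfsg.Agent.Lib.ChevBN.FastData (tbl_chevF4)
open Cfsg.Agent.Lib.TF4.I2 (nw_mul_self nw_inv nw_conj_N0')
open scoped commutatorElement

variable {K : Type*} [Field K]

set_option quotPrecheck false in
/-- The root elements. -/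
local notation "Xr" => X (sys (F := _)).toAddRel

section Main

variable [CharP K 2] [Fintype K] {φ : K →+* K} (hφ2 : ∀ t, (φ (φ t)) ^ 2 = t) {T : Tw (sys (F := K)).toAddRel}
  (hρ : T.ρ = ρ0) (hτ : ∀ r t, T.τ r t = Cfsg.Agent.Lib.TF4.lam r (φ t)) {e : ℕ} (hφ : ∀ t, φ t = t ^ e)

/-- The unipotent subgroup. -/
noncomputable abbrev UU (K : Type*) [Field K] (e : ℕ) : Subgroup ↥(twistedF4 K e) :=
  (chevF4.posUnipotent K ⊓ twistedF4 K e).subgroupOf (twistedF4 K e)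

/-- The monomial subgroup. -/
noncomputable abbrev NN (K : Type*) [Field K] (e : ℕ) : Subgroup ↥(twistedF4 K e) :=
  (chevF4.monomialSubgroup K ⊓ twistedF4 K e).subgroupOf (twistedF4 K e)

/-- The element `n_j` in the group. -/
noncomputable def nnG (hφ2 : ∀ t, (φ (φ t)) ^ 2 = t) {T : Tw (sys (F := K)).toAddRel}
    (hρ : T.ρ = ρ0) (hτ : ∀ r t, T.τ r t = Cfsg.Agent.Lib.TF4.lam r (φ t)) {e : ℕ} (hφ : ∀ t, φ t = t ^ e) (j : Fin 2) :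
    ↥(twistedF4 K e) := ⟨nw j, nw_mem hφ2 hρ hτ hφ j⟩

/-- The fixed points in a fundamental class. -/
noncomputable abbrev XF (T : Tw (sys (F := K)).toAddRel) (e : ℕ) (i : Fin 2) : Subgroup ↥(twistedF4 K e) := XX T e (fc i)

/-- The opposite of the fundamental class. -/
noncomputable def YF (hφ2 : ∀ t, (φ (φ t)) ^ 2 = t) {T : Tw (sys (F := K)).toAddRel}
    (hρ : T.ρ = ρ0) (hτ : ∀ r t, T.τ r t = Cfsg.Agent.Lib.TF4.lam r (φ t)) {e : ℕ} (hφ : ∀ t, φ t = t ^ e) (i : Fin 2) :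
    Subgroup ↥(twistedF4 K e) := (XF T e i).map (MulAut.conj (nnG hφ2 hρ hτ hφ i)).toMonoidHom

/-- The complement of the fundamental class. -/
noncomputable def UcF (K : Type*) [Field K] [CharP K 2] (e : ℕ) (i : Fin 2) : Subgroup ↥(twistedF4 K e) :=
  (gen (sys (F := K)).toAddRel {r | chevF4.IsPosRoot r ∧ r ∉ {r | r ∈ lr i}}).subgroupOf (twistedF4 K e)

theorem mem_XF {i : Fin 2} {x : ↥(twistedF4 K e)} :
    x ∈ XF T e i ↔ (x : GL chevF4.Idx K) ∈ gen (sys (F := K)).toAddRel {r | r ∈ lr i} ∧ (x : GL chevF4.Idx K) ∈ T.Fx := by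
  rw [XF, mem_XX, Cj_fc]

theorem mem_YF {i : Fin 2} {y : ↥(twistedF4 K e)} :
    y ∈ YF hφ2 hρ hτ hφ i ↔ ∃ x ∈ XF T e i, nnG hφ2 hρ hτ hφ i * x * (nnG hφ2 hρ hτ hφ i)⁻¹ = y := by
  rw [YF, Subgroup.mem_map]
  rfl

theorem nnG_mul_self (i : Fin 2) : nnG hφ2 hρ hτ hφ i * nnG hφ2 hρ hτ hφ i = 1 := Subtype.ext (nw_mul_self i)

theorem nnG_inv (i : Fin 2) : (nnG hφ2 hρ hτ hφ i)⁻¹ = nnG hφ2 hρ hτ hφ i :=
  inv_eq_of_mul_eq_one_left (nnG_mul_self hφ2 hρ hτ hφ i)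

include hφ2 hρ hτ hφ

theorem PE_UU (hq : ∃ n, Nat.card K = 2 ^ n) {u : ↥(twistedF4 K e)} (hu : u ∈ UU K e) : PE 2 u := by
  obtain ⟨n, hn⟩ := hq
  have hc : Nat.card (UU K e) = Nat.card K ^ 12 := by
    rw [← card_U1 hφ2 hρ hτ hφ]
    exact Nat.card_congr (Subgroup.subgroupOfEquivOfLe inf_le_right).toEquiv
  refine ⟨n * 12, ?_⟩
  have h1 := pow_card_eq_one' (x := (⟨u, hu⟩ : UU K e))
  rw [hc, hn, ← pow_mul] at h1
  exact congrArg Subtype.val h1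

/-- The Bruhat data. -/
theorem cs_F (hq : ∃ n, Nat.card K = 2 ^ n) :
    CS (UU K e) (NN K e) (XF T e) (YF hφ2 hρ hτ hφ) (UcF K e) := by
  have hXU : ∀ i, XF T e i ≤ UU K e := fun i x hx =>
    Subgroup.mem_subgroupOf.2 ⟨lr_le_U i (mem_XF.1 hx).1, x.2⟩
  set Fd := fund hφ2 hρ hτ hφ with hFd
  have hPsi : ∀ j, Fd.Ψ j = {r | r ∈ lr j} := fun j => rfl
  have hN : ∀ j, (nnG hφ2 hρ hτ hφ j : GL chevF4.Idx K) = nw j := fun j => rfl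
  have hUpos := posUnipotent_eq (D := chevF4) (F := K) (sys (F := K)).toAddRel
  have hdis : ∀ i, ∀ a ∈ Fd.Ψ i, a ∉ Fd.Cp i := fun i a ha h2 => h2.2 ha
  have hnorm : ∀ i, ∀ x ∈ gen (sys (F := K)).toAddRel (Fd.Ψ i), ∀ k ∈ gen (sys (F := K)).toAddRel (Fd.Cp i),
      x * k * x⁻¹ ∈ gen (sys (F := K)).toAddRel (Fd.Cp i) := by
    intro i x hx k hk
    have hn := gen_le_norm (F := K) sys tbl_chevF4 (Fd.Ψ_closed i) (Fd.Cp_closed i) (hdis i) (Fd.Cp_norm i)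
    exact (Subgroup.mem_normalizer_iff.mp (hn hx) k).mp hk
  have hnn : ∀ i, ∀ k ∈ gen (sys (F := K)).toAddRel (Fd.Cp i), nw i * k * (nw i)⁻¹ ∈ gen (sys (F := K)).toAddRel (Fd.Cp i) := by
    intro i k hk
    refine conj_gen sys tbl_chevF4 (nw_N i) (fun r hr => hr.1.1) ?_ hk
    intro r hr
    exact Fd.act_comp i r hr.1 hr.2
  refine ⟨fun u hu => PE_UU hφ2 hρ hτ hφ hq hu, hXU, ?_, ?_, ?_, ?_, ?_, ?_, ?_, ?_⟩
  · intro i y hy
    obtain ⟨x, hx, rfl⟩ := (mem_YF hφ2 hρ hτ hφ).1 hy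
    exact (PE_UU hφ2 hρ hτ hφ hq (hXU i hx)).conj _
  · intro i k hk
    have hk' : (k : GL chevF4.Idx K) ∈ gen (sys (F := K)).toAddRel (Fd.Cp i) := Subgroup.mem_subgroupOf.1 hk
    exact Subgroup.mem_subgroupOf.2 ⟨Fd.gen_Cp_le_U i hk', k.2⟩
  · intro i u hu
    have hu' := Subgroup.mem_subgroupOf.1 hu
    have h1 : (u : GL chevF4.Idx K) ∈ gen (sys (F := K)).toAddRel (Fd.Ψ i ∪ Fd.Cp i) := by
      rw [Fd.union_eq]
      exact hu'.1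
    obtain ⟨b, hb, c, hc, e1⟩ := gen_union_factor sys tbl_chevF4 (Fd.Ψ_closed i) (Fd.Cp_closed i) (hdis i) (Fd.Cp_norm i) h1
    have hbot := gen_inf_eq_bot (F := K) sys tbl_chevF4 (Fd.Ψ_closed i) (Fd.Cp_closed i) (Fd.union_closed i) (hdis i) (Fd.Cp_norm i)
    have hf : b * c ∈ T.Fx := by
      rw [← e1]
      exact G1_le_Fx hφ2 hρ hτ hφ u.2
    obtain ⟨h2, h3⟩ := T.fix_split
      ((Fd.gen_Ψ_le_U i).trans (Tw.U_le_group (sys (F := K)).toAddRel))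
      ((Fd.gen_Cp_le_U i).trans (Tw.U_le_group (sys (F := K)).toAddRel))
      (fun a ha => Fd.s_gen_Ψ i ha) (fun a ha => Fd.s_gen_Cp i ha) hbot hb hc hf
    have hbG : b ∈ twistedF4 K e := U_Fx_le hφ2 hρ hτ hφ ⟨Fd.gen_Ψ_le_U i hb, h2⟩
    have hcG : c ∈ twistedF4 K e := U_Fx_le hφ2 hρ hτ hφ ⟨Fd.gen_Cp_le_U i hc, h3⟩
    exact ⟨⟨b, hbG⟩, mem_XF.2 ⟨hb, h2⟩, ⟨c, hcG⟩, Subgroup.mem_subgroupOf.2 hc, Subtype.ext e1⟩
  · intro i x hx k hk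
    exact Subgroup.mem_subgroupOf.2 (hnorm i _ (mem_XF.1 hx).1 _ (Subgroup.mem_subgroupOf.1 hk))
  · intro i y hy k hk
    obtain ⟨x, hx, rfl⟩ := (mem_YF hφ2 hρ hτ hφ).1 hy
    have hk' : (k : GL chevF4.Idx K) ∈ gen (sys (F := K)).toAddRel (Fd.Cp i) := Subgroup.mem_subgroupOf.1 hk
    refine Subgroup.mem_subgroupOf.2 ?_
    have h1 := hnn i _ (hnorm i _ (mem_XF.1 hx).1 _ (hnn i _ hk'))
    have e1 : ((nnG hφ2 hρ hτ hφ i * x * (nnG hφ2 hρ hτ hφ i)⁻¹ * k * (nnG hφ2 hρ hτ hφ i * x * (nnG hφ2 hρ hτ hφ i)⁻¹)⁻¹ :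
        ↥(twistedF4 K e)) : GL chevF4.Idx K) =
        nw i * ((x : GL chevF4.Idx K) * (nw i * (k : GL chevF4.Idx K) * (nw i)⁻¹) * (x : GL chevF4.Idx K)⁻¹) * (nw i)⁻¹ := by
      show nw i * (x : GL chevF4.Idx K) * (nw i)⁻¹ * (k : GL chevF4.Idx K) * (nw i * (x : GL chevF4.Idx K) * (nw i)⁻¹)⁻¹ = _
      simp only [_root_.mul_inv_rev, nw_inv]
      group
    rw [e1]
    exact h1
  · rw [eq_top_iff]
    intro g _
    set C := Subgroup.closure (((UU K e : Subgroup ↥(twistedF4 K e)) : Set ↥(twistedF4 K e)) ∪ {g | ∃ i, g ∈ YF hφ2 hρ hτ hφ i}) with hC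
    have hU : UU K e ≤ C := fun x hx => Subgroup.subset_closure (Or.inl hx)
    have hY : ∀ i, YF hφ2 hρ hτ hφ i ≤ C := fun i x hx => Subgroup.subset_closure (Or.inr ⟨i, hx⟩)
    have hle : twistedF4 K e ≤ C.map (twistedF4 K e).subtype := by
      have hfix : ∀ j, ∀ x ∈ YY T j, x ∈ C.map (twistedF4 K e).subtype := by
        intro j x hx
        have hxG := fund_le hφ2 hρ hτ hφ j hx
        exact ⟨⟨x, hxG⟩, hU (Subgroup.mem_subgroupOf.2 ⟨lr_le_U j hx.1, hxG⟩), rfl⟩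
      have hfixN : ∀ j, ∀ x ∈ YY T j, N0 * x * N0⁻¹ ∈ C.map (twistedF4 K e).subtype := by
        intro j x hx
        obtain ⟨P, hB, hN', hS⟩ := exists_pair hφ2 hρ hτ hφ
        obtain ⟨z, hz, e1⟩ := nw_conj_N0' hφ2 hρ hτ hφ hB hN' hS j hx
        have hzG := fund_le hφ2 hρ hτ hφ j hz
        refine ⟨nnG hφ2 hρ hτ hφ j * ⟨z, hzG⟩ * (nnG hφ2 hρ hτ hφ j)⁻¹, ?_, ?_⟩
        · exact hY j ((mem_YF hφ2 hρ hτ hφ).2 ⟨⟨z, hzG⟩, mem_XF.2 hz, rfl⟩)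
        · rw [e1]
          rfl
      refine (Subgroup.closure_le _).2 ?_
      intro g hg
      rcases gen_cases hφ hg with ⟨t, rfl⟩ | ⟨t, u, rfl⟩ | ⟨t, rfl⟩ | ⟨t, u, rfl⟩
      · exact hfix 0 _ ⟨Pc_mem _ _, Pw_fix hφ2 hρ hτ t⟩
      · exact hfix 1 _ ⟨Ec_mem _ _ _ _, Ew_fix hφ2 hρ hτ t u⟩
      · exact hfixN 0 _ ⟨Pc_mem _ _, Pw_fix hφ2 hρ hτ t⟩
      · exact hfixN 1 _ ⟨Ec_mem _ _ _ _, Ew_fix hφ2 hρ hτ t u⟩
    obtain ⟨c, hc, e1⟩ := hle g.2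
    have : c = g := Subtype.ext e1
    rwa [← this]
  · intro n hn hu
    have h1 := (Subgroup.mem_subgroupOf.1 hn).1
    have h2 := (Subgroup.mem_subgroupOf.1 hu).1
    have h3 : (n : GL chevF4.Idx K) ∈ chevF4.borelSubgroup K ⊓ chevF4.monomialSubgroup K := ⟨U_le_B sys tbl_chevF4 h2, h1⟩
    rw [B_inf_N sys tbl_chevF4] at h3
    have h4 : (n : GL chevF4.Idx K) ∈ chevF4.posUnipotent K ⊓ chevF4.diagonalSubgroup K := ⟨h2, h3⟩
    rw [U_inf_H sys tbl_chevF4, Subgroup.mem_bot] at h4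
    exact Subtype.ext h4
  · intro n hn i
    have hn1 := (Subgroup.mem_subgroupOf.1 hn).1
    have hn' := Subgroup.inv_mem _ hn1
    have hnG : (n : GL chevF4.Idx K)⁻¹ ∈ twistedF4 K e := Subgroup.inv_mem _ n.2
    rcases Fd.dich i (n : GL chevF4.Idx K)⁻¹ hn' hnG with h | h
    · left
      intro x hx
      refine Subgroup.mem_subgroupOf.2 ⟨?_, (n⁻¹ * x * n).2⟩
      have := conj_gen sys tbl_chevF4 hn' (Fd.hΨ_lt i) (Ψ' := {r | chevF4.IsPosRoot r}) h (mem_XF.1 hx).1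
      rw [← hUpos, inv_inv] at this
      exact this
    · right
      intro y hy
      obtain ⟨x, hx, rfl⟩ := (mem_YF hφ2 hρ hτ hφ).1 hy
      refine Subgroup.mem_subgroupOf.2 ⟨?_, (n⁻¹ * (nnG hφ2 hρ hτ hφ i * x * (nnG hφ2 hρ hτ hφ i)⁻¹) * n).2⟩
      have hm := Subgroup.mul_mem _ hn' (nw_N (K := K) i)
      have hp : pn sys tbl_chevF4 hm = pn sys tbl_chevF4 hn' * pn sys tbl_chevF4 (nw_N (K := K) i) := pn_mul sys tbl_chevF4 _ _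
      have := conj_gen sys tbl_chevF4 hm (Fd.hΨ_lt i) (Ψ' := {r | chevF4.IsPosRoot r}) ?_ (mem_XF.1 hx).1
      · rw [← hUpos] at this
        have e1 : ((n⁻¹ * (nnG hφ2 hρ hτ hφ i * x * (nnG hφ2 hρ hτ hφ i)⁻¹) * n : ↥(twistedF4 K e)) : GL chevF4.Idx K) =
            (n : GL chevF4.Idx K)⁻¹ * nw i * (x : GL chevF4.Idx K) * ((n : GL chevF4.Idx K)⁻¹ * nw i)⁻¹ := by
          show (n : GL chevF4.Idx K)⁻¹ * (nw i * (x : GL chevF4.Idx K) * (nw i)⁻¹) * (n : GL chevF4.Idx K) = _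
          group
        rw [e1]
        exact this
      · intro r hr
        rw [hp, Equiv.Perm.mul_apply]
        obtain ⟨r', hr', e2⟩ := Fd.act_Ψ i r hr
        have hlt := ((Fd.Ψ_closed i).pos r' hr').1
        have e3 : pn sys tbl_chevF4 (nw_N (K := K) i) r = negF tbl_chevF4 ⟨r', hlt⟩ := Fin.ext e2
        rw [e3, pn_neg sys tbl_chevF4 hn']
        rcases tbl_chevF4.pos_or_neg (pn sys tbl_chevF4 hn' ⟨r', hlt⟩).isLt with h4 | h4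
        · exact absurd h4 (h ⟨r', hlt⟩ hr')
        · exact tbl_chevF4.pos_of_neg h4

end Main

end Cfsg.Agent.Lib.TF4Mult
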