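import Cfsg.Agent.Lib.TF4Mult.Part2a
import Cfsg.Agent.Lib.ChevBN.Entries

/-!
# `²F₄`: the block of the second Levi subgroup: a homomorphism to the Suzuki group
-/

set_option autoImplicit false
set_option linter.unusedSectionVars false
set_option maxRecDepth 100000

namespace Cfsg.Agent.Lib.TF4Mult

open Cfsg.Lie Cfsg.Agent.Lib.Twisted Cfsg.Agent.Lib.Twisted.Mult
open Cfsg.Agent.Lib.TF4 hiding lam
open Cfsg.Agent.Lib.Chevalley.Tbl.F4 (sys comm)
open Cfsg.Agent.Lib.ChevBN.Elem Cfsg.Agent.Lib.ChevBN.Table Cfsg.Agent.Lib.ChevBN.Rel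
open Cfsg.Agent.Lib.ChevBN.Opp Cfsg.Agent.Lib.ChevBN.Torus Cfsg.Agent.Lib.ChevBN.Monomial
open Cfsg.Agent.Lib.ChevBN.Stmts Cfsg.Agent.Lib.ChevBN.Pair Cfsg.Agent.Lib.ChevBN.Perfect
open Cfsg.Agent.Lib.ChevOrder.Chev
open Cfsg.Agent.Lib.ChevBN.FastData (tbl_chevF4)
open Cfsg.Agent.Lib.ChevBN.Entries
open Cfsg.Agent.Lib.TF4.I2 (nw_mul_self nw_inv nw_conj_N0')
open Cfsg.Agent.Lib.Suzuki.Basic (Hyp Lm Tm fz fz_def)
open scoped commutatorElement

variable {K : Type*} [Field K]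

set_option quotPrecheck false in
/-- The root elements. -/
local notation "Xr" => X (sys (F := _)).toAddRel

/-- The roots of the block. -/
def ixr : Fin 4 → ℕ := ![37, 35, 34, 33]

theorem ixr_lt : ∀ i, ixr i < chevF4.nroots := by decide +kernel

/-- The coordinates of the block. -/
def ixc (i : Fin 4) : chevF4.Idx := Sum.inr ⟨ixr i, ixr_lt i⟩

theorem ixc_inj : Function.Injective ixc := by
  intro i j h
  have h1 : ixr i = ixr j := congrArg Fin.val (Sum.inr.inj h)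
  revert h1
  revert i j
  decide +kernel

/-- The set of coordinates of the block. -/
def Tb : Set chevF4.Idx := Set.range ixc

/-- The block of a matrix. -/
def blk (M : Matrix chevF4.Idx chevF4.Idx K) : Matrix (Fin 4) (Fin 4) K := fun i j => M (ixc i) (ixc j)

theorem blk_one : blk (1 : Matrix chevF4.Idx chevF4.Idx K) = 1 := by
  ext i j
  by_cases h : i = j
  · subst h
    simp [blk]
  · have : ixc i ≠ ixc j := fun e => h (ixc_inj e)
    simp [blk, this, h]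

theorem blk_mul {M N : Matrix chevF4.Idx chevF4.Idx K} (hN : Pres Tb N) : blk (M * N) = blk M * blk N := by
  classical
  ext i j
  show (M * N) (ixc i) (ixc j) = _
  rw [Matrix.mul_apply, Matrix.mul_apply]
  have h1 : ∑ l, M (ixc i) l * N l (ixc j) = ∑ l ∈ Finset.univ.image ixc, M (ixc i) l * N l (ixc j) := by
    symm
    apply Finset.sum_subset (Finset.subset_univ _)
    intro l _ hl
    have hl' : l ∉ Tb := by
      rintro ⟨k, rfl⟩
      exact hl (Finset.mem_image_of_mem _ (Finset.mem_univ _))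
    rw [hN l (ixc j) ⟨j, rfl⟩ hl', mul_zero]
  rw [h1, Finset.sum_image (fun a _ b _ e => ixc_inj e)]
  rfl

section Char

variable [CharP K 2]

omit [CharP K 2] in
theorem blk_X_entry {r : ℕ} (hr : r < chevF4.nroots) (h : ∀ j, ixr j ≠ r ∧ ixr j ≠ chevF4.neg r) (t : K) (i j : Fin 4) :
    blk ((Xr r t : GL chevF4.Idx K) : Matrix chevF4.Idx chevF4.Idx K) i j = (if i = j then 1 else 0) +
      ((chevF4.chainCoeff r (ixr j) (ixr i)).map fun km => ((km.2 : ℤ) : K) * t ^ km.1).sum := by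
  have h1 : blk ((Xr r t : GL chevF4.Idx K) : Matrix chevF4.Idx chevF4.Idx K) i j = chevF4.x K r t (ixc i) (ixc j) := by
    rw [coe_X]
    rfl
  rw [h1]
  unfold ixc
  rw [x_inr_inr_gen hr t _ _ (h j).1 (h j).2]
  congr 1
  by_cases h2 : i = j
  · subst h2
    simp
  · have : (⟨ixr i, ixr_lt i⟩ : Fin chevF4.nroots) ≠ ⟨ixr j, ixr_lt j⟩ := by
      intro e
      apply h2
      apply ixc_inj
      show (Sum.inr _ : chevF4.Idx) = Sum.inr _
      rw [e]
    simp [this, h2]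

omit [CharP K 2] in
theorem Pres_X {r : ℕ} (hr : r < chevF4.nroots) (h : ∀ j, ixr j ≠ r ∧ ixr j ≠ chevF4.neg r)
    (h2 : ∀ j, ∀ u < chevF4.nroots, (∀ i, ixr i ≠ u) → chevF4.chainCoeff r (ixr j) u = []) (t : K) :
    Pres Tb (chevF4.x K r t) := by
  rintro row col ⟨j, rfl⟩ hrow
  rcases row with i | u
  · exact x_inl_inr_gen hr t i _ (h j).1 (h j).2
  · unfold ixc
    rw [x_inr_inr_gen hr t _ _ (h j).1 (h j).2]
    have h3 : ∀ i, ixr i ≠ u.val := by
      intro i e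
      apply hrow
      refine ⟨i, ?_⟩
      show (Sum.inr _ : chevF4.Idx) = Sum.inr _
      congr 1
      exact Fin.ext e
    rw [h2 j u.val u.isLt h3]
    have h4 : u ≠ ⟨ixr j, ixr_lt j⟩ := by
      intro e
      exact h3 j (by rw [e])
    simp [h4]

/-- The table of the block. -/
def bt (r : ℕ) (i j : Fin 4) : Bool := match r, (i : ℕ), (j : ℕ) with
  | 25, 1, 2 => true
  | 27, 0, 1 => true
  | 27, 2, 3 => true
  | 28, 0, 2 => true
  | 28, 1, 3 => true
  | 30, 0, 3 => true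
  | 22, 2, 1 => true
  | 20, 1, 0 => true
  | 20, 3, 2 => true
  | 19, 2, 0 => true
  | 19, 3, 1 => true
  | 17, 3, 0 => true
  | _, _, _ => false

/-- The roots acting on the block. -/
def rsb : List ℕ := [25, 27, 28, 30, 22, 20, 19, 17]

set_option synthInstance.maxSize 100000 in
set_option synthInstance.maxHeartbeats 0 in
theorem bt_chk : ∀ r ∈ rsb, r < chevF4.nroots ∧ (∀ j, ixr j ≠ r ∧ ixr j ≠ chevF4.neg r) ∧
    (∀ j, ∀ u < chevF4.nroots, (∀ i, ixr i ≠ u) → chevF4.chainCoeff r (ixr j) u = []) ∧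
    ∀ i j, ((bt r i j = true ∧ ((chevF4.chainCoeff r (ixr j) (ixr i)) = [(1, 1)] ∨ (chevF4.chainCoeff r (ixr j) (ixr i)) = [(1, -1)])) ∨
      (bt r i j = false ∧ chevF4.chainCoeff r (ixr j) (ixr i) = [])) := by
  decide +kernel

/-- The entries of the block. -/
theorem blk_X {r : ℕ} (hr : r ∈ rsb) (t : K) (i j : Fin 4) :
    blk ((Xr r t : GL chevF4.Idx K) : Matrix chevF4.Idx chevF4.Idx K) i j = (if i = j then 1 else 0) + (if bt r i j then t else 0) := by
  obtain ⟨h1, h2, h3, h4⟩ := bt_chk r hr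
  rw [blk_X_entry h1 h2]
  congr 1
  rcases h4 i j with ⟨h5, h6 | h6⟩ | ⟨h5, h6⟩
  · rw [h5, h6]
    simp
  · rw [h5, h6]
    simp [CharTwo.neg_eq]
  · rw [h5, h6]
    simp

theorem Pres_Xr {r : ℕ} (hr : r ∈ rsb) (t : K) : Pres Tb (chevF4.x K r t) := by
  obtain ⟨h1, h2, h3, h4⟩ := bt_chk r hr
  exact Pres_X h1 h2 h3 t

/-- The block of a root element. -/
def Mb (r : ℕ) (t : K) : Matrix (Fin 4) (Fin 4) K := fun i j => (if i = j then 1 else 0) + (if bt r i j then t else 0)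

theorem blk_Xb {r : ℕ} (hr : r ∈ rsb) (t : K) :
    blk ((Xr r t : GL chevF4.Idx K) : Matrix chevF4.Idx chevF4.Idx K) = Mb r t := by
  ext i j
  exact blk_X hr t i j

theorem Mb_25 (t : K) : Mb 25 t = !![1, 0, 0, 0; 0, 1, t, 0; 0, 0, 1, 0; 0, 0, 0, 1] := by
  ext i j
  fin_cases i <;> fin_cases j <;> simp [Mb, bt]

theorem Mb_27 (t : K) : Mb 27 t = !![1, t, 0, 0; 0, 1, 0, 0; 0, 0, 1, t; 0, 0, 0, 1] := by
  ext i j
  fin_cases i <;> fin_cases j <;> simp [Mb, bt]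

theorem Mb_28 (t : K) : Mb 28 t = !![1, 0, t, 0; 0, 1, 0, t; 0, 0, 1, 0; 0, 0, 0, 1] := by
  ext i j
  fin_cases i <;> fin_cases j <;> simp [Mb, bt]

theorem Mb_30 (t : K) : Mb 30 t = !![1, 0, 0, t; 0, 1, 0, 0; 0, 0, 1, 0; 0, 0, 0, 1] := by
  ext i j
  fin_cases i <;> fin_cases j <;> simp [Mb, bt]

theorem Mb_22 (t : K) : Mb 22 t = !![1, 0, 0, 0; 0, 1, 0, 0; 0, t, 1, 0; 0, 0, 0, 1] := by
  ext i j
  fin_cases i <;> fin_cases j <;> simp [Mb, bt]

theorem Mb_20 (t : K) : Mb 20 t = !![1, 0, 0, 0; t, 1, 0, 0; 0, 0, 1, 0; 0, 0, t, 1] := by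
  ext i j
  fin_cases i <;> fin_cases j <;> simp [Mb, bt]

theorem Mb_19 (t : K) : Mb 19 t = !![1, 0, 0, 0; 0, 1, 0, 0; t, 0, 1, 0; 0, t, 0, 1] := by
  ext i j
  fin_cases i <;> fin_cases j <;> simp [Mb, bt]

theorem Mb_17 (t : K) : Mb 17 t = !![1, 0, 0, 0; 0, 1, 0, 0; 0, 0, 1, 0; t, 0, 0, 1] := by
  ext i j
  fin_cases i <;> fin_cases j <;> simp [Mb, bt]

/-- The block of a product of four root elements. -/
theorem blk_four {a b c d : ℕ} (ha : a ∈ rsb) (hb : b ∈ rsb) (hc : c ∈ rsb) (hd : d ∈ rsb) (s t v w : K) :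
    blk ((Xr a s * Xr b t * Xr c v * Xr d w : GL chevF4.Idx K) : Matrix chevF4.Idx chevF4.Idx K) =
      Mb a s * Mb b t * Mb c v * Mb d w := by
  simp only [Units.val_mul]
  rw [blk_mul (by rw [coe_X]; exact Pres_Xr hd w), blk_mul (by rw [coe_X]; exact Pres_Xr hc v),
    blk_mul (by rw [coe_X]; exact Pres_Xr hb t), blk_Xb ha, blk_Xb hb, blk_Xb hc, blk_Xb hd]

theorem blk_Ec (s t v w : K) :
    blk ((Ec s t v w : GL chevF4.Idx K) : Matrix chevF4.Idx chevF4.Idx K) =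
      !![1, s, s * t + v, v * s + w; 0, 1, t, v; 0, 0, 1, s; 0, 0, 0, 1] := by
  unfold Ec
  rw [blk_four (by decide) (by decide) (by decide) (by decide), Mb_27, Mb_25, Mb_28, Mb_30]
  ext i j
  fin_cases i <;> fin_cases j <;> simp [Matrix.mul_apply, Fin.sum_univ_four, mul_comm] <;> ring

/-- The block of the opposite class. -/
theorem blk_Ecn (s t v w : K) :
    blk ((Xr 20 s * Xr 22 t * Xr 19 v * Xr 17 w : GL chevF4.Idx K) : Matrix chevF4.Idx chevF4.Idx K) =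
      Tm K * !![1, s, s * t + v, v * s + w; 0, 1, t, v; 0, 0, 1, s; 0, 0, 0, 1] * Tm K := by
  rw [blk_four (by decide) (by decide) (by decide) (by decide), Mb_20, Mb_22, Mb_19, Mb_17]
  ext i j
  fin_cases i <;> fin_cases j <;> simp [Matrix.mul_apply, Fin.sum_univ_four, mul_comm, Tm]

variable [Fintype K] {m : ℕ} (h : Hyp K m) {φ : K →+* K} (hφm : ∀ t, φ t = t ^ (2 ^ m))

include h hφm

/-- The block of an element of the second fundamental class. -/
theorem Ec_Lm (t u : K) :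
    (!![1, φ t, φ t * t + (φ t * t + u), (φ t * t + u) * φ t + (φ u) ^ 2; 0, 1, t, φ t * t + u; 0, 0, 1, φ t; 0, 0, 0, 1] :
      Matrix (Fin 4) (Fin 4) K) = Lm m (φ t) (φ t * t + u) := by
  have h2 := h.two_eq_zero
  have hpow : ∀ x : K, x ^ (2 ^ (m + 1)) = (φ x) ^ 2 := by
    intro x
    rw [hφm, ← pow_mul, pow_succ]
  have hφt : (φ t) ^ (2 ^ (m + 1)) = t := by
    rw [hpow, hφm (φ t), hφm t, ← pow_mul, ← pow_mul]
    have e : 2 ^ m * (2 ^ m * 2) = 2 ^ (2 * m + 1) := by ring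
    rw [e, ← h.hF]
    exact FiniteField.pow_card t
  have hb : (φ t * t + u) ^ (2 ^ (m + 1)) = t * (φ t) ^ 2 + (φ u) ^ 2 := by
    rw [h.add_pow_sg, mul_pow, hφt, hpow t, hpow u]
  unfold Lm
  rw [fz_def, hφt, hb]
  ext i j
  fin_cases i <;> fin_cases j <;> simp
  · ring
  · linear_combination (-(t * (φ t) ^ 2)) * h2

end Char

end Cfsg.Agent.Lib.TF4Mult
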