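import Cfsg.Agent.Lib.TF4Mult.Part2b

/-!
# `²F₄`: the homomorphism from the second Levi subgroup to the Suzuki group
-/

set_option autoImplicit false
set_option linter.unusedSectionVars false
set_option maxRecDepth 100000

namespace Cfsg.Agent.Lib.TF4Mult

open Cfsg.Lie Cfsg.Agent.Lib.Twisted Cfsg.Agent.Lib.Twisted.Mult
open Cfsg.Agent.Lib.TF4 hiding lam
open Cfsg.Agent.Lib.Chevalley.Tbl.F4 (sys comm)
open Cfsg.Agent.Lib.ChevBN.Elem Cfsg.Agent.Lib.ChevBN.Table Cfsg.Agent.Lib.ChevBN.Rel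
open Cfsg.Agent.Lib.ChevBN.Opp Cfsg.Agent.Lib.ChevBN.Torus Cfsg.Agent.Lib.ChevBN.Monomial
open Cfsg.Agent.Lib.ChevBN.Stmts Cfsg.Agent.Lib.ChevBN.Pair Cfsg.Agent.Lib.ChevBN.Perfect
open Cfsg.Agent.Lib.ChevOrder.Chev
open Cfsg.Agent.Lib.ChevBN.FastData (tbl_chevF4)
open Cfsg.Agent.Lib.ChevBN.Entries
open Cfsg.Agent.Lib.TF4.I2 (nw_mul_self nw_inv nw_conj_N0')
open Cfsg.Agent.Lib.Suzuki.Basic (Hyp Lm Tm fz fz_def)
open Cfsg.Agent.Lib.Suzuki.Struct (G Lg Tg)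
open Cfsg.Agent.Lib.Suzuki.Gen (mat mat_mul mat_one mat_Lg mat_Tg)
open scoped commutatorElement

variable {K : Type*} [Field K]

set_option quotPrecheck false in
/-- The root elements. -/
local notation "Xr" => X (sys (F := _)).toAddRel

section Rel

variable [CharP K 2]

theorem nw_Xr {r : ℕ} (hr : r < chevF4.nroots) (t : K) : nw 1 * Xr r t * (nw 1)⁻¹ = Xr (fw (lw 1) r) t :=
  prodA_conj2 (lw_lt 1) hr t

theorem nw_Ec (s t v w : K) : nw 1 * Ec s t v w * (nw 1)⁻¹ = Xr 20 s * Xr 22 t * Xr 19 v * Xr 17 w := by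
  have e1 := nw_Xr (K := K) (r := 27) (by decide +kernel) s
  have e2 := nw_Xr (K := K) (r := 25) (by decide +kernel) t
  have e3 := nw_Xr (K := K) (r := 28) (by decide +kernel) v
  have e4 := nw_Xr (K := K) (r := 30) (by decide +kernel) w
  rw [show fw (lw 1) 27 = 20 from by decide +kernel] at e1
  rw [show fw (lw 1) 25 = 22 from by decide +kernel] at e2
  rw [show fw (lw 1) 28 = 19 from by decide +kernel] at e3
  rw [show fw (lw 1) 30 = 17 from by decide +kernel] at e4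
  rw [← e1, ← e2, ← e3, ← e4, Ec]
  group

theorem Pres_four {a b c d : ℕ} (ha : a ∈ rsb) (hb : b ∈ rsb) (hc : c ∈ rsb) (hd : d ∈ rsb) (s t v w : K) :
    Pres Tb ((Xr a s * Xr b t * Xr c v * Xr d w : GL chevF4.Idx K) : Matrix chevF4.Idx chevF4.Idx K) := by
  simp only [Units.val_mul, coe_X]
  exact ((Pres_Xr ha s).mul (Pres_Xr hb t)).mul (Pres_Xr hc v) |>.mul (Pres_Xr hd w)

theorem Pres_Ec (s t v w : K) : Pres Tb ((Ec s t v w : GL chevF4.Idx K) : Matrix chevF4.Idx chevF4.Idx K) :=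
  Pres_four (by decide) (by decide) (by decide) (by decide) s t v w

theorem Pres_nEc (s t v w : K) :
    Pres Tb ((nw 1 * Ec s t v w * (nw 1)⁻¹ : GL chevF4.Idx K) : Matrix chevF4.Idx chevF4.Idx K) := by
  rw [nw_Ec]
  exact Pres_four (by decide) (by decide) (by decide) (by decide) s t v w

theorem blk_nEc (s t v w : K) :
    blk ((nw 1 * Ec s t v w * (nw 1)⁻¹ : GL chevF4.Idx K) : Matrix chevF4.Idx chevF4.Idx K) =
      Tm K * !![1, s, s * t + v, v * s + w; 0, 1, t, v; 0, 0, 1, s; 0, 0, 0, 1] * Tm K := by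
  rw [nw_Ec, blk_Ecn]

end Rel

section Main

variable [CharP K 2] [Fintype K] {φ : K →+* K} (hφ2 : ∀ t, (φ (φ t)) ^ 2 = t) {T : Tw (sys (F := K)).toAddRel}
  (hρ : T.ρ = ρ0) (hτ : ∀ r t, T.τ r t = Cfsg.Agent.Lib.TF4.lam r (φ t)) {e : ℕ} (hφ : ∀ t, φ t = t ^ e)
  {m : ℕ} (h : Hyp K m) (hφm : ∀ t, φ t = t ^ (2 ^ m))

set_option quotPrecheck false in
/-- The element `n₁`. -/
local notation "N1" => nnG hφ2 hρ hτ hφ 1

/-- The group generated by the second fundamental class and its opposite. -/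
noncomputable def Rs (hφ2 : ∀ t, (φ (φ t)) ^ 2 = t) {T : Tw (sys (F := K)).toAddRel}
    (hρ : T.ρ = ρ0) (hτ : ∀ r t, T.τ r t = Cfsg.Agent.Lib.TF4.lam r (φ t)) {e : ℕ} (hφ : ∀ t, φ t = t ^ e) :
    Subgroup ↥(twistedF4 K e) := Subgroup.closure ((XF T e 1 : Set ↥(twistedF4 K e)) ∪ (YF hφ2 hρ hτ hφ 1 : Set ↥(twistedF4 K e)))

include hφ2 hρ hτ hφ

theorem XF_Rs {x : ↥(twistedF4 K e)} (hx : x ∈ XF T e 1) : x ∈ Rs hφ2 hρ hτ hφ := Subgroup.subset_closure (Or.inl hx)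

theorem YF_Rs {x : ↥(twistedF4 K e)} (hx : x ∈ YF hφ2 hρ hτ hφ 1) : x ∈ Rs hφ2 hρ hτ hφ := Subgroup.subset_closure (Or.inr hx)

include h hφm

theorem key_Rs {g : ↥(twistedF4 K e)} (hg : g ∈ Rs hφ2 hρ hτ hφ) :
    Pres Tb (((g : GL chevF4.Idx K)) : Matrix chevF4.Idx chevF4.Idx K) ∧
    Pres Tb (((g : GL chevF4.Idx K)⁻¹ : GL chevF4.Idx K) : Matrix chevF4.Idx chevF4.Idx K) ∧
    ∃ x : G K m, mat x = blk (((g : GL chevF4.Idx K)) : Matrix chevF4.Idx chevF4.Idx K) := by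
  induction hg using Subgroup.closure_induction with
  | mem g hg =>
    rcases hg with hg | hg
    · obtain ⟨t, u, rfl⟩ := XX7_form hφ2 hρ hτ hφ hg
      refine ⟨Pres_Ec _ _ _ _, ?_, Lg h (φ t) (φ t * t + u), ?_⟩
      · have e1 : ((EE hφ t u : ↥(twistedF4 K e)) : GL chevF4.Idx K)⁻¹ = Ew φ t (u + φ t * t) := Ew_inv hφ2 t u
        rw [e1]
        exact Pres_Ec _ _ _ _
      · show Lm m (φ t) (φ t * t + u) = blk ((Ec (φ t) t (φ t * t + u) ((φ u) ^ 2) : GL chevF4.Idx K) : Matrix chevF4.Idx chevF4.Idx K)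
        rw [blk_Ec, Ec_Lm h hφm]
    · obtain ⟨x, hx, rfl⟩ := (mem_YF hφ2 hρ hτ hφ).1 hg
      obtain ⟨t, u, rfl⟩ := XX7_form hφ2 hρ hτ hφ hx
      refine ⟨Pres_nEc _ _ _ _, ?_, Tg h * Lg h (φ t) (φ t * t + u) * Tg h, ?_⟩
      · have e1 : ((N1 * EE hφ t u * N1⁻¹ : ↥(twistedF4 K e)) : GL chevF4.Idx K)⁻¹ = nw 1 * Ew φ t (u + φ t * t) * (nw 1)⁻¹ := by
          show (nw 1 * Ew φ t u * (nw 1)⁻¹)⁻¹ = _
          rw [← Ew_inv hφ2 t u]
          group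
        rw [e1]
        exact Pres_nEc _ _ _ _
      · show Tm K * Lm m (φ t) (φ t * t + u) * Tm K = blk ((nw 1 * Ec (φ t) t (φ t * t + u) ((φ u) ^ 2) * (nw 1)⁻¹ : GL chevF4.Idx K) : Matrix chevF4.Idx chevF4.Idx K)
        rw [blk_nEc, Ec_Lm h hφm]
  | one =>
    refine ⟨by simpa using Pres.one _, by simpa using Pres.one _, 1, ?_⟩
    show (1 : Matrix (Fin 4) (Fin 4) K) = _
    rw [show (((1 : ↥(twistedF4 K e)) : GL chevF4.Idx K) : Matrix chevF4.Idx chevF4.Idx K) = 1 from rfl, blk_one]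
  | mul a b _ _ ha hb =>
    obtain ⟨h1, h2, x, hx⟩ := ha
    obtain ⟨h3, h4, y, hy⟩ := hb
    refine ⟨h1.mul h3, ?_, x * y, ?_⟩
    · have e1 : (((a * b : ↥(twistedF4 K e)) : GL chevF4.Idx K)⁻¹ : GL chevF4.Idx K) = (b : GL chevF4.Idx K)⁻¹ * (a : GL chevF4.Idx K)⁻¹ := by
        show ((a : GL chevF4.Idx K) * (b : GL chevF4.Idx K))⁻¹ = _
        group
      rw [e1]
      exact h4.mul h2
    · rw [mat_mul, hx, hy, ← blk_mul h3]
      rfl
  | inv a _ ha =>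
    obtain ⟨h1, h2, x, hx⟩ := ha
    refine ⟨h2, ?_, x⁻¹, ?_⟩
    · simpa using h1
    · have e1 : (((a⁻¹ : ↥(twistedF4 K e)) : GL chevF4.Idx K) : Matrix chevF4.Idx chevF4.Idx K) =
          (((a : GL chevF4.Idx K)⁻¹ : GL chevF4.Idx K) : Matrix chevF4.Idx chevF4.Idx K) := rfl
      rw [e1]
      have e2 : blk (((a : GL chevF4.Idx K)⁻¹ : GL chevF4.Idx K) : Matrix chevF4.Idx chevF4.Idx K) * mat x = 1 := by
        rw [hx, ← blk_mul h1, ← Units.val_mul, inv_mul_cancel, Units.val_one, blk_one]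
      have e3 : mat x * mat x⁻¹ = 1 := by
        rw [← mat_mul, mul_inv_cancel, mat_one]
      calc mat x⁻¹ = (blk (((a : GL chevF4.Idx K)⁻¹ : GL chevF4.Idx K) : Matrix chevF4.Idx chevF4.Idx K) * mat x) * mat x⁻¹ := by rw [e2, one_mul]
        _ = _ := by rw [mul_assoc, e3, mul_one]

end Main

end Cfsg.Agent.Lib.TF4Mult
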