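import Cfsg.Agent.Lib.TF4Mult.Part2c
import Cfsg.Agent.Lib.TF4.I2Aut5

/-!
# `²F₄`: injectivity of the homomorphism from the second Levi subgroup to the Suzuki group
-/

set_option autoImplicit false
set_option linter.unusedSectionVars false
set_option maxRecDepth 100000

namespace Cfsg.Agent.Lib.TF4Mult

open Cfsg.Lie Cfsg.Agent.Lib.Twisted Cfsg.Agent.Lib.Twisted.Mult
open Cfsg.Agent.Lib.TF4 hiding lam
open Cfsg.Agent.Lib.Chevalley.Tbl.F4 (sys comm)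
open Cfsg.Agent.Lib.ChevBN.Elem Cfsg.Agent.Lib.ChevBN.Table Cfsg.Agent.Lib.ChevBN.Rel
open Cfsg.Agent.Lib.ChevBN.Opp Cfsg.Agent.Lib.ChevBN.Torus Cfsg.Agent.Lib.ChevBN.Monomial
open Cfsg.Agent.Lib.ChevBN.Stmts Cfsg.Agent.Lib.ChevBN.Pair Cfsg.Agent.Lib.ChevBN.Perfect
open Cfsg.Agent.Lib.ChevOrder.Chev
open Cfsg.Agent.Lib.ChevBN.FastData (tbl_chevF4)
open Cfsg.Agent.Lib.ChevBN.Entries
open Cfsg.Agent.Lib.TF4.I2 (nw_mul_self nw_inv nw_conj_N0' hh0_val hh1_val Ew_hh1 chb chb_phi phi_fix_of)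
open Cfsg.Agent.Lib.Suzuki.Basic (Hyp Lm Tm fz fz_def fz_eq_zero_iff)
open Cfsg.Agent.Lib.Suzuki.Struct (G Lg Tg Lg_mul Lg_zero Lg_inv Tg_inv Tg_sq)
open Cfsg.Agent.Lib.Suzuki.Gen (mat mat_mul mat_one mat_Lg mat_Tg entry_TLT)
open scoped commutatorElement

variable {K : Type*} [Field K]

set_option quotPrecheck false in
/-- The root elements. -/
local notation "Xr" => X (sys (F := _)).toAddRel

section Main

variable [CharP K 2] [Fintype K] {φ : K →+* K} (hφ2 : ∀ t, (φ (φ t)) ^ 2 = t) {T : Tw (sys (F := K)).toAddRel}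
  (hρ : T.ρ = ρ0) (hτ : ∀ r t, T.τ r t = Cfsg.Agent.Lib.TF4.lam r (φ t)) {e : ℕ} (hφ : ∀ t, φ t = t ^ e)
  {m : ℕ} (h : Hyp K m) (hφm : ∀ t, φ t = t ^ (2 ^ m))

set_option quotPrecheck false in
/-- The element `n_i`. -/
local notation "NG" => nnG hφ2 hρ hτ hφ

omit [CharP K 2] in
theorem mat_inj {x y : G K m} (e : mat x = mat y) : x = y := Subtype.ext (Subtype.ext e)

/-- The homomorphism to the Suzuki group. -/
noncomputable def rhoF (hφ2 : ∀ t, (φ (φ t)) ^ 2 = t) {T : Tw (sys (F := K)).toAddRel}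
    (hρ : T.ρ = ρ0) (hτ : ∀ r t, T.τ r t = Cfsg.Agent.Lib.TF4.lam r (φ t)) {e : ℕ} (hφ : ∀ t, φ t = t ^ e)
    {m : ℕ} (h : Hyp K m) (hφm : ∀ t, φ t = t ^ (2 ^ m)) : ↥(Rs hφ2 hρ hτ hφ) →* G K m :=
  MonoidHom.mk' (fun g => (key_Rs hφ2 hρ hτ hφ h hφm g.2).2.2.choose) (by
    intro a b
    apply mat_inj
    rw [mat_mul, (key_Rs hφ2 hρ hτ hφ h hφm a.2).2.2.choose_spec, (key_Rs hφ2 hρ hτ hφ h hφm b.2).2.2.choose_spec,
      (key_Rs hφ2 hρ hτ hφ h hφm (a * b).2).2.2.choose_spec, ← blk_mul (key_Rs hφ2 hρ hτ hφ h hφm b.2).1]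
    rfl)

theorem rhoF_mat (g : ↥(Rs hφ2 hρ hτ hφ)) :
    mat (rhoF hφ2 hρ hτ hφ h hφm g) = blk ((((g : ↥(twistedF4 K e)) : GL chevF4.Idx K)) : Matrix chevF4.Idx chevF4.Idx K) :=
  (key_Rs hφ2 hρ hτ hφ h hφm g.2).2.2.choose_spec

theorem rhoF_EE (t u : K) (hg : EE hφ t u ∈ Rs hφ2 hρ hτ hφ) :
    rhoF hφ2 hρ hτ hφ h hφm ⟨EE hφ t u, hg⟩ = Lg h (φ t) (φ t * t + u) := by
  apply mat_inj
  rw [rhoF_mat, mat_Lg h]
  show blk ((Ec (φ t) t (φ t * t + u) ((φ u) ^ 2) : GL chevF4.Idx K) : Matrix chevF4.Idx chevF4.Idx K) = _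
  rw [blk_Ec, Ec_Lm h hφm]

theorem rhoF_y (t u : K) (hg : NG 1 * EE hφ t u * (NG 1)⁻¹ ∈ Rs hφ2 hρ hτ hφ) :
    rhoF hφ2 hρ hτ hφ h hφm ⟨NG 1 * EE hφ t u * (NG 1)⁻¹, hg⟩ = Tg h * Lg h (φ t) (φ t * t + u) * Tg h := by
  apply mat_inj
  rw [rhoF_mat, mat_mul, mat_mul, mat_Lg h, mat_Tg h]
  show blk ((nw 1 * Ec (φ t) t (φ t * t + u) ((φ u) ^ 2) * (nw 1)⁻¹ : GL chevF4.Idx K) : Matrix chevF4.Idx chevF4.Idx K) = _
  rw [blk_nEc, Ec_Lm h hφm]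

include hφ2 hρ hτ hφ

/-- Elements of the group commute with the root element of the orthogonal root. -/
theorem Rs_comm47 {g : ↥(twistedF4 K e)} (hg : g ∈ Rs hφ2 hρ hτ hφ) (c : K) :
    (g : GL chevF4.Idx K) * Xr 47 c = Xr 47 c * (g : GL chevF4.Idx K) := by
  have hx : ∀ x ∈ XF T e 1, (x : GL chevF4.Idx K) * Xr 47 c = Xr 47 c * (x : GL chevF4.Idx K) := by
    intro x hx
    refine commute_even (S := lr 1) (S' := [47]) (by decide +kernel) (mem_XF.1 hx).1 ?_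
    exact X_mem_gen _ (by simp) c
  have hn : nw 1 * Xr 47 c * (nw 1)⁻¹ = Xr 47 c := by
    have := nw_Xr (K := K) (r := 47) (by decide +kernel) c
    rwa [show fw (lw 1) 47 = 47 from by decide +kernel] at this
  have hn' : nw 1 * Xr 47 c = Xr 47 c * nw 1 := by
    calc nw 1 * Xr 47 c = (nw 1 * Xr 47 c * (nw 1)⁻¹) * nw 1 := by group
      _ = _ := by rw [hn]
  have hn'' : (nw 1)⁻¹ * Xr 47 c = Xr 47 c * (nw 1)⁻¹ := by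
    rw [nw_inv]
    exact hn'
  induction hg using Subgroup.closure_induction with
  | mem g hg =>
    rcases hg with hg | hg
    · exact hx g hg
    · obtain ⟨x, hx1, rfl⟩ := (mem_YF hφ2 hρ hτ hφ).1 hg
      show nw 1 * (x : GL chevF4.Idx K) * (nw 1)⁻¹ * Xr 47 c = Xr 47 c * (nw 1 * (x : GL chevF4.Idx K) * (nw 1)⁻¹)
      calc nw 1 * (x : GL chevF4.Idx K) * (nw 1)⁻¹ * Xr 47 c = nw 1 * (x : GL chevF4.Idx K) * ((nw 1)⁻¹ * Xr 47 c) := by group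
        _ = nw 1 * ((x : GL chevF4.Idx K) * Xr 47 c) * (nw 1)⁻¹ := by rw [hn'']; group
        _ = (nw 1 * Xr 47 c) * (x : GL chevF4.Idx K) * (nw 1)⁻¹ := by rw [hx x hx1]; group
        _ = _ := by rw [hn']; group
  | one => simp
  | mul a b _ _ ha hb =>
    show (a : GL chevF4.Idx K) * (b : GL chevF4.Idx K) * Xr 47 c = Xr 47 c * ((a : GL chevF4.Idx K) * (b : GL chevF4.Idx K))
    rw [mul_assoc, hb, ← mul_assoc, ha, mul_assoc]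
  | inv a _ ha =>
    show (a : GL chevF4.Idx K)⁻¹ * Xr 47 c = Xr 47 c * (a : GL chevF4.Idx K)⁻¹
    calc (a : GL chevF4.Idx K)⁻¹ * Xr 47 c = (a : GL chevF4.Idx K)⁻¹ * (Xr 47 c * a) * (a : GL chevF4.Idx K)⁻¹ := by group
      _ = (a : GL chevF4.Idx K)⁻¹ * (a * Xr 47 c) * (a : GL chevF4.Idx K)⁻¹ := by rw [ha]
      _ = _ := by group

omit hφ2 hφ in
/-- A fixed torus element commuting with the orthogonal root element lies in the second torus. -/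
theorem hh1_of_comm47 {d : GL chevF4.Idx K} (hd : d ∈ chevF4.diagonalSubgroup K ⊓ T.Fx)
    (h47 : d * Xr 47 (1 : K) = Xr 47 (1 : K) * d) : ∃ β : K, β ≠ 0 ∧ d = hh φ 1 β := by
  obtain ⟨α, β, hα, hβ, rfl⟩ := H_Fx_form hρ hτ hd.1 hd.2
  have e1 : hh φ 0 α * Xr 47 (1 : K) * (hh φ 0 α)⁻¹ = Xr 47 (α * 1) :=
    hh0_val hα (by decide +kernel) (A := 0) (B := 1) (by decide +kernel) (by decide +kernel) (by simp) 1
  have e2 : hh φ 1 β * Xr 47 (1 : K) * (hh φ 1 β)⁻¹ = Xr 47 (1 * 1) :=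
    hh1_val hβ (by decide +kernel) (A := 0) (B := 0) (by decide +kernel) (by decide +kernel) (by simp) 1
  rw [one_mul] at e2
  have e3 : (hh φ 0 α * hh φ 1 β) * Xr 47 (1 : K) * (hh φ 0 α * hh φ 1 β)⁻¹ = Xr 47 (1 : K) := by
    rw [h47]
    group
  have e4 : (hh φ 0 α * hh φ 1 β) * Xr 47 (1 : K) * (hh φ 0 α * hh φ 1 β)⁻¹ = Xr 47 (α * 1) := by
    calc (hh φ 0 α * hh φ 1 β) * Xr 47 (1 : K) * (hh φ 0 α * hh φ 1 β)⁻¹
        = hh φ 0 α * (hh φ 1 β * Xr 47 (1 : K) * (hh φ 1 β)⁻¹) * (hh φ 0 α)⁻¹ := by group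
      _ = _ := by rw [e2, e1]
  rw [e4] at e3
  have e5 : α = 1 := by simpa using X_inj (K := K) (s := 47) (by decide +kernel) e3
  subst e5
  refine ⟨β, hβ, ?_⟩
  have e6 : hh φ 0 (1 : K) = 1 := by
    unfold hh
    rw [map_one, hG_one, hG_one, mul_one]
  rw [e6, one_mul]

/-- The rank one form in the group. -/
theorem rank1G (i : Fin 2) {x : ↥(twistedF4 K e)} (hx : x ∈ XF T e i) (hne : x ≠ 1) :
    ∃ x₁ ∈ XF T e i, ∃ d ∈ HH K e, ∃ x₂ ∈ XF T e i, NG i * x * (NG i)⁻¹ = x₁ * d * NG i * x₂ := by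
  have hx' := mem_XF.1 hx
  have hne' : (x : GL chevF4.Idx K) ≠ 1 := fun h1 => hne (Subtype.ext h1)
  obtain ⟨x₁, h1, d, hd, x₂, h2, e1⟩ := rank1_fix hρ hτ i hx' hne'
  have hdG := H_Fx_le hφ2 hρ hτ hφ hd
  refine ⟨⟨x₁, fund_le hφ2 hρ hτ hφ i h1⟩, mem_XF.2 h1, ⟨d, hdG⟩, Subgroup.mem_subgroupOf.2 ⟨hd.1, hdG⟩,
    ⟨x₂, fund_le hφ2 hρ hτ hφ i h2⟩, mem_XF.2 h2, Subtype.ext e1⟩

/-- The element `n_i` normalises the torus. -/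
theorem NG_HH (i : Fin 2) {d : ↥(twistedF4 K e)} (hd : d ∈ HH K e) : NG i * d * (NG i)⁻¹ ∈ HH K e :=
  Subgroup.mem_subgroupOf.2 ⟨H_norm_N sys tbl_chevF4 (nw_N i) (Subgroup.mem_subgroupOf.1 hd).1,
    (NG i * d * (NG i)⁻¹).2⟩

theorem HH_XF {d x : ↥(twistedF4 K e)} {i : Fin 2} (hd : d ∈ HH K e) (hx : x ∈ XF T e i) : d * x * d⁻¹ ∈ XF T e i :=
  HH_XX hφ2 hρ hτ hφ hd hx

/-- The Bruhat form in the rank one group. -/
def BS (hφ2 : ∀ t, (φ (φ t)) ^ 2 = t) {T : Tw (sys (F := K)).toAddRel}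
    (hρ : T.ρ = ρ0) (hτ : ∀ r t, T.τ r t = Cfsg.Agent.Lib.TF4.lam r (φ t)) {e : ℕ} (hφ : ∀ t, φ t = t ^ e)
    (g : ↥(twistedF4 K e)) : Prop :=
  (∃ x ∈ XF T e 1, ∃ d ∈ HH K e, g = x * d) ∨
    ∃ x ∈ XF T e 1, ∃ d ∈ HH K e, ∃ x' ∈ XF T e 1, g = x * d * nnG hφ2 hρ hτ hφ 1 * x'

/-- The Bruhat form is stable under the opposite class. -/
theorem BS_Y {z g : ↥(twistedF4 K e)} (hz : z ∈ YF hφ2 hρ hτ hφ 1) (hg : BS hφ2 hρ hτ hφ g) : BS hφ2 hρ hτ hφ (z * g) := by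
  obtain ⟨x₀, hx₀, rfl⟩ := (mem_YF hφ2 hρ hτ hφ).1 hz
  by_cases h0 : x₀ = 1
  · subst h0
    have : NG 1 * 1 * (NG 1)⁻¹ * g = g := by group
    rw [this]
    exact hg
  obtain ⟨x₁, h1, d₁, hd₁, x₂, h2, e1⟩ := rank1G hφ2 hρ hτ hφ 1 hx₀ h0
  have hN2 : NG 1 * NG 1 = 1 := nnG_mul_self hφ2 hρ hτ hφ 1
  rw [e1]
  rcases hg with ⟨x, hx, d, hd, rfl⟩ | ⟨x, hx, d, hd, x', hx', rfl⟩
  · -- the first case
    have hx₃ := (XF T e 1).mul_mem h2 hx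
    set x₃ := x₂ * x with hx₃d
    have hdi := HH_XF hφ2 hρ hτ hφ ((HH K e).inv_mem hd) hx₃
    rw [inv_inv] at hdi
    refine Or.inr ⟨x₁, h1, d₁ * (NG 1 * d * (NG 1)⁻¹), (HH K e).mul_mem hd₁ (NG_HH hφ2 hρ hτ hφ 1 hd),
      d⁻¹ * x₃ * d, hdi, ?_⟩
    rw [hx₃d]
    group
  · have hx₃ := (XF T e 1).mul_mem h2 hx
    by_cases h3 : x₂ * x = 1
    · -- the element goes back to the Borel subgroup
      have hd' := NG_HH hφ2 hρ hτ hφ 1 hd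
      have hdd := (HH K e).mul_mem hd₁ hd'
      refine Or.inl ⟨x₁ * ((d₁ * (NG 1 * d * (NG 1)⁻¹)) * x' * (d₁ * (NG 1 * d * (NG 1)⁻¹))⁻¹),
        (XF T e 1).mul_mem h1 (HH_XF hφ2 hρ hτ hφ hdd hx'), d₁ * (NG 1 * d * (NG 1)⁻¹), hdd, ?_⟩
      have e2 : x₁ * d₁ * NG 1 * x₂ * (x * d * NG 1 * x') = x₁ * d₁ * NG 1 * (x₂ * x) * d * NG 1 * x' := by group
      rw [e2, h3]
      calc x₁ * d₁ * NG 1 * 1 * d * NG 1 * x' = x₁ * d₁ * (NG 1 * d * (NG 1)⁻¹) * (NG 1 * NG 1) * x' := by group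
        _ = _ := by rw [hN2]; group
    · obtain ⟨x₄, h4, d₄, hd₄, x₅, h5, e3⟩ := rank1G hφ2 hρ hτ hφ 1 hx₃ h3
      have hd' := NG_HH hφ2 hρ hτ hφ 1 hd
      set d' := NG 1 * d * (NG 1)⁻¹ with hd'd
      have hx₆ := HH_XF hφ2 hρ hτ hφ ((HH K e).inv_mem hd') h5
      rw [inv_inv] at hx₆
      have hd'' := NG_HH hφ2 hρ hτ hφ 1 hd'
      have e2 : x₁ * d₁ * NG 1 * x₂ * (x * d * NG 1 * x') =
          x₁ * d₁ * (NG 1 * (x₂ * x) * (NG 1)⁻¹) * (NG 1 * d * (NG 1)⁻¹) * (NG 1 * NG 1) * x' := by group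
      refine Or.inr ⟨x₁ * (d₁ * x₄ * d₁⁻¹), (XF T e 1).mul_mem h1 (HH_XF hφ2 hρ hτ hφ hd₁ h4),
        d₁ * d₄ * (NG 1 * d' * (NG 1)⁻¹), (HH K e).mul_mem ((HH K e).mul_mem hd₁ hd₄) hd'',
        (d'⁻¹ * x₅ * d') * x', (XF T e 1).mul_mem hx₆ hx', ?_⟩
      rw [e2, e3, hN2, ← hd'd]
      group

theorem BS_X {z g : ↥(twistedF4 K e)} (hz : z ∈ XF T e 1) (hg : BS hφ2 hρ hτ hφ g) : BS hφ2 hρ hτ hφ (z * g) := by
  rcases hg with ⟨x, hx, d, hd, rfl⟩ | ⟨x, hx, d, hd, x', hx', rfl⟩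
  · exact Or.inl ⟨z * x, (XF T e 1).mul_mem hz hx, d, hd, by group⟩
  · exact Or.inr ⟨z * x, (XF T e 1).mul_mem hz hx, d, hd, x', hx', by group⟩

/-- The Bruhat form of the rank one group. -/
theorem BS_Rs {g : ↥(twistedF4 K e)} (hg : g ∈ Rs hφ2 hρ hτ hφ) : BS hφ2 hρ hτ hφ g := by
  have hone : BS hφ2 hρ hτ hφ 1 := Or.inl ⟨1, Subgroup.one_mem _, 1, Subgroup.one_mem _, by simp⟩
  refine Subgroup.closure_induction_left (p := fun g _ => BS hφ2 hρ hτ hφ g) hone ?_ ?_ hg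
  · rintro x (hx | hx) y _ hy
    · exact BS_X hφ2 hρ hτ hφ hx hy
    · exact BS_Y hφ2 hρ hτ hφ hx hy
  · rintro x (hx | hx) y _ hy
    · exact BS_X hφ2 hρ hτ hφ ((XF T e 1).inv_mem hx) hy
    · exact BS_Y hφ2 hρ hτ hφ ((YF hφ2 hρ hτ hφ 1).inv_mem hx) hy

omit hφ2 hρ hτ hφ in
include h in
theorem Lg_coord {a b c d : K} (e1 : Lg h a b = Lg h c d) : a = c ∧ b = d := by
  have e2 : Lm m a b = Lm m c d := by
    rw [← mat_Lg h, ← mat_Lg h, e1]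
  have e3 := congrFun (congrFun e2 0) 1
  have e4 := congrFun (congrFun e2 1) 3
  simp only [Lm] at e3 e4
  exact ⟨by simpa using e3, by simpa using e4⟩

include h hφm

theorem rho_X {x : ↥(twistedF4 K e)} (hx : x ∈ XF T e 1) :
    rhoF hφ2 hρ hτ hφ h hφm ⟨x, XF_Rs hφ2 hρ hτ hφ hx⟩ ∈ Cfsg.Agent.Lib.Suzuki.Sub.Usub h := by
  obtain ⟨t, u, rfl⟩ := XX7_form hφ2 hρ hτ hφ hx
  rw [rhoF_EE]
  exact ⟨_, _, rfl⟩

/-- The homomorphism to the Suzuki group is injective. -/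
theorem rhoF_inj {g : ↥(Rs hφ2 hρ hτ hφ)} (hg : rhoF hφ2 hρ hτ hφ h hφm g = 1) : g = 1 := by
  have hmul : ∀ {a b : ↥(twistedF4 K e)} (ha : a ∈ Rs hφ2 hρ hτ hφ) (hb : b ∈ Rs hφ2 hρ hτ hφ),
      rhoF hφ2 hρ hτ hφ h hφm ⟨a * b, (Rs hφ2 hρ hτ hφ).mul_mem ha hb⟩ =
        rhoF hφ2 hρ hτ hφ h hφm ⟨a, ha⟩ * rhoF hφ2 hρ hτ hφ h hφm ⟨b, hb⟩ := fun ha hb =>
    map_mul (rhoF hφ2 hρ hτ hφ h hφm) ⟨_, ha⟩ ⟨_, hb⟩
  have hinv : ∀ {a : ↥(twistedF4 K e)} (ha : a ∈ Rs hφ2 hρ hτ hφ),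
      rhoF hφ2 hρ hτ hφ h hφm ⟨a⁻¹, (Rs hφ2 hρ hτ hφ).inv_mem ha⟩ = (rhoF hφ2 hρ hτ hφ h hφm ⟨a, ha⟩)⁻¹ := fun ha =>
    map_inv (rhoF hφ2 hρ hτ hφ h hφm) ⟨_, ha⟩
  have h2 := two_zero (K := K)
  obtain ⟨g, hgR⟩ := g
  have hg' : rhoF hφ2 hρ hτ hφ h hφm ⟨g, hgR⟩ = 1 := hg
  apply Subtype.ext
  show g = 1
  have hU := Cfsg.Agent.Lib.Suzuki.Sub.Usub h
  rcases BS_Rs hφ2 hρ hτ hφ hgR with ⟨x, hx, d, hd, rfl⟩ | ⟨x, hx, d, hd, x', hx', rfl⟩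
  · have hxR := XF_Rs hφ2 hρ hτ hφ hx
    have hdR : d ∈ Rs hφ2 hρ hτ hφ := by
      have e1 : d = x⁻¹ * (x * d) := by group
      rw [e1]
      exact (Rs hφ2 hρ hτ hφ).mul_mem ((Rs hφ2 hρ hτ hφ).inv_mem hxR) hgR
    have hmu := hmul hxR hdR
    rw [hg'] at hmu
    obtain ⟨t, u, rfl⟩ := XX7_form hφ2 hρ hτ hφ hx
    rw [rhoF_EE] at hmu
    -- the torus element
    obtain ⟨β, hβ, e1⟩ := hh1_of_comm47 hρ hτ (d := (d : GL chevF4.Idx K)) (HH_Fx hφ2 hρ hτ hφ hd)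
      (Rs_comm47 hφ2 hρ hτ hφ hdR 1)
    have hLd : rhoF hφ2 hρ hτ hφ h hφm ⟨d, hdR⟩ = (Lg h (φ t) (φ t * t + u))⁻¹ := (inv_eq_of_mul_eq_one_right hmu.symm).symm
    rw [Lg_inv h] at hLd
    -- the action on the class
    have e2 : d * EE hφ (1 : K) 0 * d⁻¹ = EE hφ (chb φ β * 1) (chb φ β * φ (chb φ β) * 0) := by
      apply Subtype.ext
      show (d : GL chevF4.Idx K) * Ew φ (1 : K) 0 * (d : GL chevF4.Idx K)⁻¹ = _
      rw [e1]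
      exact Ew_hh1 hφ2 hβ 1 0
    have hE1R : EE hφ (1 : K) 0 ∈ Rs hφ2 hρ hτ hφ := XF_Rs hφ2 hρ hτ hφ (EE_mem hφ2 hρ hτ hφ 1 0)
    have hE2R : EE hφ (chb φ β * 1) (chb φ β * φ (chb φ β) * 0) ∈ Rs hφ2 hρ hτ hφ :=
      XF_Rs hφ2 hρ hτ hφ (EE_mem hφ2 hρ hτ hφ _ _)
    have e3 : EE hφ (chb φ β * 1) (chb φ β * φ (chb φ β) * 0) * d = d * EE hφ (1 : K) 0 := by
      rw [← e2]
      group
    have e4 := congrArg (fun z : ↥(twistedF4 K e) => z) e3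
    have e5 : rhoF hφ2 hρ hτ hφ h hφm ⟨EE hφ (chb φ β * 1) (chb φ β * φ (chb φ β) * 0), hE2R⟩ * rhoF hφ2 hρ hτ hφ h hφm ⟨d, hdR⟩ =
        rhoF hφ2 hρ hτ hφ h hφm ⟨d, hdR⟩ * rhoF hφ2 hρ hτ hφ h hφm ⟨EE hφ (1 : K) 0, hE1R⟩ := by
      rw [← hmul, ← hmul]
      congr 1
      exact Subtype.ext e3
    rw [hLd, rhoF_EE, rhoF_EE, Lg_mul h, Lg_mul h] at e5
    have e6 := (Lg_coord h e5).1
    have e7 : φ (chb φ β * 1) = φ 1 := by linear_combination e6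
    have e8 : chb φ β * 1 = 1 := by
      rw [map_one] at e7
      have := φ.injective (e7.trans (map_one φ).symm)
      exact this
    rw [mul_one, chb] at e8
    have hβs : (φ β) ^ 2 ≠ 0 := pow_ne_zero _ ((map_ne_zero φ).2 hβ)
    have e9 : β ^ 2 = (φ β) ^ 2 := by
      calc β ^ 2 = (φ β) ^ 2 * (((φ β) ^ 2)⁻¹ * β ^ 2) := by rw [mul_inv_cancel_left₀ hβs]
        _ = (φ β) ^ 2 := by rw [e8, mul_one]
    have e10 : β = φ β := h.sq_inj e9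
    have e11 : β = 1 := (phi_fix_of hφ2 e10.symm).resolve_left hβ
    have e12 : d = 1 := by
      apply Subtype.ext
      show (d : GL chevF4.Idx K) = 1
      rw [e1, e11]
      unfold hh
      rw [map_one, hG_one, hG_one, mul_one]
    subst e12
    rw [mul_one]
    have e13 : Lg h (φ t) (φ t * t + u) = Lg h 0 0 := by
      rw [Lg_zero h]
      have hm2 : rhoF hφ2 hρ hτ hφ h hφm ⟨1, hdR⟩ = 1 := map_one (rhoF hφ2 hρ hτ hφ h hφm)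
      rw [hm2, mul_one] at hmu
      exact hmu.symm
    obtain ⟨e14, e15⟩ := Lg_coord h e13
    have e16 : t = 0 := by
      apply φ.injective
      rw [e14, map_zero]
    subst e16
    have e17 : u = 0 := by
      simpa using e15
    subst e17
    exact EE_zero hφ
  · exfalso
    have hxR := XF_Rs hφ2 hρ hτ hφ hx
    have hxR' := XF_Rs hφ2 hρ hτ hφ hx'
    set t' := d * NG 1 with ht'
    have ht'R : t' ∈ Rs hφ2 hρ hτ hφ := by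
      have e1 : t' = x⁻¹ * (x * d * NG 1 * x') * x'⁻¹ := by
        rw [ht']
        group
      rw [e1]
      exact (Rs hφ2 hρ hτ hφ).mul_mem ((Rs hφ2 hρ hτ hφ).mul_mem ((Rs hφ2 hρ hτ hφ).inv_mem hxR) hgR)
        ((Rs hφ2 hρ hτ hφ).inv_mem hxR')
    have hρt : rhoF hφ2 hρ hτ hφ h hφm ⟨t', ht'R⟩ ∈ Cfsg.Agent.Lib.Suzuki.Sub.Usub h := by
      have e2 : rhoF hφ2 hρ hτ hφ h hφm ⟨x, hxR⟩ * rhoF hφ2 hρ hτ hφ h hφm ⟨t', ht'R⟩ * rhoF hφ2 hρ hτ hφ h hφm ⟨x', hxR'⟩ = 1 := by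
        rw [← hmul, ← hmul, ← hg']
        congr 1
        exact Subtype.ext (by
          show x * t' * x' = _
          rw [ht']
          group)
      have e3 : rhoF hφ2 hρ hτ hφ h hφm ⟨t', ht'R⟩ =
          (rhoF hφ2 hρ hτ hφ h hφm ⟨x, hxR⟩)⁻¹ * (rhoF hφ2 hρ hτ hφ h hφm ⟨x', hxR'⟩)⁻¹ := by
        rw [eq_inv_mul_iff_mul_eq, eq_inv_iff_mul_eq_one, e2]
      rw [e3]
      exact Subgroup.mul_mem _ (Subgroup.inv_mem _ (rho_X hφ2 hρ hτ hφ h hφm hx)) (Subgroup.inv_mem _ (rho_X hφ2 hρ hτ hφ h hφm hx'))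
    -- an element of the class goes to the opposite one
    have hx₀ := EE_mem hφ2 hρ hτ hφ (1 : K) 0
    have hx₀' : EE hφ (1 : K) 0 ∈ XF T e 1 := hx₀
    have hd' := NG_HH hφ2 hρ hτ hφ 1 hd
    set d' := NG 1 * d * (NG 1)⁻¹ with hd'd
    have hd'' : (NG 1)⁻¹ * d * NG 1 = d' := by
      rw [hd'd, nnG_inv]
    have hx₁ := HH_XF hφ2 hρ hτ hφ hd' hx₀'
    obtain ⟨a, b, e1⟩ := XX7_form hφ2 hρ hτ hφ hx₁
    have hne : ¬ (a = 0 ∧ b = 0) := by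
      rintro ⟨rfl, rfl⟩
      rw [EE_zero] at e1
      have e2 : EE hφ (1 : K) 0 = 1 := by
        have e3 : EE hφ (1 : K) 0 = d'⁻¹ * (d' * EE hφ (1 : K) 0 * d'⁻¹) * d' := by group
        rw [e3, e1]
        group
      have e4 := (EE_inj hφ (e2.trans (EE_zero hφ).symm)).1
      exact one_ne_zero e4
    have e2 : t' * EE hφ (1 : K) 0 * t'⁻¹ = NG 1 * EE hφ a b * (NG 1)⁻¹ := by
      have hN2 : NG 1 * NG 1 = 1 := nnG_mul_self hφ2 hρ hτ hφ 1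
      have e0 : NG 1 * d' = d * NG 1 := by
        rw [hd'd]
        calc NG 1 * (NG 1 * d * (NG 1)⁻¹) = (NG 1 * NG 1) * d * (NG 1)⁻¹ := by group
          _ = d * NG 1 := by rw [hN2, nnG_inv, one_mul]
      rw [← e1, ht']
      calc d * NG 1 * EE hφ (1 : K) 0 * (d * NG 1)⁻¹ = (NG 1 * d') * EE hφ (1 : K) 0 * (NG 1 * d')⁻¹ := by rw [e0]
        _ = _ := by group
    have hyR : NG 1 * EE hφ a b * (NG 1)⁻¹ ∈ Rs hφ2 hρ hτ hφ :=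
      YF_Rs hφ2 hρ hτ hφ ((mem_YF hφ2 hρ hτ hφ).2 ⟨_, EE_mem hφ2 hρ hτ hφ a b, rfl⟩)
    have hE1R : EE hφ (1 : K) 0 ∈ Rs hφ2 hρ hτ hφ := XF_Rs hφ2 hρ hτ hφ hx₀'
    have e3 : rhoF hφ2 hρ hτ hφ h hφm ⟨NG 1 * EE hφ a b * (NG 1)⁻¹, hyR⟩ ∈ Cfsg.Agent.Lib.Suzuki.Sub.Usub h := by
      have e4 : rhoF hφ2 hρ hτ hφ h hφm ⟨NG 1 * EE hφ a b * (NG 1)⁻¹, hyR⟩ =
          rhoF hφ2 hρ hτ hφ h hφm ⟨t', ht'R⟩ * rhoF hφ2 hρ hτ hφ h hφm ⟨EE hφ (1 : K) 0, hE1R⟩ * (rhoF hφ2 hρ hτ hφ h hφm ⟨t', ht'R⟩)⁻¹ := by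
        rw [← hinv, ← hmul, ← hmul]
        congr 1
        exact Subtype.ext e2.symm
      rw [e4]
      exact Subgroup.mul_mem _ (Subgroup.mul_mem _ hρt (rho_X hφ2 hρ hτ hφ h hφm hx₀')) (Subgroup.inv_mem _ hρt)
    rw [rhoF_y] at e3
    obtain ⟨c, f, e5⟩ := e3
    have e6 := entry_TLT h (φ a) (φ a * a + b)
    rw [e5, mat_Lg h] at e6
    have e7 : fz m (φ a) (φ a * a + b) = 0 := by
      rw [← e6]
      simp [Lm]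
    obtain ⟨e8, e9⟩ := (fz_eq_zero_iff h).1 e7
    have e10 : a = 0 := by
      apply φ.injective
      rw [e8, map_zero]
    apply hne
    refine ⟨e10, ?_⟩
    rw [e8] at e9
    simpa using e9

end Main

end Cfsg.Agent.Lib.TF4Mult
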