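import Cfsg.Agent.Lib.TF4Mult.Part2d

/-!
# `²F₄`: the preimage of the second Levi subgroup
-/

set_option autoImplicit false
set_option linter.unusedSectionVars false
set_option maxRecDepth 100000

namespace Cfsg.Agent.Lib.TF4Mult

open Cfsg Cfsg.Lie Cfsg.Agent.Lib.Twisted Cfsg.Agent.Lib.Twisted.Mult
open Cfsg.Agent.Lib.TF4 hiding lam
open Cfsg.Agent.Lib.Chevalley.Tbl.F4 (sys comm)
open Cfsg.Agent.Lib.ChevBN.Elem Cfsg.Agent.Lib.ChevBN.Table Cfsg.Agent.Lib.ChevBN.Rel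
open Cfsg.Agent.Lib.ChevBN.Opp Cfsg.Agent.Lib.ChevBN.Torus Cfsg.Agent.Lib.ChevBN.Monomial
open Cfsg.Agent.Lib.ChevBN.Stmts Cfsg.Agent.Lib.ChevBN.Pair Cfsg.Agent.Lib.ChevBN.Perfect
open Cfsg.Agent.Lib.ChevOrder.Chev
open Cfsg.Agent.Lib.ChevBN.FastData (tbl_chevF4)
open Cfsg.Agent.Lib.Suzuki.Basic (Hyp Lm Tm fz fz_def fz_eq_zero_iff)
open Cfsg.Agent.Lib.Suzuki.Struct (G Lg Tg Lg_mul Lg_zero Lg_inv Tg_inv Tg_sq)
open Cfsg.Agent.Lib.Suzuki.Gen (mat mat_mul mat_one mat_Lg mat_Tg entry_TLT)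
open scoped commutatorElement

variable {K : Type*} [Field K]

section Main

variable [CharP K 2] [Fintype K] {φ : K →+* K} (hφ2 : ∀ t, (φ (φ t)) ^ 2 = t) {T : Tw (sys (F := K)).toAddRel}
  (hρ : T.ρ = ρ0) (hτ : ∀ r t, T.τ r t = Cfsg.Agent.Lib.TF4.lam r (φ t)) {e : ℕ} (hφ : ∀ t, φ t = t ^ e)
  {m : ℕ} (h : Hyp K m) (hφm : ∀ t, φ t = t ^ (2 ^ m))
  {Γ : Type*} [Group Γ] [Finite Γ] {σ : Γ →* ↥(twistedF4 K e)} {k : ℕ} (L : PL σ 2 k)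
  (hq : ∃ n, Nat.card K = 2 ^ n)

set_option quotPrecheck false in
/-- The element `n_i`. -/
local notation "NG" => nnG hφ2 hρ hτ hφ

/-- The generators of the preimage. -/
def LhS (hφ2 : ∀ t, (φ (φ t)) ^ 2 = t) {T : Tw (sys (F := K)).toAddRel}
    (hρ : T.ρ = ρ0) (hτ : ∀ r t, T.τ r t = Cfsg.Agent.Lib.TF4.lam r (φ t)) {e : ℕ} (hφ : ∀ t, φ t = t ^ e)
    {σ : Γ →* ↥(twistedF4 K e)} {k : ℕ} (L : PL σ 2 k) : Set Γ :=
  {a | ∃ x, (x ∈ XF T e 1 ∨ x ∈ YF hφ2 hρ hτ hφ 1) ∧ a = lam L x}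

/-- The preimage. -/
noncomputable def Lh (hφ2 : ∀ t, (φ (φ t)) ^ 2 = t) {T : Tw (sys (F := K)).toAddRel}
    (hρ : T.ρ = ρ0) (hτ : ∀ r t, T.τ r t = Cfsg.Agent.Lib.TF4.lam r (φ t)) {e : ℕ} (hφ : ∀ t, φ t = t ^ e)
    {σ : Γ →* ↥(twistedF4 K e)} {k : ℕ} (L : PL σ 2 k) : Subgroup Γ :=
  Subgroup.closure (LhS hφ2 hρ hτ hφ L)

include hq in
theorem PE_gen {x : ↥(twistedF4 K e)} (hx : x ∈ XF T e 1 ∨ x ∈ YF hφ2 hρ hτ hφ 1) : PE 2 x := by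
  rcases hx with hx | hx
  · exact (cs_F hφ2 hρ hτ hφ hq).PEX hx
  · exact (cs_F hφ2 hρ hτ hφ hq).hY 1 x hx

include hq in
theorem Lh_σ {a : Γ} (ha : a ∈ Lh hφ2 hρ hτ hφ L) : σ a ∈ Rs hφ2 hρ hτ hφ := by
  induction ha using Subgroup.closure_induction with
  | mem x hx =>
    obtain ⟨y, hy, rfl⟩ := hx
    rw [σ_lam L (PE_gen hφ2 hρ hτ hφ hq hy)]
    rcases hy with hy | hy
    · exact XF_Rs hφ2 hρ hτ hφ hy
    · exact YF_Rs hφ2 hρ hτ hφ hy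
  | one => rw [map_one]; exact Subgroup.one_mem _
  | mul a b _ _ ha hb =>
    rw [map_mul]
    exact Subgroup.mul_mem _ ha hb
  | inv a _ ha =>
    rw [map_inv]
    exact Subgroup.inv_mem _ ha

/-- The map to the Suzuki group. -/
noncomputable def sF (hφ2 : ∀ t, (φ (φ t)) ^ 2 = t) {T : Tw (sys (F := K)).toAddRel}
    (hρ : T.ρ = ρ0) (hτ : ∀ r t, T.τ r t = Cfsg.Agent.Lib.TF4.lam r (φ t)) {e : ℕ} (hφ : ∀ t, φ t = t ^ e)
    {m : ℕ} (h : Hyp K m) (hφm : ∀ t, φ t = t ^ (2 ^ m))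
    {σ : Γ →* ↥(twistedF4 K e)} {k : ℕ} (L : PL σ 2 k) (hq : ∃ n, Nat.card K = 2 ^ n) :
    ↥(Lh hφ2 hρ hτ hφ L) →* G K m :=
  (rhoF hφ2 hρ hτ hφ h hφm).comp
    ((σ.comp (Lh hφ2 hρ hτ hφ L).subtype).codRestrict (Rs hφ2 hρ hτ hφ) (fun a => Lh_σ hφ2 hρ hτ hφ L hq a.2))

theorem sF_apply (a : ↥(Lh hφ2 hρ hτ hφ L)) :
    sF hφ2 hρ hτ hφ h hφm L hq a = rhoF hφ2 hρ hτ hφ h hφm ⟨σ a, Lh_σ hφ2 hρ hτ hφ L hq a.2⟩ := rfl

theorem sF_ker {a : ↥(Lh hφ2 hρ hτ hφ L)} (ha : sF hφ2 hρ hτ hφ h hφm L hq a = 1) : σ (a : Γ) = 1 := by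
  rw [sF_apply] at ha
  exact congrArg Subtype.val (rhoF_inj hφ2 hρ hτ hφ h hφm ha)

theorem sF_surj : Function.Surjective (sF hφ2 hρ hτ hφ h hφm L hq) := by
  have hφs : Function.Surjective φ := Finite.injective_iff_surjective.1 φ.injective
  have hR : ∀ x, (x ∈ XF T e 1 ∨ x ∈ YF hφ2 hρ hτ hφ 1) → ∃ a : ↥(Lh hφ2 hρ hτ hφ L), σ (a : Γ) = x := by
    intro x hx
    exact ⟨⟨lam L x, Subgroup.subset_closure ⟨x, hx, rfl⟩⟩, σ_lam L (PE_gen hφ2 hρ hτ hφ hq hx)⟩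
  have htop := Cfsg.Agent.Lib.Suzuki.Gen.eq_top_of_U_TUT h (sF hφ2 hρ hτ hφ h hφm L hq).range ?_ ?_
  · rw [MonoidHom.range_eq_top] at htop
    exact htop
  · rintro _ ⟨a, b, rfl⟩
    obtain ⟨t, rfl⟩ := hφs a
    obtain ⟨c, hc⟩ := hR (EE hφ t (φ t * t + b)) (Or.inl (EE_mem hφ2 hρ hτ hφ _ _))
    refine ⟨c, ?_⟩
    rw [sF_apply]
    have e1 : rhoF hφ2 hρ hτ hφ h hφm ⟨σ (c : Γ), Lh_σ hφ2 hρ hτ hφ L hq c.2⟩ =
        rhoF hφ2 hρ hτ hφ h hφm ⟨EE hφ t (φ t * t + b), XF_Rs hφ2 hρ hτ hφ (EE_mem hφ2 hρ hτ hφ _ _)⟩ := by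
      congr 1
      exact Subtype.ext hc
    rw [e1, rhoF_EE]
    congr 1
    have h2 := two_zero (K := K)
    linear_combination (φ t * t) * h2
  · intro b
    obtain ⟨c, hc⟩ := hR (NG 1 * EE hφ 0 b * (NG 1)⁻¹) (Or.inr ((mem_YF hφ2 hρ hτ hφ).2 ⟨_, EE_mem hφ2 hρ hτ hφ _ _, rfl⟩))
    refine ⟨c, ?_⟩
    rw [sF_apply]
    have e1 : rhoF hφ2 hρ hτ hφ h hφm ⟨σ (c : Γ), Lh_σ hφ2 hρ hτ hφ L hq c.2⟩ =
        rhoF hφ2 hρ hτ hφ h hφm ⟨NG 1 * EE hφ 0 b * (NG 1)⁻¹, YF_Rs hφ2 hρ hτ hφ ((mem_YF hφ2 hρ hτ hφ).2 ⟨_, EE_mem hφ2 hρ hτ hφ _ _, rfl⟩)⟩ := by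
      congr 1
      exact Subtype.ext hc
    rw [e1, rhoF_y]
    simp

include h hφm hq in
/-- The preimage is perfect. -/
theorem Lh_perfect : commutator ↥(Lh hφ2 hρ hτ hφ L) = ⊤ := by
  set s := sF hφ2 hρ hτ hφ h hφm L hq with hs
  have hsurj : Function.Surjective s := sF_surj hφ2 hρ hτ hφ h hφm L hq
  have htop := Cfsg.Agent.Lib.Suzuki.Gen.commutator_eq_top h
  have hmap : (commutator ↥(Lh hφ2 hρ hτ hφ L)).map s = ⊤ := by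
    rw [commutator_def, Subgroup.map_commutator, ← MonoidHom.range_eq_map, MonoidHom.range_eq_top.2 hsurj, ← commutator_def, htop]
  have hgen : ∀ g (hg : g ∈ LhS hφ2 hρ hτ hφ L), (⟨g, Subgroup.subset_closure hg⟩ : ↥(Lh hφ2 hρ hτ hφ L)) ∈ commutator ↥(Lh hφ2 hρ hτ hφ L) := by
    intro g hg
    set g' : ↥(Lh hφ2 hρ hτ hφ L) := ⟨g, Subgroup.subset_closure hg⟩ with hg'
    have hmem : s g' ∈ (commutator ↥(Lh hφ2 hρ hτ hφ L)).map s := by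
      rw [hmap]
      exact Subgroup.mem_top _
    obtain ⟨c, hc, e1⟩ := hmem
    have hk : s (c⁻¹ * g') = 1 := by
      rw [map_mul, map_inv, e1, inv_mul_cancel]
    set w := c⁻¹ * g' with hw
    have hwker : (w : Γ) ∈ σ.ker := sF_ker hφ2 hρ hτ hφ h hφm L hq hk
    have hwcen := Subgroup.mem_center_iff.mp (L.cent hwker)
    have hwc : Commute c w := by
      apply Subtype.ext
      exact hwcen _
    -- the power
    obtain ⟨y, hy, rfl⟩ := hg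
    obtain ⟨n, hn⟩ := PE_lam L (PE_gen hφ2 hρ hτ hφ hq hy)
    have hgc : g' = c * w := by
      rw [hw]
      group
    have h1 : g' ^ (2 ^ n) = 1 := Subtype.ext hn
    rw [hgc, hwc.mul_pow] at h1
    have h2 : w ^ (2 ^ n) ∈ commutator ↥(Lh hφ2 hρ hτ hφ L) := by
      have e2 : w ^ (2 ^ n) = (c ^ (2 ^ n))⁻¹ := eq_inv_of_mul_eq_one_right h1
      rw [e2]
      exact Subgroup.inv_mem _ (Subgroup.pow_mem _ hc _)
    have h3 : w ^ k = 1 := Subtype.ext (L.pow _ hwker)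
    have hcop : Nat.gcd (2 ^ n) k = 1 := Nat.Coprime.pow_left _ (Nat.Coprime.symm L.cop)
    have h4 : w = (w ^ (2 ^ n)) ^ (Nat.gcdA (2 ^ n) k) := by
      have e3 := Nat.gcd_eq_gcd_ab (2 ^ n) k
      rw [hcop] at e3
      have e4 : w = w ^ (((2 ^ n : ℕ) : ℤ) * Nat.gcdA (2 ^ n) k + (k : ℤ) * Nat.gcdB (2 ^ n) k) := by
        rw [← e3]
        simp
      rw [zpow_add, zpow_mul, zpow_mul, zpow_natCast, zpow_natCast, h3, one_zpow, mul_one] at e4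
      exact e4
    have h5 : w ∈ commutator ↥(Lh hφ2 hρ hτ hφ L) := by
      rw [h4]
      exact Subgroup.zpow_mem _ h2 _
    rw [hgc]
    exact Subgroup.mul_mem _ hc h5
  rw [eq_top_iff]
  rintro ⟨a, ha⟩ -
  induction ha using Subgroup.closure_induction with
  | mem x hx => exact hgen x hx
  | one => exact Subgroup.one_mem _
  | mul a b ha' hb' ha hb => exact Subgroup.mul_mem _ ha hb
  | inv a ha' ha => exact Subgroup.inv_mem _ ha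

include h hφm hq in
/-- The preimage of the second Levi subgroup is isomorphic to the Levi subgroup. -/
theorem Lh_inj {a : Γ} (ha : a ∈ Lh hφ2 hρ hτ hφ L) (h1 : σ a = 1) : a = 1 := by
  have : Finite ↥(Lh hφ2 hρ hτ hφ L) := inferInstance
  set s := sF hφ2 hρ hτ hφ h hφm L hq with hs
  have hstem : IsStemExtension s := by
    refine ⟨sF_surj hφ2 hρ hτ hφ h hφm L hq, ?_, ?_⟩
    · intro z hz
      have h2 : (z : Γ) ∈ σ.ker := sF_ker hφ2 hρ hτ hφ h hφm L hq hz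
      have h3 := Subgroup.mem_center_iff.mp (L.cent h2)
      refine Subgroup.mem_center_iff.mpr (fun g => Subtype.ext (h3 _))
    · rw [Lh_perfect hφ2 hρ hτ hφ h hφm L hq]
      exact le_top
  by_contra hne
  set z : ↥(Lh hφ2 hρ hτ hφ L) := ⟨a, ha⟩ with hz
  have hz1 : z ≠ 1 := fun e1 => hne (congrArg Subtype.val e1)
  have hord1 : orderOf z ≠ 1 := fun hc => hz1 (orderOf_eq_one_iff.mp hc)
  let r := (orderOf z).minFac
  have hr : r.Prime := Nat.minFac_prime hord1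
  have : Fact r.Prime := ⟨hr⟩
  have hrd : r ∣ orderOf z := Nat.minFac_dvd _
  have hpos : 0 < orderOf z := orderOf_pos z
  have hzk : z ∈ s.ker := by
    rw [MonoidHom.mem_ker, hs, sF_apply]
    have : (⟨σ ((z : ↥(Lh hφ2 hρ hτ hφ L)) : Γ), Lh_σ hφ2 hρ hτ hφ L hq z.2⟩ : ↥(Rs hφ2 hρ hτ hφ)) = 1 := Subtype.ext h1
    rw [this, map_one]
  have hz' : z ^ (orderOf z / r) ∈ s.ker := pow_mem hzk _
  have hordz' : orderOf (z ^ (orderOf z / r)) = r := orderOf_pow_orderOf_div hpos.ne' hrd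
  have hr2 : r ≠ 2 := by
    intro hc
    have h3 : z ^ k = 1 := Subtype.ext (L.pow a h1)
    have h4 := orderOf_dvd_of_pow_eq_one h3
    have h5 : 2 ∣ k := by
      rw [← hc]
      exact hrd.trans h4
    have h6 := L.cop
    have h7 := Nat.Coprime.eq_one_of_dvd (Nat.Coprime.symm h6) h5
    omega
  exact Cfsg.Agent.Lib.Suzuki.Stem.no_odd_prime h s hstem hr2 hz' hordz'

end Main

end Cfsg.Agent.Lib.TF4Mult
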