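import Cfsg.Agent.Lib.TF4Mult.Part2e

/-!
# `²F₄`: the rank one hypotheses for the Bruhat form in the extension
-/

set_option autoImplicit false
set_option linter.unusedSectionVars false
set_option maxRecDepth 100000

namespace Cfsg.Agent.Lib.TF4Mult

open Cfsg Cfsg.Lie Cfsg.Agent.Lib.Twisted Cfsg.Agent.Lib.Twisted.Mult
open Cfsg.Agent.Lib.TF4 hiding lam
open Cfsg.Agent.Lib.Chevalley.Tbl.F4 (sys comm)
open Cfsg.Agent.Lib.ChevBN.Elem Cfsg.Agent.Lib.ChevBN.Table Cfsg.Agent.Lib.ChevBN.Rel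
open Cfsg.Agent.Lib.ChevBN.Opp Cfsg.Agent.Lib.ChevBN.Torus Cfsg.Agent.Lib.ChevBN.Monomial
open Cfsg.Agent.Lib.ChevBN.Stmts Cfsg.Agent.Lib.ChevBN.Pair Cfsg.Agent.Lib.ChevBN.Perfect
open Cfsg.Agent.Lib.ChevOrder.Chev
open Cfsg.Agent.Lib.ChevBN.FastData (tbl_chevF4)
open Cfsg.Agent.Lib.Suzuki.Basic (Hyp)
open scoped commutatorElement

variable {K : Type*} [Field K]

set_option quotPrecheck false in
/-- The root elements. -/
local notation "Xr" => X (sys (F := _)).toAddRel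

section Main

variable [CharP K 2] [Fintype K] {φ : K →+* K} (hφ2 : ∀ t, (φ (φ t)) ^ 2 = t) {T : Tw (sys (F := K)).toAddRel}
  (hρ : T.ρ = ρ0) (hτ : ∀ r t, T.τ r t = Cfsg.Agent.Lib.TF4.lam r (φ t)) {e : ℕ} (hφ : ∀ t, φ t = t ^ e)
  {m : ℕ} (h : Hyp K m) (hφm : ∀ t, φ t = t ^ (2 ^ m))
  {Γ : Type*} [Group Γ] [Finite Γ] {σ : Γ →* ↥(twistedF4 K e)} {k : ℕ} (L : PL σ 2 k)
  (hq : ∃ n, Nat.card K = 2 ^ n)

set_option quotPrecheck false in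
/-- The element `n_i`. -/
local notation "NG" => nnG hφ2 hρ hτ hφ

include hφ2 hρ hτ hφ

omit [CharP K 2] in
theorem HH_NN {d : ↥(twistedF4 K e)} (hd : d ∈ HH K e) : d ∈ NN K e :=
  Subgroup.mem_subgroupOf.2 ⟨H_le_N sys (Subgroup.mem_subgroupOf.1 hd).1, d.2⟩

theorem NG_NN (i : Fin 2) : NG i ∈ NN K e := Subgroup.mem_subgroupOf.2 ⟨nw_N i, (NG i).2⟩

/-- An involution of the opposite class is conjugate to the monomial element. -/
theorem inv_case {i : Fin 2} {y x₁ x₂ d : ↥(twistedF4 K e)} (hx₁ : x₁ ∈ XF T e i) (hx₂ : x₂ ∈ XF T e i) (hd : d ∈ HH K e)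
    (hy : y = x₁ * d * NG i * x₂) (hy2 : y * y = 1) : x₂ * x₁ = 1 := by
  set t := d * NG i with ht
  set w := x₂ * x₁ with hw
  have hN2 : NG i * NG i = 1 := nnG_mul_self hφ2 hρ hτ hφ i
  have e1 : t * w * t = w⁻¹ := by
    have e2 : x₁ * (t * w * t) * x₂ = 1 := by
      rw [← hy2, hy, ht, hw]
      group
    have e3 : t * w * t = x₁⁻¹ * (x₁ * (t * w * t) * x₂) * x₂⁻¹ := by group
    rw [e3, e2, hw]
    group
  have hd' := NG_HH hφ2 hρ hτ hφ i hd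
  have ht2 : t * t = d * (NG i * d * (NG i)⁻¹) := by
    have e4 : t * t = d * (NG i * d * (NG i)⁻¹) * (NG i * NG i) := by
      rw [ht]
      group
    rw [e4, hN2, mul_one]
  have hwU : w ∈ XF T e i := (XF T e i).mul_mem hx₂ hx₁
  -- the conjugate lies both in `B` and in `V`
  have e5 : t * w * t⁻¹ = w⁻¹ * (t * t)⁻¹ := by
    have : t * w * t⁻¹ = (t * w * t) * (t * t)⁻¹ := by group
    rw [this, e1]
  have hV : ((t * w * t⁻¹ : ↥(twistedF4 K e)) : GL chevF4.Idx K) ∈ chevF4.negUnipotent K := by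
    have h1 := nw_V i (mem_XF.1 hwU).1
    have h2 : ((t * w * t⁻¹ : ↥(twistedF4 K e)) : GL chevF4.Idx K) =
        (d : GL chevF4.Idx K) * (nw i * (w : GL chevF4.Idx K) * (nw i)⁻¹) * (d : GL chevF4.Idx K)⁻¹ := by
      rw [ht]
      show (d : GL chevF4.Idx K) * nw i * (w : GL chevF4.Idx K) * ((d : GL chevF4.Idx K) * nw i)⁻¹ = _
      group
    rw [h2]
    exact H_norm_V sys tbl_chevF4 (Subgroup.mem_subgroupOf.1 hd).1 h1
  have hB : ((t * w * t⁻¹ : ↥(twistedF4 K e)) : GL chevF4.Idx K) ∈ chevF4.borelSubgroup K := by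
    rw [e5]
    have h3 : ((w : ↥(twistedF4 K e)) : GL chevF4.Idx K) ∈ chevF4.borelSubgroup K := U_le_B sys tbl_chevF4 (lr_le_U i (mem_XF.1 hwU).1)
    have h4 : ((t * t : ↥(twistedF4 K e)) : GL chevF4.Idx K) ∈ chevF4.borelSubgroup K := by
      rw [ht2]
      exact H_le_B sys tbl_chevF4 (Subgroup.mem_subgroupOf.1 ((HH K e).mul_mem hd hd')).1
    exact Subgroup.mul_mem _ (Subgroup.inv_mem _ h3) (Subgroup.inv_mem _ h4)
  have hbot : ((t * w * t⁻¹ : ↥(twistedF4 K e)) : GL chevF4.Idx K) ∈ chevF4.borelSubgroup K ⊓ chevF4.negUnipotent K := ⟨hB, hV⟩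
  rw [B_inf_V sys tbl_chevF4, Subgroup.mem_bot] at hbot
  have e6 : t * w * t⁻¹ = 1 := Subtype.ext hbot
  have e7 : w = t⁻¹ * (t * w * t⁻¹) * t := by group
  rw [e7, e6]
  group

include hq

/-- The elements of the opposite fundamental classes give monomial elements, the case of involutions. -/
theorem R1_inv {i : Fin 2} {y x₁ x₂ d : ↥(twistedF4 K e)} (hx₁ : x₁ ∈ XF T e i) (hx₂ : x₂ ∈ XF T e i) (hd : d ∈ HH K e)
    (hyY : y ∈ YF hφ2 hρ hτ hφ i) (hy : y = x₁ * d * NG i * x₂) (hy2 : y * y = 1) :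
    PE 2 (lam L x₁⁻¹ * lam L y * lam L x₂⁻¹) := by
  have D := cs_F hφ2 hρ hτ hφ hq
  have e1 := inv_case hφ2 hρ hτ hφ hx₁ hx₂ hd hy hy2
  have e2 : x₂⁻¹ = x₁ := (inv_eq_of_mul_eq_one_right e1)
  rw [e2, lam_inv L (D.PEX hx₁)]
  have h6 := (PE_lam L (D.hY i y hyY)).conj (lam L x₁)⁻¹
  rwa [inv_inv] at h6

include h hφm

/-- The elements of the opposite second fundamental class give monomial elements. -/
theorem R1_one {y x₁ x₂ d : ↥(twistedF4 K e)} (hx₁ : x₁ ∈ XF T e 1) (hx₂ : x₂ ∈ XF T e 1) (hd : d ∈ HH K e)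
    (hyY : y ∈ YF hφ2 hρ hτ hφ 1) (hy : y = x₁ * d * NG 1 * x₂) :
    PE 2 (lam L x₁⁻¹ * lam L y * lam L x₂⁻¹) := by
  have D := cs_F hφ2 hρ hτ hφ hq
  set a := lam L x₁⁻¹ * lam L y * lam L x₂⁻¹ with ha
  have hgen : ∀ x, (x ∈ XF T e 1 ∨ x ∈ YF hφ2 hρ hτ hφ 1) → lam L x ∈ Lh hφ2 hρ hτ hφ L := fun x hx =>
    Subgroup.subset_closure ⟨x, hx, rfl⟩
  have haL : a ∈ Lh hφ2 hρ hτ hφ L := Subgroup.mul_mem _ (Subgroup.mul_mem _ (hgen _ (Or.inl ((XF T e 1).inv_mem hx₁)))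
    (hgen _ (Or.inr hyY))) (hgen _ (Or.inl ((XF T e 1).inv_mem hx₂)))
  have hσ : σ a = d * NG 1 := by
    rw [ha, map_mul, map_mul, σ_lam L (D.PEX ((XF T e 1).inv_mem hx₁)), σ_lam L (D.hY 1 y hyY),
      σ_lam L (D.PEX ((XF T e 1).inv_mem hx₂)), hy]
    group
  have hR := Lh_σ hφ2 hρ hτ hφ L hq haL
  rw [hσ] at hR
  have h47 := Rs_comm47 hφ2 hρ hτ hφ hR (1 : K)
  have hn : nw 1 * Xr 47 (1 : K) * (nw 1)⁻¹ = Xr 47 (1 : K) := by
    have := nw_Xr (K := K) (r := 47) (by decide +kernel) 1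
    rwa [show fw (lw 1) 47 = 47 from by decide +kernel] at this
  have hn' : nw 1 * Xr 47 (1 : K) = Xr 47 (1 : K) * nw 1 := by
    calc nw 1 * Xr 47 (1 : K) = (nw 1 * Xr 47 (1 : K) * (nw 1)⁻¹) * nw 1 := by group
      _ = _ := by rw [hn]
  have hd47 : (d : GL chevF4.Idx K) * Xr 47 (1 : K) = Xr 47 (1 : K) * (d : GL chevF4.Idx K) := by
    have e1 : (d : GL chevF4.Idx K) * nw 1 * Xr 47 (1 : K) = Xr 47 (1 : K) * ((d : GL chevF4.Idx K) * nw 1) := h47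
    have e2 : ((d : GL chevF4.Idx K) * Xr 47 (1 : K)) * nw 1 = (Xr 47 (1 : K) * (d : GL chevF4.Idx K)) * nw 1 := by
      calc ((d : GL chevF4.Idx K) * Xr 47 (1 : K)) * nw 1 = (d : GL chevF4.Idx K) * (Xr 47 (1 : K) * nw 1) := by group
        _ = (d : GL chevF4.Idx K) * (nw 1 * Xr 47 (1 : K)) := by rw [hn']
        _ = (d : GL chevF4.Idx K) * nw 1 * Xr 47 (1 : K) := by group
        _ = _ := by rw [e1]; group
    exact mul_right_cancel e2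
  obtain ⟨β, hβ, e3⟩ := hh1_of_comm47 hρ hτ (HH_Fx hφ2 hρ hτ hφ hd) hd47
  have e4 : (d * NG 1) * (d * NG 1) = 1 := by
    apply Subtype.ext
    show (d : GL chevF4.Idx K) * nw 1 * ((d : GL chevF4.Idx K) * nw 1) = 1
    rw [e3]
    have e5 := hh_conj (φ := φ) 1 hβ
    have e6 : nw 1 * nw 1 = (1 : GL chevF4.Idx K) := Cfsg.Agent.Lib.TF4.I2.nw_mul_self 1
    calc hh φ 1 β * nw 1 * (hh φ 1 β * nw 1) = hh φ 1 β * (nw 1 * hh φ 1 β * (nw 1)⁻¹) * (nw 1 * nw 1) := by group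
      _ = 1 := by rw [e5, e6]; group
  have e7 : a * a = 1 := by
    refine Lh_inj hφ2 hρ hτ hφ h hφm L hq (Subgroup.mul_mem _ haL haL) ?_
    rw [map_mul, hσ, e4]
  exact ⟨1, by rw [pow_one, pow_two, e7]⟩

omit h hφm hq in
theorem XF0_sq {x : ↥(twistedF4 K e)} (hx : x ∈ XF T e 0) : x * x = 1 := by
  have hx' : x ∈ XX T e 0 := hx
  obtain ⟨t, ht⟩ := Pw_of_fix hφ2 hρ hτ (x := (x : GL chevF4.Idx K)) ⟨(mem_XX.1 hx').1, (mem_XX.1 hx').2⟩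
  apply Subtype.ext
  show (x : GL chevF4.Idx K) * (x : GL chevF4.Idx K) = 1
  rw [ht]
  nth_rewrite 1 [← Pw_inv (φ := φ) t]
  exact inv_mul_cancel _

/-- The strong form of the first rank one hypothesis. -/
theorem R1s (i : Fin 2) {y : ↥(twistedF4 K e)} (hy : y ∈ YF hφ2 hρ hτ hφ i) (hy1 : y ≠ 1) :
    ∃ x₁ ∈ XF T e i, ∃ x₂ ∈ XF T e i, lam L x₁ * lam L y * lam L x₂ ∈ CS.Mh (NN K e) σ ∧
      ∃ d ∈ HH K e, σ (lam L x₁ * lam L y * lam L x₂) = d * NG i := by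
  have D := cs_F hφ2 hρ hτ hφ hq
  obtain ⟨x, hx, rfl⟩ := (mem_YF hφ2 hρ hτ hφ).1 hy
  have hx1 : x ≠ 1 := by
    rintro rfl
    apply hy1
    group
  obtain ⟨x₁, h1, d, hd, x₂, h2, e1⟩ := rank1G hφ2 hρ hτ hφ i hx hx1
  have hPE : PE 2 (lam L x₁⁻¹ * lam L (NG i * x * (NG i)⁻¹) * lam L x₂⁻¹) := by
    match i with
    | 0 =>
      refine R1_inv hφ2 hρ hτ hφ L hq h1 h2 hd hy e1 ?_
      have e2 := XF0_sq hφ2 hρ hτ hφ hx
      calc NG 0 * x * (NG 0)⁻¹ * (NG 0 * x * (NG 0)⁻¹) = NG 0 * (x * x) * (NG 0)⁻¹ := by group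
        _ = 1 := by rw [e2]; group
    | 1 => exact R1_one hφ2 hρ hτ hφ h hφm L hq h1 h2 hd hy e1
  have hσ : σ (lam L x₁⁻¹ * lam L (NG i * x * (NG i)⁻¹) * lam L x₂⁻¹) = d * NG i := by
    rw [map_mul, map_mul, σ_lam L (D.PEX ((XF T e i).inv_mem h1)), σ_lam L (D.hY i _ hy),
      σ_lam L (D.PEX ((XF T e i).inv_mem h2)), e1]
    group
  refine ⟨x₁⁻¹, (XF T e i).inv_mem h1, x₂⁻¹, (XF T e i).inv_mem h2, Subgroup.subset_closure ⟨?_, hPE⟩, d, hd, hσ⟩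
  rw [hσ]
  exact (NN K e).mul_mem (HH_NN hφ2 hρ hτ hφ hd) (NG_NN hφ2 hρ hτ hφ i)

/-- The first rank one hypothesis. -/
theorem R1F : CS.R1 L (NN K e) (XF T e) (YF hφ2 hρ hτ hφ) := by
  intro i y hy hy1
  obtain ⟨x₁, h1, x₂, h2, h3, -⟩ := R1s hφ2 hρ hτ hφ h hφm L hq i hy hy1
  exact ⟨x₁, h1, x₂, h2, h3⟩

/-- The second rank one hypothesis. -/
theorem R2F : CS.R2 L (NN K e) (XF T e) (YF hφ2 hρ hτ hφ) := by
  intro i x hx hx1
  have D := cs_F hφ2 hρ hτ hφ hq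
  have hN2 : NG i * NG i = 1 := nnG_mul_self hφ2 hρ hτ hφ i
  have hNi : (NG i)⁻¹ = NG i := nnG_inv hφ2 hρ hτ hφ i
  set y := NG i * x * (NG i)⁻¹ with hy
  have hyY : y ∈ YF hφ2 hρ hτ hφ i := (mem_YF hφ2 hρ hτ hφ).2 ⟨x, hx, rfl⟩
  have hy1 : y ≠ 1 := by
    intro h1
    apply hx1
    have e1 : x = (NG i)⁻¹ * y * NG i := by
      rw [hy]
      group
    rw [e1, h1]
    group
  obtain ⟨x₁, h1, x₂, h2, h3, d, hd, e1⟩ := R1s hφ2 hρ hτ hφ h hφm L hq i hyY hy1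
  have hPN : PE 2 (NG i) := ⟨1, by rw [pow_one, pow_two, hN2]⟩
  set ν := lam L (NG i) with hν
  have hσν : σ ν = NG i := σ_lam L hPN
  have hxy : ∀ z ∈ XF T e i, NG i * z * (NG i)⁻¹ ∈ YF hφ2 hρ hτ hφ i := fun z hz =>
    (mem_YF hφ2 hρ hτ hφ).2 ⟨z, hz, rfl⟩
  have hconj : ∀ {z : ↥(twistedF4 K e)}, PE 2 z → ν * lam L z * ν⁻¹ = lam L (NG i * z * (NG i)⁻¹) := by
    intro z hz
    rw [lam_conj L hz, hσν]
  have hyy : NG i * y * (NG i)⁻¹ = x := by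
    rw [hy]
    calc NG i * (NG i * x * (NG i)⁻¹) * (NG i)⁻¹ = (NG i * NG i) * x * ((NG i)⁻¹ * (NG i)⁻¹) := by group
      _ = x := by rw [hNi, hN2]; group
  have hMh : ∀ a ∈ CS.Mh (NN K e) σ, ν * a * ν⁻¹ ∈ CS.Mh (NN K e) σ := by
    intro a ha
    induction ha using Subgroup.closure_induction with
    | mem b hb =>
      refine Subgroup.subset_closure ⟨?_, hb.2.conj _⟩
      rw [map_mul, map_mul, map_inv, hσν]
      exact (NN K e).mul_mem ((NN K e).mul_mem (NG_NN hφ2 hρ hτ hφ i) hb.1) ((NN K e).inv_mem (NG_NN hφ2 hρ hτ hφ i))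
    | one =>
      have : ν * 1 * ν⁻¹ = 1 := by group
      rw [this]
      exact Subgroup.one_mem _
    | mul a b _ _ ha hb =>
      have : ν * (a * b) * ν⁻¹ = (ν * a * ν⁻¹) * (ν * b * ν⁻¹) := by group
      rw [this]
      exact Subgroup.mul_mem _ ha hb
    | inv a _ ha =>
      have : ν * a⁻¹ * ν⁻¹ = (ν * a * ν⁻¹)⁻¹ := by group
      rw [this]
      exact Subgroup.inv_mem _ ha
  have e2 : ν * (lam L x₁ * lam L y * lam L x₂) * ν⁻¹ =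
      lam L (NG i * x₁ * (NG i)⁻¹) * lam L x * lam L (NG i * x₂ * (NG i)⁻¹) := by
    have : ν * (lam L x₁ * lam L y * lam L x₂) * ν⁻¹ =
        (ν * lam L x₁ * ν⁻¹) * (ν * lam L y * ν⁻¹) * (ν * lam L x₂ * ν⁻¹) := by group
    rw [this, hconj (D.PEX h1), hconj (D.hY i y hyY), hconj (D.PEX h2), hyy]
  refine ⟨_, hxy x₁ h1, _, hxy x₂ h2, ?_, ?_⟩
  · rw [← e2]
    exact hMh _ h3
  · intro x' hx'
    rw [← e2, map_mul, map_mul, map_inv, e1, hσν]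
    have hd' := NG_HH hφ2 hρ hτ hφ i ((HH K e).inv_mem hd)
    refine (mem_YF hφ2 hρ hτ hφ).2 ⟨_, HH_XF hφ2 hρ hτ hφ hd' hx', ?_⟩
    have hNN : (NG i)⁻¹ * (NG i)⁻¹ = 1 := by rw [hNi, hN2]
    calc NG i * (NG i * d⁻¹ * (NG i)⁻¹ * x' * (NG i * d⁻¹ * (NG i)⁻¹)⁻¹) * (NG i)⁻¹
        = (NG i * NG i) * d⁻¹ * (NG i)⁻¹ * x' * NG i * d * ((NG i)⁻¹ * (NG i)⁻¹) := by group
      _ = d⁻¹ * (NG i)⁻¹ * x' * NG i * d := by rw [hN2, hNN]; group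
      _ = _ := by group

include L in
/-- The kernel lies in the group generated by the `2`-elements of the preimage of `N`. -/
theorem ker_le_MhF (hk : σ.ker ≤ commutator Γ) : σ.ker ≤ CS.Mh (NN K e) σ :=
  (cs_F hφ2 hρ hτ hφ hq).ker_le_Mh L (R1F hφ2 hρ hτ hφ h hφm L hq) (R2F hφ2 hρ hτ hφ h hφm L hq) hk

end Main

end Cfsg.Agent.Lib.TF4Mult
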