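import Cfsg.Agent.Lib.TF4Mult.Part2f

/-!
# `²F₄`: the preimage of the torus is commutative
-/

set_option autoImplicit false
set_option linter.unusedSectionVars false
set_option maxRecDepth 100000

namespace Cfsg.Agent.Lib.TF4Mult

open Cfsg Cfsg.Lie Cfsg.Agent.Lib.Twisted Cfsg.Agent.Lib.Twisted.Mult
open Cfsg.Agent.Lib.TF4 hiding lam
open Cfsg.Agent.Lib.Chevalley.Tbl.F4 (sys comm)
open Cfsg.Agent.Lib.ChevBN.Elem Cfsg.Agent.Lib.ChevBN.Table Cfsg.Agent.Lib.ChevBN.Rel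
open Cfsg.Agent.Lib.ChevBN.Opp Cfsg.Agent.Lib.ChevBN.Torus Cfsg.Agent.Lib.ChevBN.Monomial
open Cfsg.Agent.Lib.ChevBN.Stmts Cfsg.Agent.Lib.ChevBN.Pair Cfsg.Agent.Lib.ChevBN.Perfect
open Cfsg.Agent.Lib.ChevOrder.Chev
open Cfsg.Agent.Lib.ChevBN.FastData (tbl_chevF4)
open Cfsg.Agent.Lib.TF4.I2 (hh0_val hh1_val phi_fix_of)
open scoped commutatorElement

variable {K : Type*} [Field K]

set_option quotPrecheck false in
/-- The root elements. -/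
local notation "Xr" => X (sys (F := _)).toAddRel

section Main

variable [CharP K 2] [Fintype K] {φ : K →+* K} (hφ2 : ∀ t, (φ (φ t)) ^ 2 = t) {T : Tw (sys (F := K)).toAddRel}
  (hρ : T.ρ = ρ0) (hτ : ∀ r t, T.τ r t = Cfsg.Agent.Lib.TF4.lam r (φ t)) {e : ℕ} (hφ : ∀ t, φ t = t ^ e)
  {Γ : Type*} [Group Γ] [Finite Γ] {σ : Γ →* ↥(twistedF4 K e)} {k : ℕ} (L : PL σ 2 k)

set_option quotPrecheck false in
/-- The element `n_i`. -/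
local notation "NG" => nnG hφ2 hρ hτ hφ

theorem hh_one' (j : Fin 2) : hh φ j (1 : K) = 1 := by
  unfold hh
  rw [map_one, hG_one, hG_one, mul_one]

theorem hh_inv (j : Fin 2) {α : K} (hα : α ≠ 0) : (hh φ j α)⁻¹ = hh φ j α⁻¹ := by
  rw [inv_eq_iff_mul_eq_one, hh_mul j hα (inv_ne_zero hα), mul_inv_cancel₀ hα, hh_one']

/-- The factors of the torus. -/
noncomputable def HT (φ : K →+* K) (e : ℕ) (j : Fin 2) : Subgroup ↥(twistedF4 K e) where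
  carrier := {g | ∃ α : K, α ≠ 0 ∧ (g : GL chevF4.Idx K) = hh φ j α}
  one_mem' := ⟨1, one_ne_zero, (hh_one' j).symm⟩
  mul_mem' := by
    rintro a b ⟨α, hα, e1⟩ ⟨β, hβ, e2⟩
    refine ⟨α * β, mul_ne_zero hα hβ, ?_⟩
    show (a : GL chevF4.Idx K) * (b : GL chevF4.Idx K) = _
    rw [e1, e2, hh_mul j hα hβ]
  inv_mem' := by
    rintro a ⟨α, hα, e1⟩
    refine ⟨α⁻¹, inv_ne_zero hα, ?_⟩
    show (a : GL chevF4.Idx K)⁻¹ = _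
    rw [e1, hh_inv j hα]

include hφ2 hρ hτ hφ

theorem HT_HH (j : Fin 2) : HT φ e j ≤ HH K e := by
  rintro g ⟨α, hα, e1⟩
  refine Subgroup.mem_subgroupOf.2 ⟨?_, g.2⟩
  rw [e1]
  exact hh_H j hα

include L in
/-- The preimages of a factor of the torus commute. -/
theorem HT_lift_comm (j : Fin 2) {a b : Γ} (ha : σ a ∈ HT φ e j) (hb : σ b ∈ HT φ e j) : a * b = b * a := by
  classical
  obtain ⟨γ, hγ⟩ := IsCyclic.exists_generator (α := Kˣ)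
  have hγ0 : (γ : K) ≠ 0 := γ.ne_zero
  let g : ↥(twistedF4 K e) := ⟨hh φ j (γ : K), hh_mem hφ2 hρ hτ hφ j hγ0⟩
  have hpow : ∀ n : ℕ, ((g ^ n : ↥(twistedF4 K e)) : GL chevF4.Idx K) = hh φ j ((γ : K) ^ n) := by
    intro n
    induction n with
    | zero => simpa using (hh_one' (φ := φ) j).symm
    | succ n ih =>
      rw [pow_succ, pow_succ]
      show ((g ^ n : ↥(twistedF4 K e)) : GL chevF4.Idx K) * hh φ j (γ : K) = _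
      rw [ih, hh_mul j (pow_ne_zero _ hγ0) hγ0]
  have hex : ∀ α : K, α ≠ 0 → ∃ n : ℕ, (γ : K) ^ n = α := by
    intro α hα
    have h1 := hγ (Units.mk0 α hα)
    obtain ⟨n, hn⟩ := mem_powers_iff_mem_zpowers.2 h1
    refine ⟨n, ?_⟩
    have := congrArg Units.val hn
    simpa using this
  obtain ⟨ĝ, hĝ⟩ := L.surj g
  obtain ⟨α, hα, e1⟩ := ha
  obtain ⟨β, hβ, e2⟩ := hb
  obtain ⟨p, hp⟩ := hex α hα
  obtain ⟨q, hq⟩ := hex β hβ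
  have h1 : σ (ĝ ^ p) = σ a := by
    apply Subtype.ext
    rw [map_pow, hĝ, hpow, hp, e1]
  have h2 : σ (ĝ ^ q) = σ b := by
    apply Subtype.ext
    rw [map_pow, hĝ, hpow, hq, e2]
  have h3 := comm_eq_of_eq L.cent h1 h2
  have h4 : ⁅ĝ ^ p, ĝ ^ q⁆ = 1 := by
    rw [commutatorElement_eq_one_iff_mul_comm]
    exact ((Commute.refl ĝ).pow_pow p q).eq
  rw [h4] at h3
  exact commutatorElement_eq_one_iff_mul_comm.1 h3

/-- The reflection on the second factor of the torus. -/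
theorem HT_n1 {y : ↥(twistedF4 K e)} (hy : y ∈ HT φ e 1) : NG 0 * y * (NG 0)⁻¹ * y⁻¹ ∈ HT φ e 0 := by
  obtain ⟨β, hβ, e1⟩ := id hy
  have hyH := HT_HH hφ2 hρ hτ hφ 1 hy
  have hdH : NG 0 * y * (NG 0)⁻¹ * y⁻¹ ∈ HH K e :=
    (HH K e).mul_mem (NG_HH hφ2 hρ hτ hφ 0 hyH) ((HH K e).inv_mem hyH)
  have hFx := HH_Fx hφ2 hρ hτ hφ hdH
  obtain ⟨α, β', hα, hβ', e2⟩ := H_Fx_form hρ hτ hFx.1 hFx.2
  -- the action on a root element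
  have hn : ∀ t : K, nw 0 * Xr 8 t * (nw 0)⁻¹ = Xr 8 t := by
    intro t
    have := prodA_conj2 (K := K) (lw_lt 0) (r := 8) (by decide +kernel) t
    rwa [show (lw 0).foldr chevF4.reflectRoot 8 = 8 from by decide +kernel] at this
  have hc : ∀ t : K, hh φ 1 β * Xr 8 t * (hh φ 1 β)⁻¹ = Xr 8 ((φ β * β⁻¹) * t) := fun t =>
    hh1_val hβ (by decide +kernel) (A := 1) (B := -1) (by decide +kernel) (by decide +kernel) (by simp) t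
  have hc' : ∀ t : K, hh φ 1 β' * Xr 8 t * (hh φ 1 β')⁻¹ = Xr 8 ((φ β' * β'⁻¹) * t) := fun t =>
    hh1_val hβ' (by decide +kernel) (A := 1) (B := -1) (by decide +kernel) (by decide +kernel) (by simp) t
  have hc0 : ∀ t : K, hh φ 0 α * Xr 8 t * (hh φ 0 α)⁻¹ = Xr 8 (1 * t) := fun t =>
    hh0_val hα (by decide +kernel) (A := 0) (B := 0) (by decide +kernel) (by decide +kernel) (by simp) t
  have hχ : φ β * β⁻¹ ≠ 0 := mul_ne_zero ((map_ne_zero φ).2 hβ) (inv_ne_zero hβ)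
  have hy' : hh φ 1 β * Xr 8 ((φ β * β⁻¹)⁻¹ * (1 : K)) * (hh φ 1 β)⁻¹ = Xr 8 (1 : K) := by
    rw [hc, ← mul_assoc, mul_inv_cancel₀ hχ, one_mul]
  have e3 : (hh φ 0 α * hh φ 1 β') * Xr 8 (1 : K) * (hh φ 0 α * hh φ 1 β')⁻¹ = Xr 8 (1 : K) := by
    rw [← e2]
    show (nw 0 * (y : GL chevF4.Idx K) * (nw 0)⁻¹ * (y : GL chevF4.Idx K)⁻¹) * Xr 8 (1 : K) *
      (nw 0 * (y : GL chevF4.Idx K) * (nw 0)⁻¹ * (y : GL chevF4.Idx K)⁻¹)⁻¹ = _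
    rw [e1]
    have e4 : (hh φ 1 β)⁻¹ * Xr 8 (1 : K) * hh φ 1 β = Xr 8 ((φ β * β⁻¹)⁻¹ * (1 : K)) := by
      rw [← hy']
      group
    have e5 : (nw 0)⁻¹ * Xr 8 ((φ β * β⁻¹)⁻¹ * (1 : K)) * nw 0 = Xr 8 ((φ β * β⁻¹)⁻¹ * (1 : K)) := by
      nth_rewrite 1 [← hn ((φ β * β⁻¹)⁻¹ * (1 : K))]
      group
    calc nw 0 * hh φ 1 β * (nw 0)⁻¹ * (hh φ 1 β)⁻¹ * Xr 8 (1 : K) * (nw 0 * hh φ 1 β * (nw 0)⁻¹ * (hh φ 1 β)⁻¹)⁻¹
        = nw 0 * hh φ 1 β * ((nw 0)⁻¹ * ((hh φ 1 β)⁻¹ * Xr 8 (1 : K) * hh φ 1 β) * nw 0) * (hh φ 1 β)⁻¹ * (nw 0)⁻¹ := by group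
      _ = nw 0 * (hh φ 1 β * Xr 8 ((φ β * β⁻¹)⁻¹ * (1 : K)) * (hh φ 1 β)⁻¹) * (nw 0)⁻¹ := by rw [e4, e5]; group
      _ = Xr 8 (1 : K) := by rw [hy', hn]
  have e6 : (hh φ 0 α * hh φ 1 β') * Xr 8 (1 : K) * (hh φ 0 α * hh φ 1 β')⁻¹ = Xr 8 (1 * ((φ β' * β'⁻¹) * 1)) := by
    calc (hh φ 0 α * hh φ 1 β') * Xr 8 (1 : K) * (hh φ 0 α * hh φ 1 β')⁻¹
        = hh φ 0 α * (hh φ 1 β' * Xr 8 (1 : K) * (hh φ 1 β')⁻¹) * (hh φ 0 α)⁻¹ := by group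
      _ = _ := by rw [hc', hc0]
  rw [e6] at e3
  have e7 := X_inj (K := K) (s := 8) (by decide +kernel) e3
  have e8 : φ β' = β' := by
    have : φ β' * β'⁻¹ = 1 := by simpa using e7
    field_simp at this
    exact this
  have e9 : β' = 1 := (phi_fix_of hφ2 e8).resolve_left hβ'
  refine ⟨α, hα, ?_⟩
  rw [e2, e9, hh_one', mul_one]

include L in
/-- The preimage of the torus is commutative. -/
theorem hab_H {a b : Γ} (ha : σ a ∈ HH K e) (hb : σ b ∈ HH K e) : a * b = b * a := by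
  refine hab_of_refl L (H := HH K e) (H₀ := HT φ e 0) (H₁ := HT φ e 1) (n := NG 0) (fun x hx y hy => HH_comm hx hy)
    (HT_HH hφ2 hρ hτ hφ 0) (HT_HH hφ2 hρ hτ hφ 1) (fun a b ha hb => HT_lift_comm hφ2 hρ hτ hφ L 0 ha hb)
    (fun a b ha hb => HT_lift_comm hφ2 hρ hτ hφ L 1 ha hb) ?_ (fun y hy => HT_n1 hφ2 hρ hτ hφ hy) ?_ ha hb
  · rintro x ⟨α, hα, e1⟩
    apply Subtype.ext
    show nw 0 * (x : GL chevF4.Idx K) * (nw 0)⁻¹ = (x : GL chevF4.Idx K)⁻¹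
    rw [e1]
    exact hh_conj 0 hα
  · intro h hh
    have hFx := HH_Fx hφ2 hρ hτ hφ hh
    obtain ⟨α, β, hα, hβ, e1⟩ := H_Fx_form hρ hτ hFx.1 hFx.2
    refine ⟨⟨_, hh_mem hφ2 hρ hτ hφ 0 hα⟩, ⟨α, hα, rfl⟩, ⟨_, hh_mem hφ2 hρ hτ hφ 1 hβ⟩, ⟨β, hβ, rfl⟩, Subtype.ext e1⟩

end Main

end Cfsg.Agent.Lib.TF4Mult
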