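import Cfsg.Agent.Lib.TF4Mult.Part2g
import Cfsg.Agent.Lib.TF4.Fund

/-!
# `²F₄`: the kernel of a stem extension is trivial
-/

set_option autoImplicit false
set_option linter.unusedSectionVars false
set_option maxRecDepth 100000

namespace Cfsg.Agent.Lib.TF4Mult

open Cfsg Cfsg.Lie Cfsg.Agent.Lib.Twisted Cfsg.Agent.Lib.Twisted.Mult
open Cfsg.Agent.Lib.TF4 hiding lam
open Cfsg.Agent.Lib.Chevalley.Tbl.F4 (sys comm)
open Cfsg.Agent.Lib.ChevBN.Elem Cfsg.Agent.Lib.ChevBN.Table Cfsg.Agent.Lib.ChevBN.Rel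
open Cfsg.Agent.Lib.ChevBN.Opp Cfsg.Agent.Lib.ChevBN.Torus Cfsg.Agent.Lib.ChevBN.Monomial
open Cfsg.Agent.Lib.ChevBN.Stmts Cfsg.Agent.Lib.ChevBN.Pair Cfsg.Agent.Lib.ChevBN.Perfect
open Cfsg.Agent.Lib.ChevOrder.Chev
open Cfsg.Agent.Lib.ChevBN.FastData (tbl_chevF4)
open Cfsg.Agent.Lib.Suzuki.Basic (Hyp)
open scoped commutatorElement

variable {K : Type*} [Field K]

section Main

variable [CharP K 2] [Fintype K] {φ : K →+* K} (hφ2 : ∀ t, (φ (φ t)) ^ 2 = t) {T : Tw (sys (F := K)).toAddRel}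
  (hρ : T.ρ = ρ0) (hτ : ∀ r t, T.τ r t = Cfsg.Agent.Lib.TF4.lam r (φ t)) {e : ℕ} (hφ : ∀ t, φ t = t ^ e)

include hφ2 hρ hτ hφ

/-- The index of the torus in the monomial group. -/
theorem idx_HH : ∃ n, ((HH K e).subgroupOf (NN K e)).index = 2 ^ n := by
  obtain ⟨P, hB, hN, hS⟩ := exists_pair hφ2 hρ hτ hφ
  have hS' : P.S = {g : ↥(twistedF4 K e) | (g : GL chevF4.Idx K) ∈ Set.range (nw (K := K))} := hS
  obtain ⟨f, hf, hk⟩ := exists_N_hom_D (nw_mem hφ2 hρ hτ hφ) hB hN hS'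
  let E : ↥(NN K e) ≃* ↥(chevF4.monomialSubgroup K ⊓ twistedF4 K e) := Subgroup.subgroupOfEquivOfLe inf_le_right
  let f' : ↥(NN K e) →* DihedralGroup 8 := f.comp E.toMonoidHom
  have hf' : Function.Surjective f' := hf.comp E.surjective
  have hker : f'.ker = (HH K e).subgroupOf (NN K e) := by
    ext x
    have e1 : x ∈ f'.ker ↔ E x ∈ f.ker := Iff.rfl
    rw [e1, hk]
    constructor
    · intro h1
      have h2 := Subgroup.mem_subgroupOf.1 h1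
      exact Subgroup.mem_subgroupOf.2 (Subgroup.mem_subgroupOf.2 h2)
    · intro h1
      have h2 := Subgroup.mem_subgroupOf.1 h1
      exact Subgroup.mem_subgroupOf.2 (Subgroup.mem_subgroupOf.1 h2)
  refine ⟨4, ?_⟩
  rw [← hker, Subgroup.index_ker, MonoidHom.range_eq_top.2 hf']
  rw [Nat.card_congr Subgroup.topEquiv.toEquiv, DihedralGroup.nat_card]
  norm_num

/-- The exponent of the torus. -/
theorem HH_pow {h : ↥(twistedF4 K e)} (hd : h ∈ HH K e) : h ^ (Nat.card K - 1) = 1 := by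
  have hFx := HH_Fx hφ2 hρ hτ hφ hd
  obtain ⟨α, β, hα, hβ, e1⟩ := H_Fx_form hρ hτ hFx.1 hFx.2
  apply Subtype.ext
  have hpow : ∀ (j : Fin 2) {α : K}, α ≠ 0 → ∀ n : ℕ, (hh φ j α) ^ n = hh φ j (α ^ n) := by
    intro j α hα n
    induction n with
    | zero => simpa using (hh_one' (φ := φ) j).symm
    | succ n ih => rw [pow_succ, ih, hh_mul j (pow_ne_zero _ hα) hα, pow_succ]
  have hcard : ∀ {α : K}, α ≠ 0 → α ^ (Nat.card K - 1) = 1 := by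
    intro α hα
    rw [Nat.card_eq_fintype_card]
    exact FiniteField.pow_card_sub_one_eq_one α hα
  show (h : GL chevF4.Idx K) ^ (Nat.card K - 1) = 1
  have hcomm : Commute (hh φ 0 α) (hh φ 1 β) := H_comm' (hh_H 0 hα) (hh_H 1 hβ)
  rw [e1, hcomm.mul_pow, hpow 0 hα, hpow 1 hβ, hcard hα, hcard hβ, hh_one', hh_one', mul_one]

/-- The Borel decomposition. -/
theorem BB_dec {b : ↥(twistedF4 K e)} (hb : b ∈ (chevF4.borelSubgroup K ⊓ twistedF4 K e).subgroupOf (twistedF4 K e)) :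
    ∃ u ∈ UU K e, ∃ h ∈ HH K e, b = u * h := by
  have hb' := (Subgroup.mem_subgroupOf.1 hb).1
  obtain ⟨u, hu, h, hd, e1⟩ := (mem_B_iff sys tbl_chevF4).1 hb'
  obtain ⟨h1, h2⟩ := T.fix_split (Tw.U_le_group (sys (F := K)).toAddRel) (H_le_G sys tbl_chevF4) (fun a ha => T.s_U ha)
    (fun a ha => s_H sys tbl_chevF4 T ha) (U_inf_H sys tbl_chevF4) hu hd (by
      rw [← e1]
      exact G1_le_Fx hφ2 hρ hτ hφ b.2)
  have huG : u ∈ twistedF4 K e := U_Fx_le hφ2 hρ hτ hφ ⟨hu, h1⟩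
  have hhG : h ∈ twistedF4 K e := H_Fx_le hφ2 hρ hτ hφ ⟨hd, h2⟩
  exact ⟨⟨u, huG⟩, Subgroup.mem_subgroupOf.2 ⟨hu, huG⟩, ⟨h, hhG⟩, Subgroup.mem_subgroupOf.2 ⟨hd, hhG⟩, Subtype.ext e1⟩

/-- The Borel subgroup normalises the unipotent subgroup. -/
theorem BB_norm {b u : ↥(twistedF4 K e)} (hb : b ∈ (chevF4.borelSubgroup K ⊓ twistedF4 K e).subgroupOf (twistedF4 K e))
    (hu : u ∈ UU K e) : b * u * b⁻¹ ∈ UU K e := by
  obtain ⟨u₀, hu₀, h, hd, rfl⟩ := BB_dec hφ2 hρ hτ hφ hb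
  have h1 : h * u * h⁻¹ ∈ UU K e := Subgroup.mem_subgroupOf.2
    ⟨H_norm_U sys tbl_chevF4 (Subgroup.mem_subgroupOf.1 hd).1 (Subgroup.mem_subgroupOf.1 hu).1, (h * u * h⁻¹).2⟩
  have e1 : u₀ * h * u * (u₀ * h)⁻¹ = u₀ * (h * u * h⁻¹) * u₀⁻¹ := by group
  rw [e1]
  exact (UU K e).mul_mem ((UU K e).mul_mem hu₀ h1) ((UU K e).inv_mem hu₀)

/-- The index of the Borel subgroup. -/
theorem idx_BB : ((chevF4.borelSubgroup K ⊓ twistedF4 K e).subgroupOf (twistedF4 K e)).index =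
    1 + Nat.card K + Nat.card K ^ 2 + 2 * Nat.card K ^ 3 + Nat.card K ^ 4 + Nat.card K ^ 5 + 2 * Nat.card K ^ 6 +
      Nat.card K ^ 7 + Nat.card K ^ 8 + 2 * Nat.card K ^ 9 + Nat.card K ^ 10 + Nat.card K ^ 11 + Nat.card K ^ 12 := by
  have h := Subgroup.card_mul_index ((chevF4.borelSubgroup K ⊓ twistedF4 K e).subgroupOf (twistedF4 K e))
  have hc : Nat.card ((chevF4.borelSubgroup K ⊓ twistedF4 K e).subgroupOf (twistedF4 K e)) = Nat.card K ^ 12 * (Nat.card K - 1) ^ 2 := by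
    rw [← card_B1' hφ2 hρ hτ hφ]
    exact Nat.card_congr (Subgroup.subgroupOfEquivOfLe inf_le_right).toEquiv
  rw [hc, card_G1 hφ2 hρ hτ hφ] at h
  have hq2 : 1 < Nat.card K := Finite.one_lt_card
  have hq0 : 0 < Nat.card K ^ 12 * (Nat.card K - 1) ^ 2 := by
    have : 0 < Nat.card K - 1 := by omega
    positivity
  exact Nat.eq_of_mul_eq_mul_left hq0 h

omit hφ2 hρ hτ hφ in
/-- The arithmetic of the two transfers. -/
theorem coprime_S {q : ℕ} (hq : Even q) (hq1 : 1 ≤ q) : Nat.Coprime (q - 1)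
    (1 + q + q ^ 2 + 2 * q ^ 3 + q ^ 4 + q ^ 5 + 2 * q ^ 6 + q ^ 7 + q ^ 8 + 2 * q ^ 9 + q ^ 10 + q ^ 11 + q ^ 12) := by
  obtain ⟨d, rfl⟩ : ∃ d, q = d + 1 := ⟨q - 1, by omega⟩
  have hodd : Odd d := by
    rcases Nat.even_or_odd d with h1 | h1
    · exact absurd hq (Nat.not_even_iff_odd.2 h1.add_one)
    · exact h1
  have e1 : 1 + (d + 1) + (d + 1) ^ 2 + 2 * (d + 1) ^ 3 + (d + 1) ^ 4 + (d + 1) ^ 5 + 2 * (d + 1) ^ 6 + (d + 1) ^ 7 + (d + 1) ^ 8 +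
      2 * (d + 1) ^ 9 + (d + 1) ^ 10 + (d + 1) ^ 11 + (d + 1) ^ 12 =
      16 + d * (96 + 340 * d + 820 * d ^ 2 + 1428 * d ^ 3 + 1848 * d ^ 4 + 1801 * d ^ 5 + 1323 * d ^ 6 + 724 * d ^ 7 + 287 * d ^ 8 +
        78 * d ^ 9 + 13 * d ^ 10 + d ^ 11) := by ring
  rw [e1, Nat.add_sub_cancel, Nat.coprime_add_mul_left_right]
  have h2 : Nat.Coprime d 2 := Nat.coprime_two_right.2 hodd
  exact Nat.Coprime.pow_right 4 h2

variable {m : ℕ} (h : Hyp K m) (hφm : ∀ t, φ t = t ^ (2 ^ m))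
  {Γ : Type*} [Group Γ] [Finite Γ] {σ : Γ →* ↥(twistedF4 K e)}

include h hφm

/-- The kernel of a stem extension is trivial. -/
theorem ker_triv (hK5 : 5 ≤ Fintype.card K) (hs : Function.Surjective σ) (hc : σ.ker ≤ Subgroup.center Γ)
    (hk : σ.ker ≤ commutator Γ) {z : Γ} (hz : z ∈ σ.ker) : z = 1 := by
  obtain ⟨β₀, hβ0, hβ1⟩ := exists_ne01 (K := K) (by omega)
  have hq : ∃ n, Nat.card K = 2 ^ n := ⟨2 * m + 1, by rw [Nat.card_eq_fintype_card, h.hF]⟩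
  have hqe : Even (Nat.card K) := by
    rw [Nat.card_eq_fintype_card, h.hF]
    exact (Nat.even_pow' (by omega)).mpr even_two
  have L := pl_U hφ2 hρ hτ hφ hs hc hK5 hβ0 hβ1 hk hqe
  have hker := ker_le_MhF hφ2 hρ hτ hφ h hφm L hq hk
  have hab : ∀ a b, σ a ∈ HH K e → σ b ∈ HH K e → a * b = b * a := fun a b ha hb => hab_H hφ2 hρ hτ hφ L ha hb
  have h1 : z ^ (Nat.card K - 1) = 1 :=
    pow_e L (N := NN K e) (H := HH K e) hab (fun _ hd => HH_pow hφ2 hρ hτ hφ hd) (idx_HH hφ2 hρ hτ hφ) hker hz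
  have h2 := pow_B L (U := UU K e) (H := HH K e) (B := (chevF4.borelSubgroup K ⊓ twistedF4 K e).subgroupOf (twistedF4 K e))
    (fun _ hu => PE_UU hφ2 hρ hτ hφ hq hu) hab (fun _ hb => BB_dec hφ2 hρ hτ hφ hb) (fun _ hb _ hu => BB_norm hφ2 hρ hτ hφ hb hu)
    (fun d hd => Subgroup.mem_subgroupOf.2 ⟨H_le_B sys tbl_chevF4 (Subgroup.mem_subgroupOf.1 hd).1, d.2⟩) hk hz
  rw [idx_BB hφ2 hρ hτ hφ] at h2
  have hcop := coprime_S hqe Nat.card_pos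
  have h3 := (pow_gcd_eq_one).2 ⟨h1, h2⟩
  rw [hcop, pow_one] at h3
  exact h3

end Main

end Cfsg.Agent.Lib.TF4Mult
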