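import Cfsg.Agent.Lib.TF4Mult.IntChain

/-!
# Sections over a group of class two, with a central subgroup whose preimage is central
-/

set_option autoImplicit false
set_option linter.unusedSectionVars false

namespace Cfsg.Agent.Lib.TF4Mult

open Cfsg.Agent.Lib.Twisted.Mult
open scoped commutatorElement

section Form

variable {Γ : Type*} [Group Γ]

/-- A biadditive form on a field invariant by all scalars vanishes. -/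
theorem form_vanish {K : Type*} [Field K] [Fintype K] (hK : 5 ≤ Fintype.card K) (z : K → K → Γ)
    (hadd1 : ∀ s s' t, z (s + s') t = z s t * z s' t) (hadd2 : ∀ s t t', z s (t + t') = z s t * z s t')
    (hinv : ∀ κ : K, κ ≠ 0 → ∀ s t, z (κ * s) (κ * t) = z s t) : ∀ s t, z s t = 1 := by
  have hred : ∀ s t, s ≠ 0 → z s t = z 1 (t / s) := by
    intro s t hs0
    have := hinv s hs0 1 (t / s)
    rw [mul_one, mul_div_cancel₀ _ hs0] at this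
    exact this
  obtain ⟨x, hx0, hx1, hx2⟩ := exists_good_elt hK
  have hφ0 : ∀ v, z 1 ((x ^ 2 + x + 1) * v) = 1 := by
    intro v
    have h1 := hadd1 1 x (x * (1 + x) * v)
    rw [hred (1 + x) _ hx1, hred x _ hx0] at h1
    have e1 : x * (1 + x) * v / (1 + x) = x * v := by field_simp
    have e2 : x * (1 + x) * v / x = (1 + x) * v := by field_simp
    rw [e1, e2] at h1
    have h2 : z 1 (x * (1 + x) * v) = z 1 ((x ^ 2 + x + 1) * v + x * v + -((1 + x) * v)) := by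
      congr 1
      ring
    have h3 : z 1 ((1 + x) * v) * z 1 (-((1 + x) * v)) = 1 := by
      rw [← hadd2]
      have : z 1 0 = 1 := by
        have h4 := hadd2 1 0 0
        rw [add_zero] at h4
        exact mul_eq_left.mp h4.symm
      rw [add_neg_cancel, this]
    rw [h2, hadd2, hadd2] at h1
    set A := z 1 ((x ^ 2 + x + 1) * v)
    set B := z 1 (x * v)
    set C := z 1 (-((1 + x) * v))
    set E := z 1 ((1 + x) * v)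
    have h5 : B = A * B * C * E := h1
    have h6 : C * E = 1 := by
      have h8 : E * C = 1 := h3
      rw [eq_inv_of_mul_eq_one_right h8, inv_mul_cancel]
    have h7 : B = A * B := by
      calc B = A * B * C * E := h5
        _ = A * B * (C * E) := by group
        _ = A * B := by rw [h6, mul_one]
    exact mul_eq_right.mp h7.symm
  have hφ : ∀ u, z 1 u = 1 := by
    intro u
    have := hφ0 (u / (x ^ 2 + x + 1))
    rwa [mul_div_cancel₀ _ hx2] at this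
  intro s t
  by_cases hs0 : s = 0
  · subst hs0
    have h4 := hadd1 0 0 t
    rw [add_zero] at h4
    exact mul_eq_left.mp h4.symm
  · rw [hred s t hs0, hφ]

end Form

section SzS

variable {Γ G : Type*} [Group Γ] [Group G] {σ : Γ →* G} {X Z : Subgroup G} {γ : Γ}

/-- The hypotheses on the group of class two, the central subgroup and the element. -/
structure SzH (σ : Γ →* G) (X Z : Subgroup G) (γ : Γ) : Prop where
  hZX : Z ≤ X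
  hn : ∀ x ∈ X, σ γ * x * (σ γ)⁻¹ ∈ X
  hnZ : ∀ z ∈ Z, σ γ * z * (σ γ)⁻¹ ∈ Z
  hZc : ∀ a b, σ a ∈ Z → σ b ∈ X → a * b = b * a
  hf : ∀ x ∈ X, σ γ * x * (σ γ)⁻¹ = x → x = 1
  hfZ : ∀ x ∈ X, σ γ * x * (σ γ)⁻¹ * x⁻¹ ∈ Z → x ∈ Z

namespace SzH

variable (S : SzH σ X Z γ)
include S

theorem hZab (a b : Γ) (ha : σ a ∈ Z) (hb : σ b ∈ Z) : a * b = b * a := S.hZc a b ha (S.hZX hb)

/-- The section over the central subgroup. -/
noncomputable def Dd : Subgroup Γ := Yg σ Z γ S.hZab S.hnZ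

theorem Dd_le {d : Γ} (hd : d ∈ S.Dd) : σ d ∈ Z := Yg_le S.hZab S.hnZ hd

theorem f_mem {b : Γ} (hb : σ b ∈ X) : σ (γ * b * γ⁻¹ * b⁻¹) ∈ X := by
  rw [map_mul, map_mul, map_mul, map_inv, map_inv]
  exact X.mul_mem (S.hn _ hb) (X.inv_mem hb)

theorem B_mem {b : Γ} (hb : σ b ∈ X) : σ (γ * b * γ⁻¹) ∈ X := by
  rw [map_mul, map_mul, map_inv]
  exact S.hn _ hb

/-- The section. -/
noncomputable def Ys (hD : ∀ a b, σ a ∈ X → σ b ∈ X → ⁅a, b⁆ ∈ S.Dd) : Subgroup Γ where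
  carrier := {g | ∃ b d, σ b ∈ X ∧ d ∈ S.Dd ∧ g = γ * b * γ⁻¹ * b⁻¹ * d}
  one_mem' := ⟨1, 1, by rw [map_one]; exact X.one_mem, Subgroup.one_mem _, by group⟩
  mul_mem' := by
    rintro _ _ ⟨b, d, hb, hd, rfl⟩ ⟨b', d', hb', hd', rfl⟩
    have hB' := S.B_mem hb'
    have hc : σ (b' * (γ * b' * γ⁻¹)⁻¹) ∈ X := by
      rw [map_mul, map_inv]
      exact X.mul_mem hb' (X.inv_mem hB')
    refine ⟨b * b', ⁅b, b' * (γ * b' * γ⁻¹)⁻¹⁆ * d * d', by rw [map_mul]; exact X.mul_mem hb hb',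
      Subgroup.mul_mem _ (Subgroup.mul_mem _ (hD _ _ hb hc) hd) hd', ?_⟩
    have h1 : d * (γ * b' * γ⁻¹ * b'⁻¹) = (γ * b' * γ⁻¹ * b'⁻¹) * d := S.hZc _ _ (S.Dd_le hd) (S.f_mem hb')
    have h2 : γ * b * γ⁻¹ * b⁻¹ * (γ * b' * γ⁻¹ * b'⁻¹) =
        γ * (b * b') * γ⁻¹ * (b * b')⁻¹ * ⁅b, b' * (γ * b' * γ⁻¹)⁻¹⁆ := by
      rw [commutatorElement_def]
      group
    calc γ * b * γ⁻¹ * b⁻¹ * d * (γ * b' * γ⁻¹ * b'⁻¹ * d')
        = γ * b * γ⁻¹ * b⁻¹ * (d * (γ * b' * γ⁻¹ * b'⁻¹)) * d' := by group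
      _ = γ * b * γ⁻¹ * b⁻¹ * ((γ * b' * γ⁻¹ * b'⁻¹) * d) * d' := by rw [h1]
      _ = (γ * b * γ⁻¹ * b⁻¹ * (γ * b' * γ⁻¹ * b'⁻¹)) * d * d' := by group
      _ = (γ * (b * b') * γ⁻¹ * (b * b')⁻¹ * ⁅b, b' * (γ * b' * γ⁻¹)⁻¹⁆) * d * d' := by rw [h2]
      _ = _ := by group
  inv_mem' := by
    rintro _ ⟨b, d, hb, hd, rfl⟩
    have hB := S.B_mem hb
    have hbi : σ b⁻¹ ∈ X := by rw [map_inv]; exact X.inv_mem hb
    refine ⟨b⁻¹, ⁅b⁻¹, γ * b * γ⁻¹⁆ * d⁻¹, hbi, Subgroup.mul_mem _ (hD _ _ hbi hB) (Subgroup.inv_mem _ hd), ?_⟩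
    have h1 : d⁻¹ * (γ * b * γ⁻¹ * b⁻¹)⁻¹ = (γ * b * γ⁻¹ * b⁻¹)⁻¹ * d⁻¹ := by
      have h3 : σ d⁻¹ ∈ Z := by rw [map_inv]; exact Z.inv_mem (S.Dd_le hd)
      have h4 : σ (γ * b * γ⁻¹ * b⁻¹)⁻¹ ∈ X := by rw [map_inv]; exact X.inv_mem (S.f_mem hb)
      exact S.hZc _ _ h3 h4
    rw [_root_.mul_inv_rev, h1, commutatorElement_def]
    group

theorem Ys_sec [Finite G] (hs : Function.Surjective σ) (hc : σ.ker ≤ Subgroup.center Γ)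
    (hD : ∀ a b, σ a ∈ X → σ b ∈ X → ⁅a, b⁆ ∈ S.Dd) : Sec σ X (S.Ys hD) where
  le := by
    rintro _ ⟨b, d, hb, hd, rfl⟩
    rw [map_mul]
    exact X.mul_mem (S.f_mem hb) (S.hZX (S.Dd_le hd))
  surj := by
    intro x hx
    obtain ⟨y, hy, e⟩ := comm_onto' S.hn S.hf x hx
    obtain ⟨b, rfl⟩ := hs y
    refine ⟨_, ⟨b, 1, hy, Subgroup.one_mem _, rfl⟩, ?_⟩
    rw [e, mul_one, map_mul, map_mul, map_mul, map_inv, map_inv]
  inj := by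
    rintro _ ⟨b, d, hb, hd, rfl⟩ h1
    have h2 : σ (γ * b * γ⁻¹ * b⁻¹) = (σ d)⁻¹ := eq_inv_of_mul_eq_one_left (by rwa [map_mul] at h1)
    have h3 : σ b ∈ Z := by
      apply S.hfZ _ hb
      have h4 : σ γ * σ b * (σ γ)⁻¹ * (σ b)⁻¹ = σ (γ * b * γ⁻¹ * b⁻¹) := by
        rw [map_mul, map_mul, map_mul, map_inv, map_inv]
      rw [h4, h2]
      exact Z.inv_mem (S.Dd_le hd)
    have h5 : γ * b * γ⁻¹ * b⁻¹ ∈ S.Dd := ⟨b, h3, rfl⟩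
    have h6 := Yg_inj (σ := σ) hc S.hZab S.hnZ (fun x hx => S.hf x (S.hZX hx)) (Subgroup.mul_mem _ h5 hd) h1
    exact h6

/-- The section is normalised by the elements commuting with the action of the element. -/
theorem Ys_conj (hc : σ.ker ≤ Subgroup.center Γ) (hD : ∀ a b, σ a ∈ X → σ b ∈ X → ⁅a, b⁆ ∈ S.Dd) {δ : Γ}
    (hδX : ∀ x ∈ X, σ δ * x * (σ δ)⁻¹ ∈ X) (hδZ : ∀ x ∈ Z, σ δ * x * (σ δ)⁻¹ ∈ Z)
    (hcomm : σ δ * σ γ = σ γ * σ δ) {g : Γ} (hg : g ∈ S.Ys hD) : δ * g * δ⁻¹ ∈ S.Ys hD := by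
  obtain ⟨b, d, hb, hd, rfl⟩ := hg
  refine ⟨δ * b * δ⁻¹, δ * d * δ⁻¹, ?_, Yg_conj σ hc S.hZab S.hnZ hδZ hcomm hd, ?_⟩
  · rw [map_mul, map_mul, map_inv]
    exact hδX _ hb
  · set z := γ⁻¹ * (δ * γ * δ⁻¹) with hz
    have hz1 : z ∈ σ.ker := by
      rw [MonoidHom.mem_ker, hz, map_mul, map_inv, map_mul, map_mul, map_inv, hcomm]
      group
    have hzc := Subgroup.mem_center_iff.mp (hc hz1)
    have e1 : δ * γ * δ⁻¹ = γ * z := by rw [hz]; group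
    have e3 : δ * γ⁻¹ * δ⁻¹ = z⁻¹ * γ⁻¹ := by
      have : δ * γ⁻¹ * δ⁻¹ = (δ * γ * δ⁻¹)⁻¹ := by group
      rw [this, e1]
      group
    set a' := δ * b * δ⁻¹ with ha'
    have e4 : δ * (γ * b * γ⁻¹ * b⁻¹ * d) * δ⁻¹ = (δ * γ * δ⁻¹) * a' * (δ * γ⁻¹ * δ⁻¹) * a'⁻¹ * (δ * d * δ⁻¹) := by
      rw [ha']
      group
    rw [e4, e1, e3]
    have e5 : γ * z * a' * (z⁻¹ * γ⁻¹) * a'⁻¹ = γ * (z * a' * z⁻¹) * γ⁻¹ * a'⁻¹ := by group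
    rw [e5, ← hzc a']
    group

section FormS

variable {K : Type*} [Field K] [Fintype K] (hK : 5 ≤ Fintype.card K) [Finite G] (hs : Function.Surjective σ)
  (hc : σ.ker ≤ Subgroup.center Γ)
  (f : K → G) (hf2 : ∀ s, f s ∈ X) (hf1 : ∀ x ∈ X, ∃ s, ∃ ζ ∈ Z, x = f s * ζ)
  (hf3 : ∀ s s', ∃ ζ ∈ Z, f (s + s') = f s * f s' * ζ)
  (hcomZ : ∀ x ∈ X, ∀ y ∈ X, ⁅x, y⁆ ∈ Z)
  (hscal : ∀ κ : K, κ ≠ 0 → ∃ h : G, (∀ x ∈ X, h * x * h⁻¹ ∈ X) ∧ (∀ z ∈ Z, h * z * h⁻¹ ∈ Z) ∧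
    h * σ γ = σ γ * h ∧ ∀ s, ∃ ζ ∈ Z, h * f s * h⁻¹ = f (κ * s) * ζ)

include hK hs hc hf2 hf1 hf3 hcomZ hscal

/-- The commutators of the preimage lie in the section over the central subgroup. -/
theorem hD_of_form : ∀ a b, σ a ∈ X → σ b ∈ X → ⁅a, b⁆ ∈ S.Dd := by
  classical
  -- the commutators depend only on the classes modulo `Z`
  have hcl : ∀ a b a' b', σ a ∈ X → σ b ∈ X → (∃ ζ ∈ Z, σ a' = σ a * ζ) → (∃ ζ ∈ Z, σ b' = σ b * ζ) →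
      ⁅a', b'⁆ = ⁅a, b⁆ := by
    rintro a b a' b' ha hb ⟨ζ, hζ, e1⟩ ⟨ζ', hζ', e2⟩
    have hw : σ (a⁻¹ * a') ∈ Z := by
      rw [map_mul, map_inv, e1]
      simpa using hζ
    have hw' : σ (b⁻¹ * b') ∈ Z := by
      rw [map_mul, map_inv, e2]
      simpa using hζ'
    have e3 : a' = a * (a⁻¹ * a') := by group
    have e4 : b' = b * (b⁻¹ * b') := by group
    set w := a⁻¹ * a' with hwd
    set w' := b⁻¹ * b' with hwd'
    rw [e3, e4]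
    have c1 : w * b = b * w := S.hZc _ _ hw hb
    have c2 : w * w' = w' * w := S.hZc _ _ hw (S.hZX hw')
    have c3 : w' * a = a * w' := S.hZc _ _ hw' ha
    have hwi : w⁻¹ * b⁻¹ = b⁻¹ * w⁻¹ := by
      calc w⁻¹ * b⁻¹ = (b * w)⁻¹ := by group
        _ = (w * b)⁻¹ := by rw [c1]
        _ = _ := by group
    simp only [commutatorElement_def]
    calc a * w * (b * w') * (a * w)⁻¹ * (b * w')⁻¹ = a * (w * b) * w' * w⁻¹ * a⁻¹ * w'⁻¹ * b⁻¹ := by group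
      _ = a * (b * w) * w' * w⁻¹ * a⁻¹ * w'⁻¹ * b⁻¹ := by rw [c1]
      _ = a * b * (w * w') * w⁻¹ * a⁻¹ * w'⁻¹ * b⁻¹ := by group
      _ = a * b * (w' * w) * w⁻¹ * a⁻¹ * w'⁻¹ * b⁻¹ := by rw [c2]
      _ = a * b * w' * a⁻¹ * w'⁻¹ * b⁻¹ := by group
      _ = a * b * (a⁻¹ * (a * w')) * a⁻¹ * w'⁻¹ * b⁻¹ := by group
      _ = a * b * (a⁻¹ * (w' * a)) * a⁻¹ * w'⁻¹ * b⁻¹ := by rw [c3]
      _ = _ := by group
  -- the central subgroup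
  have hex : ∀ z ∈ Z, ∃ d ∈ S.Dd, σ d = z := by
    intro z hz
    obtain ⟨y, hy, e⟩ := comm_onto' S.hnZ (fun x hx => S.hf x (S.hZX hx)) z hz
    obtain ⟨b, rfl⟩ := hs y
    refine ⟨_, ⟨b, hy, rfl⟩, ?_⟩
    rw [e, map_mul, map_mul, map_mul, map_inv, map_inv]
  choose! pD hpD1 hpD2 using hex
  have huniq : ∀ d ∈ S.Dd, ∀ d' ∈ S.Dd, σ d = σ d' → d = d' := by
    intro d hd d' hd' e
    have h1 := Yg_inj (σ := σ) hc S.hZab S.hnZ (fun x hx => S.hf x (S.hZX hx))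
      (Subgroup.mul_mem _ (Subgroup.inv_mem _ hd) hd') (by rw [map_mul, map_inv, e, inv_mul_cancel])
    exact inv_mul_eq_one.mp h1
  let e : Γ → Γ := fun c => (pD (σ c))⁻¹ * c
  have he_ker : ∀ c, σ c ∈ Z → e c ∈ σ.ker := by
    intro c hc'
    show (pD (σ c))⁻¹ * c ∈ σ.ker
    rw [MonoidHom.mem_ker, map_mul, map_inv, hpD2 _ hc', inv_mul_cancel]
  have he_cen : ∀ c, σ c ∈ Z → ∀ g, g * e c = e c * g := fun c hc' g =>
    Subgroup.mem_center_iff.mp (hc (he_ker c hc')) g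
  have he_mul : ∀ c c', σ c ∈ Z → σ c' ∈ Z → e (c * c') = e c * e c' := by
    intro c c' h1 h2
    have h3 : σ (c * c') ∈ Z := by
      rw [map_mul]
      exact Z.mul_mem h1 h2
    have h4 : pD (σ (c * c')) = pD (σ c) * pD (σ c') :=
      huniq _ (hpD1 _ h3) _ (Subgroup.mul_mem _ (hpD1 _ h1) (hpD1 _ h2))
        (by rw [hpD2 _ h3, map_mul, map_mul, hpD2 _ h1, hpD2 _ h2])
    show (pD (σ (c * c')))⁻¹ * (c * c') = (pD (σ c))⁻¹ * c * ((pD (σ c'))⁻¹ * c')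
    rw [h4]
    have h5 := he_cen c h1 (pD (σ c'))⁻¹
    have h5' : (pD (σ c'))⁻¹ * ((pD (σ c))⁻¹ * c) = ((pD (σ c))⁻¹ * c) * (pD (σ c'))⁻¹ := h5
    calc (pD (σ c) * pD (σ c'))⁻¹ * (c * c') = (pD (σ c'))⁻¹ * ((pD (σ c))⁻¹ * c) * c' := by group
      _ = ((pD (σ c))⁻¹ * c) * (pD (σ c'))⁻¹ * c' := by rw [h5']
      _ = _ := by group
  have he_conj : ∀ (δ c : Γ), (∀ x ∈ Z, σ δ * x * (σ δ)⁻¹ ∈ Z) → σ δ * σ γ = σ γ * σ δ → σ c ∈ Z →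
      e (δ * c * δ⁻¹) = e c := by
    intro δ c hδ hcomm h1
    have h2 : σ (δ * c * δ⁻¹) ∈ Z := by
      rw [map_mul, map_mul, map_inv]
      exact hδ _ h1
    have h3 : pD (σ (δ * c * δ⁻¹)) = δ * pD (σ c) * δ⁻¹ :=
      huniq _ (hpD1 _ h2) _ (Yg_conj σ hc S.hZab S.hnZ hδ hcomm (hpD1 _ h1))
        (by rw [hpD2 _ h2, map_mul, map_mul, map_mul, map_mul, map_inv, hpD2 _ h1])
    show (pD (σ (δ * c * δ⁻¹)))⁻¹ * (δ * c * δ⁻¹) = e c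
    rw [h3]
    have h4 : (δ * pD (σ c) * δ⁻¹)⁻¹ * (δ * c * δ⁻¹) = δ * e c * δ⁻¹ := by
      show _ = δ * ((pD (σ c))⁻¹ * c) * δ⁻¹
      group
    rw [h4, he_cen c h1 δ]
    group
  -- lifts
  choose l hl using fun s => hs (f s)
  have hlX : ∀ s, σ (l s) ∈ X := fun s => by rw [hl]; exact hf2 s
  have hcZ : ∀ a b, σ a ∈ X → σ b ∈ X → σ ⁅a, b⁆ ∈ Z := by
    intro a b ha hb
    rw [map_commutatorElement]
    exact hcomZ _ ha _ hb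
  have hcX : ∀ a b, σ a ∈ X → σ b ∈ X → σ ⁅a, b⁆ ∈ X := fun a b ha hb => S.hZX (hcZ a b ha hb)
  let z : K → K → Γ := fun s t => e ⁅l s, l t⁆
  have hadd1 : ∀ s s' t, z (s + s') t = z s t * z s' t := by
    intro s s' t
    obtain ⟨ζ, hζ, e1⟩ := hf3 s s'
    have h1 : ⁅l (s + s'), l t⁆ = ⁅l s * l s', l t⁆ := by
      refine hcl _ _ _ _ ?_ (hlX t) ⟨ζ, hζ, ?_⟩ ⟨1, Z.one_mem, by simp⟩
      · rw [map_mul]
        exact X.mul_mem (hlX s) (hlX s')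
      · rw [hl, e1, map_mul, hl, hl]
    have h2 : ⁅l s * l s', l t⁆ = ⁅l s', l t⁆ * ⁅l s, l t⁆ := by
      have h3 : l s * ⁅l s', l t⁆ = ⁅l s', l t⁆ * l s := (S.hZc _ _ (hcZ _ _ (hlX s') (hlX t)) (hlX s)).symm
      calc ⁅l s * l s', l t⁆ = (l s * ⁅l s', l t⁆) * (l s)⁻¹ * ⁅l s, l t⁆ := by
            simp only [commutatorElement_def]
            group
        _ = _ := by rw [h3]; group
    show e ⁅l (s + s'), l t⁆ = e ⁅l s, l t⁆ * e ⁅l s', l t⁆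
    rw [h1, h2, he_mul _ _ (hcZ _ _ (hlX s') (hlX t)) (hcZ _ _ (hlX s) (hlX t)),
      he_cen _ (hcZ _ _ (hlX s) (hlX t))]
  have hadd2 : ∀ s t t', z s (t + t') = z s t * z s t' := by
    intro s t t'
    obtain ⟨ζ, hζ, e1⟩ := hf3 t t'
    have h1 : ⁅l s, l (t + t')⁆ = ⁅l s, l t * l t'⁆ := by
      refine hcl _ _ _ _ (hlX s) ?_ ⟨1, Z.one_mem, by simp⟩ ⟨ζ, hζ, ?_⟩
      · rw [map_mul]
        exact X.mul_mem (hlX t) (hlX t')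
      · rw [hl, e1, map_mul, hl, hl]
    have h2 : ⁅l s, l t * l t'⁆ = ⁅l s, l t⁆ * ⁅l s, l t'⁆ := by
      have h3 : l t * ⁅l s, l t'⁆ = ⁅l s, l t'⁆ * l t := (S.hZc _ _ (hcZ _ _ (hlX s) (hlX t')) (hlX t)).symm
      calc ⁅l s, l t * l t'⁆ = ⁅l s, l t⁆ * ((l t * ⁅l s, l t'⁆) * (l t)⁻¹) := by
            simp only [commutatorElement_def]
            group
        _ = _ := by rw [h3]; group
    show e ⁅l s, l (t + t')⁆ = e ⁅l s, l t⁆ * e ⁅l s, l t'⁆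
    rw [h1, h2, he_mul _ _ (hcZ _ _ (hlX s) (hlX t)) (hcZ _ _ (hlX s) (hlX t'))]
  have hinv : ∀ κ : K, κ ≠ 0 → ∀ s t, z (κ * s) (κ * t) = z s t := by
    intro κ hκ s t
    obtain ⟨h, h1, h2, h3, h4⟩ := hscal κ hκ
    obtain ⟨δ, rfl⟩ := hs h
    obtain ⟨ζ, hζ, e1⟩ := h4 s
    obtain ⟨ζ', hζ', e2⟩ := h4 t
    have h5 : ⁅δ * l s * δ⁻¹, δ * l t * δ⁻¹⁆ = ⁅l (κ * s), l (κ * t)⁆ := by
      refine hcl _ _ _ _ (hlX _) (hlX _) ⟨ζ, hζ, ?_⟩ ⟨ζ', hζ', ?_⟩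
      · rw [map_mul, map_mul, map_inv, hl, e1, hl]
      · rw [map_mul, map_mul, map_inv, hl, e2, hl]
    have h6 : ⁅δ * l s * δ⁻¹, δ * l t * δ⁻¹⁆ = δ * ⁅l s, l t⁆ * δ⁻¹ := by
      simp only [commutatorElement_def]
      group
    show e ⁅l (κ * s), l (κ * t)⁆ = e ⁅l s, l t⁆
    rw [← h5, h6, he_conj δ _ h2 h3 (hcZ _ _ (hlX s) (hlX t))]
  have hz1 := form_vanish hK z hadd1 hadd2 hinv
  intro a b ha hb
  obtain ⟨s, ζ, hζ, e1⟩ := hf1 _ ha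
  obtain ⟨t, ζ', hζ', e2⟩ := hf1 _ hb
  have h1 : ⁅a, b⁆ = ⁅l s, l t⁆ :=
    hcl _ _ _ _ (hlX s) (hlX t) ⟨ζ, hζ, by rw [hl, e1]⟩ ⟨ζ', hζ', by rw [hl, e2]⟩
  rw [h1]
  have h2 : e ⁅l s, l t⁆ = 1 := hz1 s t
  have h3 : (pD (σ ⁅l s, l t⁆))⁻¹ * ⁅l s, l t⁆ = 1 := h2
  have h4 : ⁅l s, l t⁆ = pD (σ ⁅l s, l t⁆) := (inv_mul_eq_one.mp h3).symm
  rw [h4]
  exact hpD1 _ (hcZ _ _ (hlX s) (hlX t))

end FormS

end SzH

end SzS

end Cfsg.Agent.Lib.TF4Mult
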