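import Cfsg.Agent.Lib.TF4.Order
import Cfsg.Agent.Lib.TF4.Perf
import Cfsg.Agent.Lib.Twisted.Mult.InstChain
import Cfsg.Agent.Lib.TF4Mult.CoreS

/-!
# The torus of `²F₄`: two families of elements and the scalars on the root elements
-/

set_option autoImplicit false
set_option linter.unusedSectionVars false
set_option maxRecDepth 100000

namespace Cfsg.Agent.Lib.TF4Mult

open Cfsg.Lie Cfsg.Agent.Lib.Twisted
open Cfsg.Agent.Lib.TF4
open Cfsg.Agent.Lib.Chevalley.Tbl.F4 (sys comm)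
open Cfsg.Agent.Lib.ChevBN.Elem Cfsg.Agent.Lib.ChevBN.Table Cfsg.Agent.Lib.ChevBN.Rel
open Cfsg.Agent.Lib.ChevBN.Opp Cfsg.Agent.Lib.ChevBN.Torus Cfsg.Agent.Lib.ChevBN.Monomial
open Cfsg.Agent.Lib.ChevBN.Stmts Cfsg.Agent.Lib.ChevBN.Pair Cfsg.Agent.Lib.ChevBN.Perfect
open Cfsg.Agent.Lib.ChevOrder.Chev
open Cfsg.Agent.Lib.ChevBN.FastData (tbl_chevF4)
open scoped commutatorElement

variable {K : Type*} [Field K]

set_option quotPrecheck false in
/-- The root elements. -/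
local notation "Xr" => X (sys (F := _)).toAddRel

set_option quotPrecheck false in
/-- The torus elements. -/
local notation "hGr" => hG (sys (F := _)).toAddRel

/-- The exponents of the first family. -/
def Ii (j : Fin 2) (s : ℕ) : ℤ :=
  if j = 0 then chevF4.cartan 3 s + 2 * chevF4.cartan 2 s
  else 2 * chevF4.cartan 3 s - chevF4.cartan 0 s + chevF4.cartan 2 s

/-- The exponents of the second family. -/
def Jj (j : Fin 2) (s : ℕ) : ℤ :=
  if j = 0 then chevF4.cartan 0 s + 2 * chevF4.cartan 1 s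
  else 2 * chevF4.cartan 0 s - 2 * chevF4.cartan 3 s + chevF4.cartan 1 s

/-- The list of exponents with injective characters. -/
def okE (p : ℤ × ℤ) : Bool :=
  [(1, -2), (1, -1), (2, -2), (1, 0), (0, 1), (2, -3), (3, -4), (2, -4), (4, -6),
   (-1, 2), (-1, 1), (-2, 2), (-1, 0), (0, -1), (-2, 3), (-3, 4), (-2, 4), (-4, 6)].contains p

/-- The roots acted on trivially. -/
def triv (j : Fin 2) : List ℕ := if j = 0 then [14, 23, 24, 33] else [17, 19, 20, 22, 25, 27, 28, 30]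

theorem Ii_chk : ∀ j, ∀ s < chevF4.nroots, (s ∈ triv j → Ii j s = 0 ∧ Jj j s = 0) ∧
    (s ∉ triv j → okE (Ii j s, Jj j s) = true) := by decide +kernel

section Char
variable [CharP K 2] {φ : K →+* K} (hφ2 : ∀ t, (φ (φ t)) ^ 2 = t)

/-- The first kind of scalars. -/
noncomputable def sc (φ : K →+* K) (j : Fin 2) (t : K) (s : ℕ) : K := t ^ Ii j s * (φ t) ^ Jj j s

omit [CharP K 2] in
theorem sq_inj [CharP K 2] {a b : K} (h : a ^ 2 = b ^ 2) : a = b := by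
  have h1 : (a - b) ^ 2 = 0 := by
    have h2 : (2 : K) = 0 := CharTwo.two_eq_zero
    linear_combination h - (a * b) * h2 + b ^ 2 * h2
  have := pow_eq_zero_iff (two_ne_zero) |>.1 h1
  exact sub_eq_zero.1 this

include hφ2

theorem e_1m2 {t : K} (ht : t ≠ 0) (h : t = (φ t) ^ 2) : t = 1 := by
  have h1 := congrArg φ h
  rw [map_pow, hφ2] at h1
  have h2 : t = t ^ 2 := by
    nth_rewrite 1 [h]
    rw [h1]
  have h3 : t * (t - 1) = 0 := by
    linear_combination -h2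
  rcases mul_eq_zero.1 h3 with h4 | h4
  · exact absurd h4 ht
  · exact sub_eq_zero.1 h4

theorem e_1m1 {t : K} (ht : t ≠ 0) (h : t = φ t) : t = 1 := by
  have h1 : φ t = φ (φ t) := congrArg φ h
  have h2 := hφ2 t
  rw [← h1, ← h] at h2
  have h3 : t * (t - 1) = 0 := by
    linear_combination h2
  rcases mul_eq_zero.1 h3 with h4 | h4
  · exact absurd h4 ht
  · exact sub_eq_zero.1 h4

theorem e_2m3 {t : K} (ht : t ≠ 0) (h : t ^ 2 = (φ t) ^ 3) : t = 1 := by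
  have hb : φ t ≠ 0 := (map_ne_zero φ).2 ht
  have hc : φ (φ t) ≠ 0 := (map_ne_zero φ).2 hb
  have h1 := congrArg φ h
  rw [map_pow, map_pow] at h1
  have h2 := hφ2 t
  set b := φ t with hbd
  set c := φ b with hcd
  have h3 : c ^ 4 = b ^ 3 := by
    rw [← h, ← h2]
    ring
  have h4 : c = b := by
    apply mul_left_cancel₀ (pow_ne_zero 3 hc)
    calc c ^ 3 * c = c ^ 4 := by ring
      _ = b ^ 3 := h3
      _ = b * b ^ 2 := by ring
      _ = b * c ^ 3 := by rw [h1]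
      _ = c ^ 3 * b := by ring
  rw [h4] at h1
  have h5 : b = 1 := by
    apply mul_left_cancel₀ (pow_ne_zero 2 hb)
    rw [mul_one]
    calc b ^ 2 * b = b ^ 3 := by ring
      _ = b ^ 2 := h1.symm
  have h6 : t = 1 := by
    apply RingHom.injective φ
    rw [map_one]
    exact h5
  exact h6

theorem e_3m4 {t : K} (ht : t ≠ 0) (h : t ^ 3 = (φ t) ^ 4) : t = 1 := by
  have hb : φ t ≠ 0 := (map_ne_zero φ).2 ht
  have h1 := congrArg φ h
  rw [map_pow, map_pow] at h1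
  have h2 := hφ2 t
  set b := φ t with hbd
  set c := φ b with hcd
  have h3 : b ^ 3 = t ^ 2 := by
    rw [h1, ← h2]
    ring
  have h4 : t = b := by
    apply mul_left_cancel₀ (pow_ne_zero 2 ht)
    calc t ^ 2 * t = t ^ 3 := by ring
      _ = b ^ 4 := h
      _ = b ^ 3 * b := by ring
      _ = t ^ 2 * b := by rw [h3]
  rw [h4] at h3
  have h5 : b = 1 := by
    apply mul_left_cancel₀ (pow_ne_zero 2 hb)
    rw [mul_one]
    calc b ^ 2 * b = b ^ 3 := by ring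
      _ = b ^ 2 := h3
  have h6 : t = 1 := by
    rw [h4]
    exact h5
  exact h6

omit hφ2 in
theorem z2 (x : K) : x ^ (2 : ℤ) = x ^ 2 := by
  rw [show (2 : ℤ) = ((2 : ℕ) : ℤ) from rfl, zpow_natCast]

omit hφ2 in
theorem pow2z (x : K) (n : ℤ) : (x ^ 2) ^ n = x ^ (2 * n) := by
  rw [← z2, ← zpow_mul]

theorem okE_imp {t : K} (ht : t ≠ 0) {p : ℤ × ℤ} (hp : okE p = true) (h : t ^ p.1 * (φ t) ^ p.2 = 1) : t = 1 := by
  have hb : φ t ≠ 0 := (map_ne_zero φ).2 ht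
  have key : ∀ (i j : ℤ), t ^ (-i) * (φ t) ^ (-j) = 1 → t ^ i * (φ t) ^ j = 1 := by
    intro i j h1
    rw [zpow_neg, zpow_neg, ← mul_inv, inv_eq_one] at h1
    exact h1
  have hn : ∀ (a b : ℕ), t ^ (a : ℤ) * (φ t) ^ (-(b : ℤ)) = 1 → t ^ a = (φ t) ^ b := by
    intro a b h1
    rw [zpow_natCast, zpow_neg, zpow_natCast] at h1
    field_simp at h1
    exact h1
  have c1 : ∀ (h : t ^ (1 : ℤ) * (φ t) ^ (-2 : ℤ) = 1), t = 1 := fun h =>
    e_1m2 hφ2 ht (by simpa using hn 1 2 (by exact_mod_cast h))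
  have c2 : ∀ (h : t ^ (1 : ℤ) * (φ t) ^ (-1 : ℤ) = 1), t = 1 := fun h =>
    e_1m1 hφ2 ht (by simpa using hn 1 1 (by exact_mod_cast h))
  have c3 : ∀ (h : t ^ (2 : ℤ) * (φ t) ^ (-2 : ℤ) = 1), t = 1 := fun h =>
    e_1m1 hφ2 ht (sq_inj (hn 2 2 (by exact_mod_cast h)))
  have c4 : ∀ (h : t ^ (1 : ℤ) * (φ t) ^ (0 : ℤ) = 1), t = 1 := fun h => by simpa using h
  have c5 : ∀ (h : t ^ (0 : ℤ) * (φ t) ^ (1 : ℤ) = 1), t = 1 := fun h => by
    apply RingHom.injective φ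
    rw [map_one]
    simpa using h
  have c6 : ∀ (h : t ^ (2 : ℤ) * (φ t) ^ (-3 : ℤ) = 1), t = 1 := fun h =>
    e_2m3 hφ2 ht (hn 2 3 (by exact_mod_cast h))
  have c7 : ∀ (h : t ^ (3 : ℤ) * (φ t) ^ (-4 : ℤ) = 1), t = 1 := fun h =>
    e_3m4 hφ2 ht (hn 3 4 (by exact_mod_cast h))
  have c8 : ∀ (h : t ^ (2 : ℤ) * (φ t) ^ (-4 : ℤ) = 1), t = 1 := fun h => by
    have h1 := hn 2 4 (by exact_mod_cast h)
    exact e_1m2 hφ2 ht (sq_inj (by rw [h1]; ring))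
  have c9 : ∀ (h : t ^ (4 : ℤ) * (φ t) ^ (-6 : ℤ) = 1), t = 1 := fun h => by
    have h1 := hn 4 6 (by exact_mod_cast h)
    exact e_2m3 hφ2 ht (sq_inj (by
      calc (t ^ 2) ^ 2 = t ^ 4 := by ring
        _ = (φ t) ^ 6 := h1
        _ = _ := by ring))
  simp only [okE, List.contains_iff_mem, List.mem_cons, List.not_mem_nil, or_false] at hp
  rcases hp with rfl | rfl | rfl | rfl | rfl | rfl | rfl | rfl | rfl | rfl | rfl | rfl | rfl | rfl | rfl | rfl | rfl | rfl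
  · exact c1 h
  · exact c2 h
  · exact c3 h
  · exact c4 h
  · exact c5 h
  · exact c6 h
  · exact c7 h
  · exact c8 h
  · exact c9 h
  · exact c1 (key _ _ (by simpa using h))
  · exact c2 (key _ _ (by simpa using h))
  · exact c3 (key _ _ (by simpa using h))
  · exact c4 (key _ _ (by simpa using h))
  · exact c5 (key _ _ (by simpa using h))
  · exact c6 (key _ _ (by simpa using h))
  · exact c7 (key _ _ (by simpa using h))
  · exact c8 (key _ _ (by simpa using h))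
  · exact c9 (key _ _ (by simpa using h))

/-- The torus elements of the two families. -/
noncomputable def hF (φ : K →+* K) (j : Fin 2) (t : K) : GL chevF4.Idx K :=
  if j = 0 then hh φ 0 t * hh φ 1 (t ^ 2) else hh φ 0 (t ^ 2 / (φ t) ^ 2) * hh φ 1 t

omit hφ2 in
theorem hh0_conj {β : K} (hβ : β ≠ 0) {s : ℕ} (hs : s < chevF4.nroots) (t : K) :
    hh φ 0 β * Xr s t * (hh φ 0 β)⁻¹ = Xr s ((φ β) ^ chevF4.cartan 0 s * β ^ chevF4.cartan 3 s * t) := by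
  have h1 := hG_simple_conj (sys (F := K)) (i := 0) (by decide +kernel) hs (φ_ne (φ := φ) hβ)
  have h2 := hG_simple_conj (sys (F := K)) (i := 3) (by decide +kernel) hs hβ
  rw [simple_eq.1] at h1
  rw [simple_eq.2.2.2] at h2
  have e1 : hh φ 0 β * Xr s t * (hh φ 0 β)⁻¹ = hGr 33 (φ β) * (hGr 24 β * Xr s t * (hGr 24 β)⁻¹) * (hGr 33 (φ β))⁻¹ := by
    change hGr 33 (φ β) * hGr 24 β * Xr s t * (hGr 33 (φ β) * hGr 24 β)⁻¹ = _
    group
  rw [e1, h2, h1, mul_assoc]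

omit hφ2 in
theorem hh1_conj' {β : K} (hβ : β ≠ 0) {s : ℕ} (hs : s < chevF4.nroots) (t : K) :
    hh φ 1 β * Xr s t * (hh φ 1 β)⁻¹ = Xr s ((φ β) ^ chevF4.cartan 1 s * β ^ chevF4.cartan 2 s * t) := by
  have h1 := hG_simple_conj (sys (F := K)) (i := 1) (by decide +kernel) hs (φ_ne (φ := φ) hβ)
  have h2 := hG_simple_conj (sys (F := K)) (i := 2) (by decide +kernel) hs hβ
  rw [simple_eq.2.1] at h1
  rw [simple_eq.2.2.1] at h2
  have e1 : hh φ 1 β * Xr s t * (hh φ 1 β)⁻¹ = hGr 27 (φ β) * (hGr 25 β * Xr s t * (hGr 25 β)⁻¹) * (hGr 27 (φ β))⁻¹ := by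
    change hGr 27 (φ β) * hGr 25 β * Xr s t * (hGr 27 (φ β) * hGr 25 β)⁻¹ = _
    group
  rw [e1, h2, h1, mul_assoc]

omit hφ2 in
/-- The product of two torus elements. -/
theorem hh2_conj {a b : K} (ha : a ≠ 0) (hb : b ≠ 0) {s : ℕ} (hs : s < chevF4.nroots) (t : K) :
    (hh φ 0 a * hh φ 1 b) * Xr s t * (hh φ 0 a * hh φ 1 b)⁻¹ =
      Xr s (((φ a) ^ chevF4.cartan 0 s * a ^ chevF4.cartan 3 s) * ((φ b) ^ chevF4.cartan 1 s * b ^ chevF4.cartan 2 s) * t) := by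
  have e : (hh φ 0 a * hh φ 1 b) * Xr s t * (hh φ 0 a * hh φ 1 b)⁻¹ =
      hh φ 0 a * (hh φ 1 b * Xr s t * (hh φ 1 b)⁻¹) * (hh φ 0 a)⁻¹ := by group
  rw [e, hh1_conj' hb hs, hh0_conj ha hs]
  congr 1
  ring

omit hφ2 in
theorem hF_ne {j : Fin 2} {t : K} (ht : t ≠ 0) :
    (if j = 0 then t else t ^ 2 / (φ t) ^ 2) ≠ 0 ∧ (if j = 0 then t ^ 2 else t) ≠ 0 := by
  have hb : φ t ≠ 0 := (map_ne_zero φ).2 ht
  split_ifs
  · exact ⟨ht, pow_ne_zero _ ht⟩
  · exact ⟨div_ne_zero (pow_ne_zero _ ht) (pow_ne_zero _ hb), ht⟩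

/-- The action of the torus elements on the root elements. -/
theorem hF_conj (j : Fin 2) {t : K} (ht : t ≠ 0) {s : ℕ} (hs : s < chevF4.nroots) (u : K) :
    hF φ j t * Xr s u * (hF φ j t)⁻¹ = Xr s (sc φ j t s * u) := by
  have hb : φ t ≠ 0 := (map_ne_zero φ).2 ht
  match j with
  | 0 =>
    have h1 : hF φ 0 t = hh φ 0 t * hh φ 1 (t ^ 2) := if_pos rfl
    rw [h1, hh2_conj ht (pow_ne_zero _ ht) hs]
    congr 2
    simp only [sc, Ii, Jj, if_true, map_pow]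
    rw [zpow_add₀ ht, zpow_add₀ hb, pow2z, pow2z]
    ring
  | 1 =>
    have h1 : hF φ 1 t = hh φ 0 (t ^ 2 / (φ t) ^ 2) * hh φ 1 t := if_neg (by decide)
    have hc : t ^ 2 / (φ t) ^ 2 ≠ 0 := div_ne_zero (pow_ne_zero _ ht) (pow_ne_zero _ hb)
    rw [h1, hh2_conj hc ht hs]
    congr 2
    have h2 : φ (t ^ 2 / (φ t) ^ 2) = (φ t) ^ 2 / t := by
      rw [map_div₀, map_pow, map_pow, hφ2]
    have ne1 : (1 : Fin 2) ≠ 0 := by decide
    simp only [sc, Ii, Jj, if_neg ne1]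
    rw [h2, div_zpow, div_zpow, pow2z, pow2z, pow2z, zpow_add₀ ht, zpow_sub₀ ht, zpow_add₀ hb, zpow_sub₀ hb]
    ring

theorem sc_triv {j : Fin 2} {t : K} {s : ℕ} (hs : s < chevF4.nroots) (h : s ∈ triv j) : sc φ j t s = 1 := by
  obtain ⟨h1, h2⟩ := (Ii_chk j s hs).1 h
  simp [sc, h1, h2]

theorem sc_ne {j : Fin 2} {t : K} (ht : t ≠ 0) (ht1 : t ≠ 1) {s : ℕ} (hs : s < chevF4.nroots) (h : s ∉ triv j) : sc φ j t s ≠ 1 :=
  fun e => ht1 (okE_imp hφ2 ht ((Ii_chk j s hs).2 h) e)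

section Mem
variable [Finite K] {T : Tw (sys (F := K)).toAddRel} (hρ : T.ρ = ρ0) (hτ : ∀ r t, T.τ r t = lam r (φ t)) {e : ℕ}
  (hφ : ∀ t, φ t = t ^ e)

omit hφ2 in
theorem hF_H (j : Fin 2) {t : K} (ht : t ≠ 0) : hF φ j t ∈ chevF4.diagonalSubgroup K := by
  have hb : φ t ≠ 0 := (map_ne_zero φ).2 ht
  match j with
  | 0 =>
    have h1 : hF φ 0 t = hh φ 0 t * hh φ 1 (t ^ 2) := if_pos rfl
    rw [h1]
    exact Subgroup.mul_mem _ (hh_H 0 ht) (hh_H 1 (pow_ne_zero _ ht))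
  | 1 =>
    have h1 : hF φ 1 t = hh φ 0 (t ^ 2 / (φ t) ^ 2) * hh φ 1 t := if_neg (by decide)
    rw [h1]
    exact Subgroup.mul_mem _ (hh_H 0 (div_ne_zero (pow_ne_zero _ ht) (pow_ne_zero _ hb))) (hh_H 1 ht)

include hρ hτ hφ

theorem hF_G (j : Fin 2) {t : K} (ht : t ≠ 0) : hF φ j t ∈ twistedF4 K e := by
  have hb : φ t ≠ 0 := (map_ne_zero φ).2 ht
  match j with
  | 0 =>
    have h1 : hF φ 0 t = hh φ 0 t * hh φ 1 (t ^ 2) := if_pos rfl
    rw [h1]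
    exact Subgroup.mul_mem _ (hh_mem hφ2 hρ hτ hφ 0 ht) (hh_mem hφ2 hρ hτ hφ 1 (pow_ne_zero _ ht))
  | 1 =>
    have h1 : hF φ 1 t = hh φ 0 (t ^ 2 / (φ t) ^ 2) * hh φ 1 t := if_neg (by decide)
    rw [h1]
    exact Subgroup.mul_mem _ (hh_mem hφ2 hρ hτ hφ 0 (div_ne_zero (pow_ne_zero _ ht) (pow_ne_zero _ hb)))
      (hh_mem hφ2 hρ hτ hφ 1 ht)

end Mem

/-- Every scalar is realised. -/
theorem exists_scal [Finite K] (j : Fin 2) {s : ℕ} (h1 : Ii j s = 3) (h2 : Jj j s = -4) {κ : K} (hκ : κ ≠ 0) :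
    ∃ t : K, t ≠ 0 ∧ sc φ j t s = κ := by
  classical
  have hform : ∀ t : K, t ≠ 0 → sc φ j t s = t ^ 3 / (φ t) ^ 4 := by
    intro t _
    simp only [sc, h1, h2]
    rw [zpow_neg, div_eq_mul_inv]
    norm_cast
  let f : Kˣ → Kˣ := fun u => Units.mk0 ((u : K) ^ 3 / (φ (u : K)) ^ 4)
    (div_ne_zero (pow_ne_zero _ u.ne_zero) (pow_ne_zero _ ((map_ne_zero φ).2 u.ne_zero)))
  have hf : Function.Injective f := by
    intro u v e
    have e1 : (u : K) ^ 3 / (φ (u : K)) ^ 4 = (v : K) ^ 3 / (φ (v : K)) ^ 4 := congrArg Units.val e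
    have hu := u.ne_zero
    have hv := v.ne_zero
    have hu' := (map_ne_zero φ).2 hu
    have hv' := (map_ne_zero φ).2 hv
    have e2 : ((u : K) / v) ^ 3 = (φ ((u : K) / v)) ^ 4 := by
      rw [map_div₀, div_pow, div_pow]
      field_simp at e1 ⊢
      linear_combination e1
    have e3 := e_3m4 hφ2 (div_ne_zero hu hv) e2
    apply Units.ext
    field_simp at e3
    exact e3
  obtain ⟨u, hu⟩ := (Finite.injective_iff_surjective.mp hf) (Units.mk0 κ hκ)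
  refine ⟨u, u.ne_zero, ?_⟩
  rw [hform _ u.ne_zero]
  exact congrArg Units.val hu

end Char

end Cfsg.Agent.Lib.TF4Mult
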